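import Cfsg.Agent.H925.ExtStep
import Cfsg.Agent.ClassicalGeometry.Discriminant
import Cfsg.Agent.H925.OrthNot
import Cfsg.Agent.H887.OmegaBridge
import Cfsg.Agent.H926.Deg
set_option linter.all false

-- part: H925/ExtGen
section
/-!
# Overgroups of `Ω(V, QK)` in `Ω(V, τ ∘ QK)`, IX: commutator subgroup of `O QK` in odd characteristic

* `siegel_mem_comm`, `E_le_comm` : `E QK ≤ ⁅O QK, O QK⁆`;
* `refl_mul_refl_mem_comm` : products of two reflections of the same norm;
* `exists_move_sing` : transitivity on singular vectors, up to squares.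
-/

set_option autoImplicit false
set_option linter.unusedSectionVars false

namespace Cfsg.Agent.H925.Ext

open QuadraticMap Cfsg.Agent.LieClassical.OrthCore Cfsg.Agent.LieClassical.OrthTrans
  Cfsg.Agent.LieClassical.OrthFinite Cfsg.Agent.H883.Root Cfsg.Agent.H883.Sub
open scoped commutatorElement

section One

variable {K V : Type*} [Field K] [AddCommGroup V] [Module K V] {QK : QuadraticForm K V}

/-- The isometry which is `1` on the hyperbolic plane and `-1` on its complement. -/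
theorem exists_invol {v v' : V} (hyp : Hyp QK v v') :
    ∃ g ∈ O QK, g v = v ∧ g v' = v' ∧ ∀ x, g x = -x + (2 * polar QK v' x) • v +
      (2 * polar QK v x) • v' := by
  let f : V →ₗ[K] V := -LinearMap.id + (2 : K) • (polarBilin QK v').smulRight v +
    (2 : K) • (polarBilin QK v).smulRight v'
  have hf : ∀ x, f x = -x + (2 * polar QK v' x) • v + (2 * polar QK v x) • v' := by
    intro x
    simp only [f, LinearMap.add_apply, LinearMap.neg_apply, LinearMap.id_apply,
      LinearMap.smul_apply, LinearMap.smulRight_apply, polarBilin_apply_apply, smul_smul]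
  have hff : ∀ x, f (f x) = x := by
    intro x
    rw [hf (f x), hf x]
    simp only [polar_add_right, polar_neg_right, polar_smul_right, hyp.pair, hyp.pair',
      hyp.polar_left, hyp.polar_right, smul_eq_mul]
    module
  let g : V ≃ₗ[K] V := LinearEquiv.ofLinearMap f f (by ext x; exact hff x) (by ext x; exact hff x)
  have hg : ∀ x, g x = f x := fun x => rfl
  refine ⟨g, fun x => ?_, ?_, ?_, fun x => by rw [hg, hf]⟩
  · rw [hg, hf]
    rw [Q_add, Q_add, QuadraticMap.map_neg, QuadraticMap.map_smul, QuadraticMap.map_smul,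
      hyp.left, hyp.right, polar_add_left, polar_neg_left, polar_smul_right, polar_smul_left,
      polar_smul_right, polar_smul_right, polar_neg_left, hyp.pair, polar_comm QK x v,
      polar_comm QK x v']
    simp only [smul_eq_mul]
    ring
  · rw [hg, hf, hyp.pair', hyp.polar_left]
    module
  · rw [hg, hf, hyp.pair, hyp.polar_right]
    module

theorem has_comm_of_fix {g : V ≃ₗ[K] V} (hg : g ∈ O QK) {v w : V} (hv : QK v = 0)
    (hw : polar QK v w = 0) (hgv : g v = v) : Has QK ⁅O QK, O QK⁆ v (g w - w) := by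
  have hgw : polar QK v (g w) = 0 := by
    nth_rewrite 1 [← hgv]
    rw [polar_map hg]
    exact hw
  have h1 : polar QK v (g w - w) = 0 := by rw [polar_sub_right, hgw, hw, sub_zero]
  refine ⟨hv, h1, ?_⟩
  have hv' : QK (g v) = 0 := by rw [hgv]; exact hv
  have hw' : polar QK (g v) (g w) = 0 := by rw [polar_map hg]; exact hw
  have hnw : polar QK v (-w) = 0 := by rw [polar_neg_right, hw, neg_zero]
  have h2 : g * siegel QK v w hv hw * g⁻¹ = siegel QK v (g w) hv hgw := by
    rw [siegel_conj hg hv hw hv' hw']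
    congr 1
  have h3 : ⁅g, siegel QK v w hv hw⁆ = siegel QK v (g w + -w) hv (by
      rw [← sub_eq_add_neg]; exact h1) := by
    rw [commutatorElement_def, h2, siegel_inv hv hw hnw, siegel_mul hv hgw hnw]
  have h4 : siegel QK v (g w - w) hv h1 = ⁅g, siegel QK v w hv hw⁆ := by
    rw [h3]
    congr 1
    rw [sub_eq_add_neg]
  rw [h4]
  exact Subgroup.commutator_mem_commutator hg (siegel_mem_O hv hw)

/-- In odd characteristic the Siegel transformations are commutators. -/
theorem siegel_mem_comm (hQ : Nondeg QK) (h2 : (2 : K) ≠ 0) {v w : V} (hv : QK v = 0)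
    (hw : polar QK v w = 0) : Has QK ⁅O QK, O QK⁆ v w := by
  by_cases hv0 : v = 0
  · subst hv0
    exact has_zero_left w
  obtain ⟨v', hyp⟩ := Cfsg.Agent.LieClassical.OrthTrans.exists_hyp hQ hv hv0
  obtain ⟨g, hg, hgv, -, hgx⟩ := exists_invol hyp
  have hw' : polar QK v ((-(2 : K)⁻¹) • w) = 0 := by rw [polar_smul_right, hw, smul_zero]
  have h1 := has_comm_of_fix hg hv hw' hgv
  have h3 := h1.add_smul_self (polar QK v' w)
  refine h3.congr rfl ?_
  rw [hgx, polar_smul_right, polar_smul_right, hw]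
  simp only [smul_eq_mul]
  have e : (2 : K) * (-2⁻¹ * polar QK v' w) = -polar QK v' w := by field_simp
  have e' : w = (2 : K) • ((2 : K)⁻¹ • w) := by rw [smul_smul, mul_inv_cancel₀ h2, one_smul]
  rw [e]
  conv_rhs => rw [e']
  module

theorem E_le_comm (hQ : Nondeg QK) (h2 : (2 : K) ≠ 0) : E QK ≤ ⁅O QK, O QK⁆ := by
  rw [E, Subgroup.closure_le]
  rintro _ ⟨u, w, hu, hw, rfl⟩
  exact (siegel_mem_comm hQ h2 hu hw).mem hu hw

/-- Two reflections of the same norm are conjugate. -/
theorem refl_mul_refl_mem_comm (h2 : (2 : K) ≠ 0) {a b : V} (ha : QK a ≠ 0) (hb : QK b ≠ 0)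
    (h : QK a = QK b) : refl QK a ha * refl QK b hb ∈ ⁅O QK, O QK⁆ := by
  -- an isometry `g` with `g a = ± b`
  obtain ⟨g, hg, hgab⟩ : ∃ g ∈ O QK, g a = b ∨ g a = -b := by
    by_cases h3 : QK (a - b) = 0
    · have h4 : QK (a + b) ≠ 0 := by
        intro h4
        have e1 : QK (a + b) = QK a + QK b + polar QK a b := QuadraticMap.map_add QK a b
        have e2 : QK (a - b) = QK a + QK b - polar QK a b := by
          rw [sub_eq_add_neg, Q_add, QuadraticMap.map_neg, polar_neg_right]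
          ring
        rw [e1] at h4
        rw [e2] at h3
        have h5 : (2 : K) * (2 * QK b) = 0 := by linear_combination h3 + h4 - 2 * h
        rcases mul_eq_zero.1 h5 with h6 | h6
        · exact h2 h6
        · rcases mul_eq_zero.1 h6 with h7 | h7
          · exact h2 h7
          · exact hb h7
      have h5 : QK (a - -b) ≠ 0 := by rw [sub_neg_eq_add]; exact h4
      refine ⟨refl QK (a - -b) h5, refl_mem_O h5, Or.inr ?_⟩
      exact refl_sub_apply (by rw [QuadraticMap.map_neg, h]) h5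
    · exact ⟨refl QK (a - b) h3, refl_mem_O h3, Or.inl (refl_sub_apply h.symm h3)⟩
  have hga : QK (g a) ≠ 0 := by rw [mem_O.1 hg]; exact ha
  have e : refl QK b hb = refl QK (g a) hga := by
    rcases hgab with e | e
    · congr 1; exact e.symm
    · have h3 : QK ((-1 : K) • b) ≠ 0 := by
        rw [neg_one_smul, QuadraticMap.map_neg]; exact hb
      rw [← refl_smul hb (neg_ne_zero.2 one_ne_zero) h3]
      congr 1
      rw [e, neg_one_smul]
  have e2 : refl QK a ha * refl QK b hb = ⁅refl QK a ha, g⁆ := by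
    rw [e, ← refl_conj hg ha hga, commutatorElement_def, refl_inv, ← mul_assoc, ← mul_assoc]
  rw [e2]
  exact Subgroup.commutator_mem_commutator (refl_mem_O ha) hg

/-- Moving a singular vector to a nonorthogonal one. -/
theorem exists_move_sing (h2 : (2 : K) ≠ 0) {v v₁ w : V} (hv : QK v = 0) (hv₁ : QK v₁ = 0)
    (hvv : polar QK v v₁ ≠ 0) (hw : QK w ≠ 0) (hvw : polar QK v w = 0) :
    ∃ g ∈ ⁅O QK, O QK⁆, g v = (-(QK w) * (polar QK v v₁)⁻¹) • v₁ := by
  set c := -(QK w) * (polar QK v v₁)⁻¹ with hc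
  have h1 : QK (v - c • v₁) = QK w := by
    rw [sub_eq_add_neg, ← neg_smul, Q_add, QuadraticMap.map_smul, hv, hv₁, polar_smul_right, hc]
    simp only [smul_eq_mul]
    field_simp
    ring
  have h3 : QK (v - c • v₁) ≠ 0 := by rw [h1]; exact hw
  refine ⟨_, refl_mul_refl_mem_comm h2 h3 hw h1, ?_⟩
  show refl QK (v - c • v₁) h3 (refl QK w hw v) = c • v₁
  have h4 : refl QK w hw v = v := by
    rw [refl_apply, polar_comm QK w v, hvw]
    simp
  rw [h4]
  exact refl_sub_apply (by rw [QuadraticMap.map_smul, hv₁, hv, smul_zero]) h3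

end One

end Cfsg.Agent.H925.Ext
end

-- part: H925/ExtMain
section
/-!
# Overgroups of `Ω(V, QK)` in `Ω(V, τ ∘ QK)`, VIII: the theorem when `dim_K V ≥ 5`
-/

set_option autoImplicit false
set_option linter.unusedSectionVars false

namespace Cfsg.Agent.H925.Ext

open QuadraticMap Cfsg.Agent.LieClassical.OrthCore Cfsg.Agent.LieClassical.OrthTrans
  Cfsg.Agent.LieClassical.OrthFinite Cfsg.Agent.H883.Root Cfsg.Agent.H883.Sub

variable {F K V : Type*} [Field F] [Field K] [Algebra F K] [AddCommGroup V]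
  [Module F V] [Module K V] [IsScalarTower F K V]

variable {τ : K →ₗ[F] F} {QK : QuadraticForm K V} {Q : QuadraticForm F V}
  {H : Subgroup (V ≃ₗ[F] V)}

section Fin

variable [FiniteDimensional F V] [FiniteDimensional F K]

theorem exists_sub_mem {X Z : Submodule F V} (hZX : Z ≤ X) {a : V} (ha : a ∈ X) (haZ : a ∉ Z)
    (hfin : Module.finrank F X ≤ Module.finrank F Z + 1) : ∀ x ∈ X, ∃ c : F, x - c • a ∈ Z := by
  have h1 := finrank_sup_line (le_refl (Module.finrank F Z)) haZ
  have h2 : Z ⊔ Submodule.span F {a} = X := by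
    apply Submodule.eq_of_le_of_finrank_le
    · refine sup_le hZX ?_
      rw [Submodule.span_singleton_le_iff_mem]
      exact ha
    · omega
  intro x hx
  rw [← h2] at hx
  obtain ⟨z, hz, y, hy, rfl⟩ := Submodule.mem_sup.1 hx
  obtain ⟨c, rfl⟩ := Submodule.mem_span_singleton.1 hy
  exact ⟨c, by rw [add_sub_cancel_right]; exact hz⟩

/-- From a non-orthogonal pair of points meeting in a hyperplane to `E Q ≤ H`. -/
theorem Setup.of_nonOrthAdj [Finite F] (hS : Setup τ QK Q H) (h2 : (2 : F) ≠ 0)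
    (hA : NonOrthAdj QK Q H) : E Q ≤ H := by
  have hP : Pre τ QK Q H := ⟨hS.tr, hS.nondeg, hS.hHO, hS.hE⟩
  have hdim := hS.dim
  have hdeg := hS.deg
  have hG : Good Q := good_of_finite (hS.tr.nondeg hS.nondeg) (by omega)
  obtain ⟨X, Y, hX, hY, hint, a, ha, b, hb, hab⟩ := hA
  obtain ⟨g, hg, v, hv, hv0, e⟩ := hX.exists_line
  have hgO := hS.hHO hg
  have hY' : IsPoint QK H (Y.map (g : V →ₗ[F] V)) := hY.map hg
  have ha' : g a ∈ line F K v := by rw [← e]; exact ⟨a, ha, rfl⟩
  have hb' : g b ∈ Y.map (g : V →ₗ[F] V) := ⟨b, hb, rfl⟩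
  have hab' : polar Q (g a) (g b) ≠ 0 := by rw [polar_map hgO]; exact hab
  have hint' : Module.finrank F K ≤
      Module.finrank F (line F K v ⊓ Y.map (g : V →ₗ[F] V) : Submodule F V) + 1 := by
    rw [← e, finrank_map_inf]; exact hint
  have haZ : g a ∉ line F K v ⊓ Y.map (g : V →ₗ[F] V) :=
    fun h => hab' (polar_zero_of_ts (hY'.sing hP) h.2 hb')
  have hbZ : g b ∉ line F K v ⊓ Y.map (g : V →ₗ[F] V) :=
    fun h => hab' (polar_zero_of_ts (line_sing hS.tr hv) ha' h.1)
  exact hS.core h2 hG hv hv0 (hY'.isPt hP) (hY'.sing hP) inf_le_left inf_le_right ha' hb'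
    (exists_sub_mem inf_le_left ha' haZ (by rw [finrank_line hv0]; exact hint'))
    (exists_sub_mem inf_le_right hb' hbZ (by rw [hY'.finrank]; exact hint')) hab'

theorem setup_of_five [Finite K] (hP : Pre τ QK Q H) (hd : 5 ≤ Module.finrank K V)
    (hr : 2 ≤ Module.finrank F K) : Setup τ QK Q H where
  tr := hP.tr
  nondeg := hP.nondeg
  hHO := hP.hHO
  hE := hP.hE
  trans := by
    intro v v' hv hv' hv0 hv'0
    obtain ⟨g, hg, e⟩ := (good_of_finite hP.nondeg hd).trans_sing hv hv' hv0 hv'0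
    exact ⟨g, E_le_O hg, hP.hE g hg, 1, one_ne_zero, by rw [one_smul]; exact e⟩
  vals := by
    intro v hv hv0 κ hκ
    have hG : Good QK := good_of_finite hP.nondeg hd
    obtain ⟨v', hyp⟩ := Cfsg.Agent.LieClassical.OrthTrans.exists_hyp hP.nondeg hv hv0
    obtain ⟨b, c, hbc, hvb, hvc, hv'b, hv'c⟩ := hG.exists_hyp2 hyp
    obtain ⟨h1, h2⟩ := exists_value hbc κ
    apply Submodule.subset_span
    refine ⟨b + κ • c, ?_, ?_, h1, hκ⟩
    · rw [polar_add_right, polar_smul_right, hvb, hvc, smul_zero, add_zero]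
    · intro h
      obtain ⟨k, hk⟩ := mem_line.1 h
      have h3 : polar QK v' (k • v) = k := by
        rw [polar_smul_right, hyp.pair', smul_eq_mul, mul_one]
      have h4 : polar QK v' (b + κ • c) = 0 := by
        rw [polar_add_right, polar_smul_right, hv'b, hv'c, smul_zero, add_zero]
      rw [← hk, h3] at h4
      rw [h4, zero_smul] at hk
      exact h2 hk.symm
  sing := by
    obtain ⟨v, hv0, hv⟩ := (good_of_finite hP.nondeg hd).sing
    exact ⟨v, hv0, hv⟩
  deg := hr
  dim := by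
    rw [← Module.finrank_mul_finrank F K V]
    nlinarith

/-- **Overgroups of `Ω(V, QK)`, `dim_K V ≥ 5`.** -/
theorem main_five [Finite F] [Finite K] (hP : Pre τ QK Q H) (h2 : (2 : F) ≠ 0)
    (hd : 5 ≤ Module.finrank K V) (hr : (Module.finrank F K).Prime)
    (hH : ¬ ∀ g ∈ H, NormK K g) : E Q ≤ H := by
  have h2K : (2 : K) ≠ 0 := by
    intro h0
    apply h2
    apply (algebraMap F K).injective
    rw [map_ofNat, map_zero]
    exact h0
  push Not at hH
  obtain ⟨g, hg, hgK⟩ := hH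
  obtain ⟨u, v, hyp⟩ := (good_of_finite hP.nondeg hd).exists_hyp
  obtain ⟨v, k, hv, hv0, hk⟩ := exists_not_line hP.tr hP.nondeg (by omega) h2K hyp (hP.hHO hg) hgK
  have hY : IsPoint QK H ((line F K v).map (g : V →ₗ[F] V)) := (isPoint_line hv hv0).map hg
  have h1 : Adj QK H 1 := adj_one hP (by omega) h2K hY (x := g v) (y := g (k • v))
    ⟨v, self_mem_line v, rfl⟩ ⟨k • v, smul_mem_line k v, rfl⟩
    (fun h0 => hv0 (g.injective (by rw [h0, map_zero]))) hk
  have h3 := adj_all hP hr h2K hd h1 (Module.finrank F K - 1) (by have := hr.two_le; omega)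
  exact (setup_of_five hP hd hr.two_le).of_nonOrthAdj h2
    (nonOrthAdj_of_adj hP h2K hd hr.two_le h3)

end Fin

end Cfsg.Agent.H925.Ext
end

-- part: H925/ExtLong
section
/-!
# Overgroups of `Ω(V, QK)` in `Ω(V, τ ∘ QK)`, X: long root elements

If `H` contains the Siegel transformations `siegel Q x x'` for all `x, x'` in a singular `K`-line then
`E Q ≤ H` (degree at least `3`).
-/

set_option autoImplicit false
set_option linter.unusedSectionVars false

namespace Cfsg.Agent.H925.Ext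

open QuadraticMap Cfsg.Agent.LieClassical.OrthCore Cfsg.Agent.LieClassical.OrthTrans
  Cfsg.Agent.LieClassical.OrthFinite Cfsg.Agent.H883.Root Cfsg.Agent.H883.Sub
open scoped commutatorElement

variable {F K V : Type*} [Field F] [Field K] [Algebra F K] [AddCommGroup V]
  [Module F V] [Module K V] [IsScalarTower F K V]

variable {τ : K →ₗ[F] F} {QK : QuadraticForm K V} {Q : QuadraticForm F V}
  {H : Subgroup (V ≃ₗ[F] V)}

/-- The hypotheses, with the commutator subgroup of `O QK`. -/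
structure PreC (τ : K →ₗ[F] F) (QK : QuadraticForm K V) (Q : QuadraticForm F V)
    (H : Subgroup (V ≃ₗ[F] V)) : Prop where
  tr : Tr τ QK Q
  nondeg : Nondeg QK
  hHO : H ≤ O Q
  hE : ∀ g ∈ ⁅O QK, O QK⁆, (rs g : V ≃ₗ[F] V) ∈ H

theorem PreC.pre (hP : PreC τ QK Q H) (h2 : (2 : K) ≠ 0) : Pre τ QK Q H :=
  ⟨hP.tr, hP.nondeg, hP.hHO, fun g hg => hP.hE g (E_le_comm hP.nondeg h2 hg)⟩

theorem comm_le_O : ⁅O QK, O QK⁆ ≤ O QK := Subgroup.commutator_le_self _

section Long

variable [FiniteDimensional F V] [FiniteDimensional F K]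

/-- All the long root elements of the singular `K`-lines. -/
def Long (QK : QuadraticForm K V) (Q : QuadraticForm F V) (H : Subgroup (V ≃ₗ[F] V)) : Prop :=
  ∀ v, QK v = 0 → ∀ x ∈ line F K v, ∀ x' ∈ line F K v, Has Q H x x'

theorem Long.has_opp (hL : Long QK Q H) (hT : Tr τ QK Q) (hr : 3 ≤ Module.finrank F K) {v v' : V}
    (hyp : Hyp QK v v') {k k' : K} (h0 : τ (k' * k) = 0) : Has Q H (k' • v') (k • v) := by
  have hsv : ∀ x ∈ line F K v, Q x = 0 := line_sing hT hyp.left
  have hsv' : ∀ x ∈ line F K v', Q x = 0 := line_sing hT hyp.right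
  have hp : ∀ a b : K, polar Q (a • v) (b • v') = τ (a * b) := by
    intro a b
    rw [hT.pol, polar_smul_left, polar_smul_right, hyp.pair]
    simp
  by_cases hk : k = 0
  · subst hk
    rw [zero_smul]
    exact has_zero (hsv' _ (smul_mem_line k' v'))
  -- an element `l` of the kernel independent of `k`
  let f : K →ₗ[F] F := τ ∘ₗ (LinearMap.mulLeft F k')
  have hf : ∀ l, f l = τ (k' * l) := fun l => rfl
  have hker : Module.finrank F K ≤ Module.finrank F (LinearMap.ker f) + 1 := by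
    have h1 := LinearMap.finrank_range_add_finrank_ker f
    have h2 : Module.finrank F (LinearMap.range f) ≤ 1 := by
      refine le_trans (Submodule.finrank_le _) ?_
      rw [Module.finrank_self]
    omega
  obtain ⟨l, hl, hlk⟩ : ∃ l ∈ LinearMap.ker f, l ∉ Submodule.span F {k} := by
    by_contra hcon
    push Not at hcon
    have h1 := Submodule.finrank_mono (show LinearMap.ker f ≤ Submodule.span F {k} from hcon)
    rw [finrank_span_singleton hk] at h1
    omega
  have hl' : τ (k' * l) = 0 := hl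
  -- a functional separating `l` and `k`
  obtain ⟨φ, hφl, hφk⟩ := Submodule.exists_le_ker_of_notMem hlk
  obtain ⟨δ, hδ⟩ := exists_delta hT.ne φ
  have hk0 : τ (k * δ) = 0 := by
    rw [← hδ]
    exact hφk (Submodule.mem_span_singleton_self k)
  have hl0 : τ (l * δ) ≠ 0 := by rw [← hδ]; exact hφl
  have h1 : Has Q H (l • v) (k • v) := hL v hyp.left _ (smul_mem_line l v) _ (smul_mem_line k v)
  have h2 : Has Q H (k' • v') (δ • v') :=
    hL v' hyp.right _ (smul_mem_line k' v') _ (smul_mem_line δ v')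
  have h3 := h1.comm' h2 (by rw [hp, mul_comm]; exact hl') (by rw [hp, mul_comm]; exact h0)
    (hsv _ (smul_mem_line k v)) (by rw [hp]; exact hk0)
  rw [hp] at h3
  -- rescale
  have h4 : Has Q H (l • v) ((τ (l * δ))⁻¹ • k • v) := by
    rw [← smul_assoc]
    exact hL v hyp.left _ (smul_mem_line l v) _ (smul_mem_line _ v)
  have h5 := h4.comm' h2 (by rw [hp, mul_comm]; exact hl')
    (by rw [polar_smul_left, hp, mul_comm k k', h0, smul_zero])
    (by rw [QuadraticMap.map_smul, hsv _ (smul_mem_line k v), smul_zero])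
    (by rw [polar_smul_left, hp, hk0, smul_zero])
  rw [hp, smul_smul, mul_inv_cancel₀ hl0, one_smul] at h5
  exact h5

theorem Long.full (hL : Long QK Q H) (hT : Tr τ QK Q) (hQ : Nondeg QK)
    (hr : 3 ≤ Module.finrank F K) {v : V} (hv : QK v = 0) (hv0 : v ≠ 0) : Full Q H v := by
  obtain ⟨v', hyp⟩ := Cfsg.Agent.LieClassical.OrthTrans.exists_hyp hQ hv hv0
  -- partners
  have hpart : ∀ u, Hyp QK v u → ∀ γ : K, τ γ = 0 → Has Q H v (γ • u) := by
    intro u hu γ hγ
    have := hL.has_opp hT hr hu.symm (k := γ) (k' := 1) (by rwa [one_mul])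
    rwa [one_smul] at this
  have hline : ∀ k : K, Has Q H v (k • v) := fun k =>
    hL v hv v (self_mem_line v) _ (smul_mem_line k v)
  obtain ⟨γ₁, hγ₁, hγ₁0⟩ : ∃ γ : K, τ γ = 0 ∧ γ ≠ 0 := by
    have hker : LinearMap.ker τ ≠ ⊥ := by
      apply LinearMap.ker_ne_bot_of_finrank_lt
      rw [Module.finrank_self]
      omega
    obtain ⟨μ, hμ, hμ0⟩ := Submodule.exists_mem_ne_zero_of_ne_bot hker
    exact ⟨μ, hμ, hμ0⟩
  -- the vectors orthogonal to the plane
  have hperp : ∀ w, polar QK v w = 0 → polar QK v' w = 0 → Has Q H v w := by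
    intro w hvw hv'w
    set w₂ := γ₁⁻¹ • w with hw₂
    have h1 : polar QK v w₂ = 0 := by rw [hw₂, polar_smul_right, hvw, smul_zero]
    have h2 : polar QK v' w₂ = 0 := by rw [hw₂, polar_smul_right, hv'w, smul_zero]
    have h3 : Hyp QK v (v' + w₂ - QK w₂ • v) := by
      refine ⟨hv, sing_vec hyp.symm h2 h1, ?_⟩
      rw [polar_sub_right, polar_add_right, hyp.pair, h1, polar_smul_right, hyp.polar_left]
      simp
    have h4 := hpart _ h3 γ₁ hγ₁
    have h5 := (h4.sub (hpart _ hyp γ₁ hγ₁)).add (hline (γ₁ * QK w₂))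
    refine h5.congr rfl ?_
    have e : γ₁ • w₂ = w := by rw [hw₂, smul_smul, mul_inv_cancel₀ hγ₁0, one_smul]
    rw [smul_sub, smul_add, e, smul_smul]
    abel
  refine ⟨line_sing hT hv v (self_mem_line v), fun x hx => ?_⟩
  have e : x = Cfsg.Agent.LieClassical.OrthTrans.proj QK v v' x + polar QK v' x • v +
      polar QK v x • v' := by
    rw [Cfsg.Agent.LieClassical.OrthTrans.proj]; abel
  have h1 := hperp _ (polar_proj_left hyp x) (polar_proj_right hyp x)
  have h2 : τ (polar QK v x) = 0 := by rw [← hT.pol]; exact hx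
  exact ((h1.add (hline (polar QK v' x))).add (hpart _ hyp _ h2)).congr rfl e.symm

/-- **Long root elements generate.** -/
theorem Long.E_le (hL : Long QK Q H) (hT : Tr τ QK Q) (hQ : Nondeg QK)
    (hr : 3 ≤ Module.finrank F K) (hG : Good Q) {v : V} (hv : QK v = 0) (hv0 : v ≠ 0) :
    E Q ≤ H := by
  obtain ⟨v', hyp⟩ := Cfsg.Agent.LieClassical.OrthTrans.exists_hyp hQ hv hv0
  obtain ⟨κ, hκ⟩ := exists_tau_eq hT.ne 1
  have hκ0 : κ ≠ 0 := by
    rintro rfl
    rw [map_zero] at hκ
    exact zero_ne_one hκ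
  refine E_le_of_full_pair hG (hL.full hT hQ hr hv hv0)
    (hL.full hT hQ hr (v := κ • v') (by rw [QuadraticMap.map_smul, hyp.right, smul_zero])
      (smul_ne_zero hκ0 hyp.right_ne)) ?_
  rw [hT.pol, polar_smul_right, hyp.pair, smul_eq_mul, mul_one, hκ]
  exact one_ne_zero

/-- Transitivity of `H ∩ O QK` on singular vectors up to scalars of `F`. -/
def Trans (F : Type*) [Field F] [Algebra F K] [Module F V] [IsScalarTower F K V]
    (QK : QuadraticForm K V) (H : Subgroup (V ≃ₗ[F] V)) : Prop :=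
  ∀ v v' : V, QK v = 0 → QK v' = 0 → v ≠ 0 → v' ≠ 0 → ∃ g ∈ O QK,
    (rs g : V ≃ₗ[F] V) ∈ H ∧ ∃ c : F, c ≠ 0 ∧ g v = c • v'

/-- One vector is enough. -/
theorem long_of_one (hT : Tr τ QK Q) (hHO : H ≤ O Q) (htr : Trans F QK H) {v : V}
    (hv : QK v = 0) (hv0 : v ≠ 0) (h : ∀ x ∈ line F K v, Has Q H v x) : Long QK Q H := by
  intro v₁ hv₁ x hx x' hx'
  by_cases hx0 : x = 0
  · subst hx0
    exact has_zero_left x'
  obtain ⟨k, hk⟩ := mem_line.1 hx
  have hxs : QK x = 0 := by rw [← hk, QuadraticMap.map_smul, hv₁, smul_zero]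
  obtain ⟨g, hg, hgH, c, hc, e⟩ := htr v x hv hxs hv0 hx0
  have hx'' : x' ∈ line F K x := by rw [line_eq_of_mem hx hx0]; exact hx'
  obtain ⟨l, rfl⟩ := mem_line.1 hx''
  have hc' : algebraMap F K c ≠ 0 := by
    intro h0
    exact hc ((algebraMap F K).injective (by rw [h0, map_zero]))
  have h1 := (h (((algebraMap F K c)⁻¹ * (algebraMap F K c)⁻¹ * l) • v)
    (smul_mem_line _ v)).map (hHO hgH) hgH
  rw [rs_apply, rs_apply, map_smul, e] at h1
  have h2 := h1.smul_right (line_sing hT hv₁ x hx) (by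
    rw [← algebraMap_smul K c x, smul_smul]
    rw [hT.pol, polar_smul_right, polar_self_of_sing hxs, smul_zero, map_zero])
  refine h2.congr rfl ?_
  rw [← algebraMap_smul K c x, ← algebraMap_smul K c, smul_smul, smul_smul]
  congr 1
  field_simp

/-- **Hua's argument.**  One long root element in a `K`-line gives all of them, if all the multiplications
by elements of `K` are available. -/
theorem has_of_hua (hr : (Module.finrank F K).Prime) (h2 : (2 : K) ≠ 0) (hT : Tr τ QK Q)
    (hHO : H ≤ O Q) {v : V} (hv : QK v = 0)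
    (htr : ∀ l : K, l ≠ 0 → ∃ g ∈ O QK, (rs g : V ≃ₗ[F] V) ∈ H ∧ g v = l • v) {s : K}
    (hs : ∀ c : F, s ≠ c • (1 : K)) (h : Has Q H v (s • v)) :
    ∀ x ∈ line F K v, Has Q H v x := by
  have hmove : ∀ l a b : K, l ≠ 0 → Has Q H (a • v) (b • v) →
      Has Q H ((l * a) • v) ((l * b) • v) := by
    intro l a b hl hab
    obtain ⟨g, hg, hgH, e⟩ := htr l hl
    have := hab.map (hHO hgH) hgH
    rw [rs_apply, rs_apply, map_smul, map_smul, e, smul_smul, smul_smul] at this
    rwa [mul_comm l a, mul_comm l b]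
  have hmove' : ∀ l b : K, l ≠ 0 → Has Q H v (b • v) → Has Q H (l • v) ((l * b) • v) := by
    intro l b hl hab
    have := hmove l 1 b hl (by rwa [one_smul])
    rwa [mul_one] at this
  have hQ0 : Q v = 0 := line_sing hT hv v (self_mem_line v)
  have hp0 : ∀ b : K, polar Q v (b • v) = 0 := by
    intro b
    rw [hT.pol, polar_smul_right, polar_self_of_sing hv, smul_zero, map_zero]
  have hQb : ∀ b : K, Q (b • v) = 0 := fun b => line_sing hT hv _ (smul_mem_line b v)
  have hone : Has Q H v ((1 : K) • v) := by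
    have := has_self (H := H) hQ0 (1 : F)
    rw [one_smul] at this
    rwa [one_smul]
  -- squares of `F`
  have hsq : ∀ (c : F) (b : K), Has Q H v (b • v) → Has Q H v (((c * c) • b) • v) := by
    intro c b hb
    by_cases hc : c = 0
    · subst hc
      rw [zero_mul, zero_smul, zero_smul]
      exact has_zero hQ0
    have hc' : algebraMap F K c ≠ 0 := by
      intro h0
      exact hc ((algebraMap F K).injective (by rw [h0, map_zero]))
    have h1 := hmove' (algebraMap F K c) b hc' hb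
    rw [algebraMap_smul] at h1
    have h3 := h1.smul_right hQ0 (hp0 _)
    refine h3.congr rfl ?_
    rw [← algebraMap_smul K c, smul_smul]
    congr 1
    rw [Algebra.smul_def, map_mul]
    ring
  have hadd : ∀ a b : K, Has Q H v (a • v) → Has Q H v (b • v) → Has Q H v ((a + b) • v) := by
    intro a b ha hb
    rw [add_smul]
    exact ha.add hb
  have hsub : ∀ a b : K, Has Q H v (a • v) → Has Q H v (b • v) → Has Q H v ((a - b) • v) := by
    intro a b ha hb
    rw [sub_smul]
    exact ha.sub hb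
  have h2F : (2 : F) ≠ 0 := by
    intro h0
    apply h2
    have := congrArg (algebraMap F K) h0
    rwa [map_ofNat, map_zero] at this
  have hFsmul : ∀ (c : F) (b : K), Has Q H v (b • v) → Has Q H v ((c • b) • v) := by
    intro c b hb
    have h1 := hsub _ _ (hsub _ _ (hsq (c / 2 + 1) b hb) (hsq (c / 2) b hb)) hb
    refine h1.congr rfl ?_
    congr 1
    rw [← sub_smul, ← sub_eq_zero]
    have e : ((c / 2 + 1) * (c / 2 + 1) - c / 2 * (c / 2)) • b - b - c • b =
        (((c / 2 + 1) * (c / 2 + 1) - c / 2 * (c / 2)) - 1 - c) • b := by module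
    rw [e]
    have e2 : ((c / 2 + 1) * (c / 2 + 1) - c / 2 * (c / 2)) - 1 - c = 0 := by
      field_simp
      ring
    rw [e2, zero_smul]
  have hinv : ∀ b : K, b ≠ 0 → Has Q H v (b • v) → Has Q H v (b⁻¹ • v) := by
    intro b hb0 hb
    have h1 := hb.swap (hQb b)
    have h3 : -v = (-1 : K) • v := by rw [neg_one_smul]
    rw [h3] at h1
    have h4 := hmove b⁻¹ b (-1) (inv_ne_zero hb0) h1
    rw [inv_mul_cancel₀ hb0, one_smul] at h4
    have h5 := h4.neg
    refine h5.congr rfl ?_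
    rw [mul_neg_one, neg_smul, neg_neg]
  have hsquare : ∀ a : K, Has Q H v (a • v) → Has Q H v ((a * a) • v) := by
    intro a ha
    by_cases h0 : a = 0
    · subst h0
      rw [mul_zero, zero_smul]
      exact has_zero hQ0
    by_cases h1 : a = 1
    · subst h1
      rw [mul_one]
      exact hone
    have h1' : 1 - a ≠ 0 := sub_ne_zero.2 (Ne.symm h1)
    have h3 := hinv _ h1' (hsub _ _ hone ha)
    have h4 := hadd _ _ (hinv a h0 ha) h3
    have e : a⁻¹ + (1 - a)⁻¹ = (a * (1 - a))⁻¹ := by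
      field_simp
      ring
    rw [e] at h4
    have h5 := hinv _ (inv_ne_zero (mul_ne_zero h0 h1')) h4
    rw [inv_inv] at h5
    have h6 := hsub _ _ ha h5
    refine h6.congr rfl ?_
    congr 1
    ring
  have hmul : ∀ a b : K, Has Q H v (a • v) → Has Q H v (b • v) → Has Q H v ((a * b) • v) := by
    intro a b ha hb
    have h1 := hFsmul (2⁻¹) _ (hsub _ _ (hsub _ _ (hsquare _ (hadd _ _ ha hb)) (hsquare _ ha))
      (hsquare _ hb))
    refine h1.congr rfl ?_
    congr 1
    rw [Algebra.smul_def, map_inv₀, map_ofNat]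
    field_simp
    ring
  let S : Submodule F K :=
    { carrier := {b | Has Q H v (b • v)}
      add_mem' := fun {a b} ha hb => hadd a b ha hb
      zero_mem' := by
        show Has Q H v ((0 : K) • v)
        rw [zero_smul]
        exact has_zero hQ0
      smul_mem' := fun c b hb => hFsmul c b hb }
  have hS : S = ⊤ := eq_top_of_closed hr hs (S := S) hone fun t ht => hmul s t h ht
  intro x hx
  obtain ⟨k, rfl⟩ := mem_line.1 hx
  have : k ∈ S := by rw [hS]; trivial
  exact this

end Long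

end Cfsg.Agent.H925.Ext
end

-- part: H925/ExtOrth
section
/-!
# Overgroups of `Ω(V, QK)` in `Ω(V, τ ∘ QK)`, XI: orthogonal adjacent points
-/

set_option autoImplicit false
set_option linter.unusedSectionVars false

namespace Cfsg.Agent.H925.Ext

open QuadraticMap Cfsg.Agent.LieClassical.OrthCore Cfsg.Agent.LieClassical.OrthTrans
  Cfsg.Agent.LieClassical.OrthFinite Cfsg.Agent.H883.Root Cfsg.Agent.H883.Sub
open scoped commutatorElement

section Base

variable {F V : Type*} [Field F] [AddCommGroup V] [Module F V] {Q : QuadraticForm F V}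
  {H : Subgroup (V ≃ₗ[F] V)} {Z N : Submodule F V}

/-- Isometries trivial on `Z^⊥` commute with the isometries fixing `Z` pointwise. -/
theorem central' (hperp : ∀ x, (∀ y, (∀ z ∈ Z, polar Q z y = 0) → polar Q y x = 0) → x ∈ Z)
    {t g : V ≃ₗ[F] V} (ht : t ∈ O Q) (hg : g ∈ O Q)
    (htf : ∀ y, (∀ z ∈ Z, polar Q z y = 0) → t y = y) (hgZ : ∀ z ∈ Z, g z = z) :
    g * t = t * g := by
  have h2 : ∀ x, t x - x ∈ Z := by
    intro x
    apply hperp
    intro y hy
    rw [polar_sub_right]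
    nth_rewrite 1 [← htf y hy]
    rw [polar_map ht, sub_self]
  ext x
  show g (t x) = t (g x)
  have h3 : t (g x - x) = g x - x := by
    apply htf
    intro z hz
    rw [polar_sub_right]
    nth_rewrite 1 [← hgZ z hz]
    rw [polar_map hg, sub_self]
  have h4 : g (t x) = g x + (t x - x) := by
    have e : t x = x + (t x - x) := by abel
    conv_lhs => rw [e]
    rw [map_add, hgZ _ (h2 x)]
  rw [h4]
  rw [map_sub] at h3
  have h5 : t (g x) = g x - x + t x := by rw [← h3]; abel
  rw [h5]; abel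

/-- A complement of `Z` in `Z^⊥` containing two given vectors. -/
theorem exists_compl' [FiniteDimensional F V] (hQ : Nondeg Q) {Z : Submodule F V}
    (hZ : ∀ z ∈ Z, Q z = 0) {a b : V} (ha : ∀ z ∈ Z, polar Q z a = 0)
    (hb : ∀ z ∈ Z, polar Q z b = 0) (hdisj : Disjoint (Submodule.span F {a, b}) Z) :
    ∃ N : Submodule F V, a ∈ N ∧ b ∈ N ∧ (∀ z ∈ Z, ∀ x ∈ N, polar Q z x = 0) ∧
      (∀ x, (∀ z ∈ Z, polar Q z x = 0) → ∃ z ∈ Z, ∃ n ∈ N, x = z + n) ∧ NondegOn Q N ∧
      Module.finrank F N + 2 * Module.finrank F Z = Module.finrank F V := by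
  obtain ⟨N', hN', hcompl⟩ := hdisj.exists_isCompl
  have hZP : Z ≤ perp Q Z := by
    intro z hz
    exact mem_perp.2 fun z' hz' => polar_zero_of_ts hZ hz' hz
  have hsup : (N' ⊓ perp Q Z) ⊔ Z = perp Q Z := by
    rw [inf_comm, inf_sup_assoc_of_le _ hZP, hcompl.sup_eq_top, inf_top_eq]
  have hdec : ∀ x, (∀ z ∈ Z, polar Q z x = 0) → ∃ z ∈ Z, ∃ n ∈ N' ⊓ perp Q Z, x = z + n := by
    intro x hx
    have : x ∈ (N' ⊓ perp Q Z) ⊔ Z := by rw [hsup]; exact mem_perp.2 hx
    obtain ⟨n, hn, z, hz, e⟩ := Submodule.mem_sup.1 this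
    exact ⟨z, hz, n, hn, by rw [← e, add_comm]⟩
  have hinf : (N' ⊓ perp Q Z) ⊓ Z = ⊥ := by
    rw [← le_bot_iff, ← hcompl.inf_eq_bot]
    exact inf_le_inf_right _ inf_le_left
  refine ⟨N' ⊓ perp Q Z, ⟨hN' (Submodule.subset_span (by simp)), mem_perp.2 ha⟩,
    ⟨hN' (Submodule.subset_span (by simp)), mem_perp.2 hb⟩,
    fun z hz x hx => mem_perp.1 hx.2 z hz, hdec, ?_, ?_⟩
  · intro y hy hy'
    have h1 : y ∈ perp Q (perp Q Z) := by
      refine mem_perp.2 fun x hx => ?_
      obtain ⟨z, hz, n, hn, rfl⟩ := hdec x (mem_perp.1 hx)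
      rw [polar_add_left, mem_perp.1 hy.2 z hz, polar_comm, hy' n hn, add_zero]
    rw [perp_perp hQ] at h1
    have h2 : y ∈ (N' ⊓ perp Q Z) ⊓ Z := ⟨hy, h1⟩
    rw [hinf] at h2
    exact (Submodule.mem_bot F).1 h2
  · have h1 := Submodule.finrank_sup_add_finrank_inf_eq (N' ⊓ perp Q Z) Z
    rw [hsup, hinf, finrank_bot, add_zero] at h1
    have h2 := finrank_perp hQ Z
    omega

/-- From `φ` to a rank one map, with the Siegel transformations of one singular vector only. -/
theorem phi_two (hG : Good (res Q N)) {φ : N →ₗ[F] Z} (h1 : Phi H φ) {y : N}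
    (hy0 : y ≠ 0) (hF : Full (res Q N) (HN H Z N) y) : Phi H (r1 Q y (φ y)) := by
  have hy : res Q N y = 0 := hF.1
  obtain ⟨y', hyp⟩ := Cfsg.Agent.LieClassical.OrthTrans.exists_hyp hG.nondeg hy hy0
  obtain ⟨v, v', hv, hyv, hyv', -, -⟩ := hG.exists_hyp2 hyp
  have hvy : polar (res Q N) v y = 0 := by rw [polar_comm]; exact hyv
  have hm1 : siegel (res Q N) v y hv.left hvy ∈ HN H Z N := by
    have k1 : Has (res Q N) (HN H Z N) y (-v) := hF.2 _ (by rw [polar_neg_right, hyv, neg_zero])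
    have k2 := k1.swap (by rw [QuadraticMap.map_neg, hv.left])
    have k3 : Has (res Q N) (HN H Z N) ((-1 : F) • v) (-y) := by rw [neg_one_smul]; exact k2
    have k4 := k3.smul_right hv.left (by rw [polar_neg_right, hvy, neg_zero])
    rw [neg_one_smul, neg_neg] at k4
    exact k4.mem hv.left hvy
  -- first commutator
  have h2 := (h1.comp hm1).sub h1
  set φ₁ : N →ₗ[F] Z := (φ ∘ₗ (siegel (res Q N) v y hv.left hvy : N →ₗ[F] N)) - φ with hφ₁
  have e1 : ∀ x : N, φ₁ x = polar (res Q N) v x • φ y - polar (res Q N) y x • φ v := by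
    intro x
    have : φ₁ x = φ (siegel (res Q N) v y hv.left hvy x) - φ x := rfl
    rw [this, siegel_apply, hy]
    simp only [map_sub, map_add, map_smul, zero_mul, zero_smul, sub_zero]
    abel
  -- second commutator
  have h3 := (h2.comp ((hF.2 v' hyv').mem hy hyv')).sub h2
  set φ₂ : N →ₗ[F] Z := (φ₁ ∘ₗ (siegel (res Q N) y v' hy hyv' : N →ₗ[F] N)) - φ₁ with hφ₂
  have e2 : φ₂ = r1 Q y (φ y) := by
    ext x
    have : φ₂ x = φ₁ (siegel (res Q N) y v' hy hyv' x) - φ₁ x := rfl
    rw [this, siegel_apply]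
    have f1 : φ₁ y = 0 := by
      rw [e1, hvy, polar_self_of_sing hy, zero_smul, zero_smul, sub_zero]
    have f2 : φ₁ v' = φ y := by
      rw [e1, hv.pair, hyv', zero_smul, one_smul, sub_zero]
    rw [map_sub, map_sub, map_add, map_smul, map_smul, map_smul, f1, f2, r1_apply]
    simp
  rwa [e2] at h3

/-- The Siegel transformation inducing a rank one `φ`. -/
theorem decomp' (hHO : H ≤ O Q) (hZs : ∀ z ∈ Z, Q z = 0)
    (hZN : ∀ z ∈ Z, ∀ x ∈ N, polar Q z x = 0)
    (hdec : ∀ x, (∀ z ∈ Z, polar Q z x = 0) → ∃ z ∈ Z, ∃ n ∈ N, x = z + n) {u : N} {z : Z}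
    (h : Phi H (r1 Q u z)) :
    ∃ (c t : V ≃ₗ[F] V) (hz : Q (z : V) = 0) (hu : polar Q (z : V) (-(u : V)) = 0),
      c ∈ H ∧ (∀ z ∈ Z, c z = z) ∧ t ∈ O Q ∧ (∀ y, (∀ z ∈ Z, polar Q z y = 0) → t y = y) ∧
      c = siegel Q (z : V) (-(u : V)) hz hu * t := by
  obtain ⟨c, hc, c1, c2⟩ := h
  have hz : Q (z : V) = 0 := hZs _ z.2
  have hu : polar Q (z : V) (-(u : V)) = 0 := by
    rw [polar_neg_right, hZN _ z.2 _ u.2, neg_zero]
  set s := siegel Q (z : V) (-(u : V)) hz hu with hs
  have s1 : ∀ z' ∈ Z, s z' = z' := by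
    intro z' hz'
    apply siegel_fix
    · exact polar_zero_of_ts hZs z.2 hz'
    · rw [polar_neg_left, polar_comm, hZN _ hz' _ u.2, neg_zero]
  have s2 : ∀ x : N, s (x : V) = c x := by
    intro x
    rw [c2, hs, siegel_apply, hZN _ z.2 _ x.2, polar_neg_left, r1_apply, polar_res]
    simp
  refine ⟨c, s⁻¹ * c, hz, hu, hc, c1, (O Q).mul_mem ((O Q).inv_mem (siegel_mem_O hz hu))
    (hHO hc), ?_, ?_⟩
  · intro y hy
    obtain ⟨z', hz', n, hn, rfl⟩ := hdec y hy
    show s⁻¹ (c (z' + n)) = z' + n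
    apply inv_fix
    rw [map_add, map_add, s1 z' hz', c1 z' hz', s2 ⟨n, hn⟩]
  · rw [mul_inv_cancel_left]

end Base

variable {F K V : Type*} [Field F] [Field K] [Algebra F K] [AddCommGroup V]
  [Module F V] [Module K V] [IsScalarTower F K V]

variable {τ : K →ₗ[F] F} {QK : QuadraticForm K V} {Q : QuadraticForm F V}
  {H : Subgroup (V ≃ₗ[F] V)}

section Fin

variable [FiniteDimensional F V] [FiniteDimensional F K]

/-- **Orthogonal adjacent points, the nonsingular case.** -/
theorem orth_adj [Finite F] (hP : Pre τ QK Q H) (h2 : (2 : K) ≠ 0) {v : V} (hv : QK v = 0)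
    (hv0 : v ≠ 0) {Y Z : Submodule F V} (hY : IsPt Q H Y) (hYs : ∀ x ∈ Y, Q x = 0)
    (hZX : Z ≤ line F K v) (hZY : Z ≤ Y) {a y : V} (ha : a ∈ line F K v) (haZ : a ∉ Z)
    (hspa : ∀ x ∈ line F K v, ∃ c : F, x - c • a ∈ Z) (hy : y ∈ Y) (hyZ : y ∉ Z)
    (hspy : ∀ x ∈ Y, ∃ c : F, x - c • y ∈ Z) (hvy : polar QK v y = 0) (hQy : QK y ≠ 0)
    (hdim : 2 * Module.finrank F Z + 5 ≤ Module.finrank F V) :
    ∃ z₀ ∈ Z, z₀ ≠ 0 ∧ ∃ (hz : Q z₀ = 0) (hu : polar Q z₀ (-y) = 0) (t : V ≃ₗ[F] V), t ∈ O Q ∧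
      (∀ x, (∀ z ∈ Z, polar Q z x = 0) → t x = x) ∧ siegel Q z₀ (-y) hz hu * t ∈ H := by
  have hT := hP.tr
  have hXs := line_sing hT hv
  have hZs : ∀ z ∈ Z, Q z = 0 := fun z hz => hYs z (hZY hz)
  have hQ : Nondeg Q := hT.nondeg hP.nondeg
  have hyl : y ∉ line F K v := by
    intro h
    obtain ⟨k, rfl⟩ := mem_line.1 h
    apply hQy
    rw [QuadraticMap.map_smul, hv, smul_zero]
  have hay : polar Q a y = 0 := by
    obtain ⟨k, rfl⟩ := mem_line.1 ha
    rw [hT.pol, polar_smul_left, hvy, smul_zero, map_zero]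
  have hdisj : Disjoint (Submodule.span F {a, y}) Z := by
    rw [Submodule.disjoint_def]
    intro x hx hxZ
    obtain ⟨c, d, rfl⟩ := Submodule.mem_span_pair.1 hx
    have hd : d = 0 := by
      by_contra hd
      apply hyl
      have h3 : d • y ∈ line F K v := by
        have := (line F K v).sub_mem (hZX hxZ) ((line F K v).smul_mem c ha)
        rwa [add_sub_cancel_left] at this
      have h4 := (line F K v).smul_mem d⁻¹ h3
      rwa [smul_smul, inv_mul_cancel₀ hd, one_smul] at h4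
    subst hd
    rw [zero_smul, add_zero] at hxZ ⊢
    by_cases hc : c = 0
    · rw [hc, zero_smul]
    · exfalso
      apply haZ
      have h4 := Z.smul_mem c⁻¹ hxZ
      rwa [smul_smul, inv_mul_cancel₀ hc, one_smul] at h4
  obtain ⟨N, haN, hyN, hZN, hdec, hN, hfin⟩ := exists_compl' hQ hZs
    (fun z hz => polar_zero_of_ts hXs (hZX hz) ha) (fun z hz => polar_zero_of_ts hYs (hZY hz) hy)
    hdisj
  have hG : Good (res Q N) := good_res hN (by omega)
  have hQy0 : Q y = 0 := hYs y hy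
  have hQa : Q a = 0 := hXs a ha
  obtain ⟨δ, hδ0, hδ⟩ := exists_delta_line hT.ne ha haZ hspa
  -- the two elements
  obtain ⟨h₂, hh₂, h₂Y, h₂Z⟩ := hY Z y (-a) hZY hy hyZ hspy (by
    intro x hx
    obtain ⟨c, hc⟩ := hspy x hx
    have e3 : x = (x - c • y) + c • y := by abel
    rw [polar_neg_right, e3, polar_add_left, hZN _ hc a haN, polar_smul_left,
      polar_comm Q y a, hay]
    simp)
  have hvy' : polar QK v (δ⁻¹ • y) = 0 := by rw [polar_smul_right, hvy, smul_zero]
  set h₁ : V ≃ₗ[F] V := rs (siegel QK v (δ⁻¹ • y) hv hvy') with hh₁def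
  have hh₁ : h₁ ∈ H := hP.hE _ (siegel_mem_E _ _)
  have h₁X : ∀ x ∈ line F K v, h₁ x = x := fun x hx => siegel_fix_line hv hvy' hx
  have h₁Z : ∀ x, (∀ z ∈ Z, polar Q z x = 0) → h₁ x - siegelLin Q a y x ∈ Z :=
    fun x hx => siegel_line hT hv ha hδ0 hδ hvy' hx
  have hc : h₁ * h₂⁻¹ ∈ H := H.mul_mem hh₁ (H.inv_mem hh₂)
  have h₂inv : ∀ z ∈ Z, h₂⁻¹ z = z := fun z hz => inv_fix (h₂Y z (hZY hz))
  have hdiff : ∀ x : V, (∀ z ∈ Z, polar Q z x = 0) → (h₁ * h₂⁻¹) x - x ∈ Z := by
    intro x hx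
    set x' := h₂⁻¹ x with hx'
    have hx'2 : h₂ x' = x := LinearEquiv.apply_symm_apply h₂ x
    have hx'3 : ∀ z ∈ Z, polar Q z x' = 0 := by
      intro z hz
      rw [← h₂inv z hz, hx', polar_map ((O Q).inv_mem (hP.hHO hh₂))]
      exact hx z hz
    have h5 := h₁Z x' hx'3
    have h6 := h₂Z x' hx'3
    have e5 : siegelLin Q y (-a) x' = siegelLin Q a y x' := by
      rw [siegelLin_apply, siegelLin_apply, hQy0, QuadraticMap.map_neg, hQa, polar_neg_left]
      simp only [zero_mul, zero_smul]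
      module
    rw [e5, hx'2] at h6
    have := Z.sub_mem h5 h6
    rw [sub_sub_sub_cancel_right] at this
    exact this
  have hcy : (h₁ * h₂⁻¹) y = y - (2 * (δ⁻¹ * QK y)) • v := by
    show h₁ (h₂⁻¹ y) = _
    rw [inv_fix (h₂Y y hy), hh₁def, rs_apply, siegel_apply, hvy, polar_smul_left,
      polar_self', smul_eq_mul]
    rw [zero_smul, mul_zero, zero_smul, sub_zero, add_zero]
    congr 2
    ring
  let φ : N →ₗ[F] Z := LinearMap.codRestrict Z
    (((h₁ * h₂⁻¹ : V ≃ₗ[F] V) : V →ₗ[F] V) ∘ₗ N.subtype - N.subtype) (fun x =>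
      hdiff x fun z hz => hZN z hz x x.2)
  have hφ : Phi H φ := by
    refine ⟨h₁ * h₂⁻¹, hc, fun z hz => ?_, fun x => ?_⟩
    · show h₁ (h₂⁻¹ z) = z
      rw [h₂inv z hz, h₁X z (hZX hz)]
    · show (h₁ * h₂⁻¹) (x : V) = x + ((h₁ * h₂⁻¹) (x : V) - x)
      abel
  have hφy : ((φ ⟨y, hyN⟩ : Z) : V) = -((2 * (δ⁻¹ * QK y)) • v) := by
    show (h₁ * h₂⁻¹) y - y = _
    rw [hcy]; abel
  have hz0 : ((φ ⟨y, hyN⟩ : Z) : V) ≠ 0 := by
    rw [hφy, neg_ne_zero]
    exact smul_ne_zero (mul_ne_zero h2 (mul_ne_zero (inv_ne_zero hδ0) hQy)) hv0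
  have hFy : Full (res Q N) (HN H Z N) ⟨y, hyN⟩ := full_HN hY hZY hZN hy hyN hyZ hspy hQy0
  have hyN0 : (⟨y, hyN⟩ : N) ≠ 0 := by
    intro h
    apply hyZ
    rw [show y = 0 from congrArg Subtype.val h]
    exact Z.zero_mem
  have h3 := phi_two hG hφ hyN0 hFy
  obtain ⟨c, t, hz, hu, hcH, hcZ, htO, htf, e⟩ := decomp' hP.hHO hZs hZN hdec h3
  exact ⟨_, (φ ⟨y, hyN⟩).2, hz0, hz, hu, t, htO, htf, by rw [← e]; exact hcH⟩

/-- Consequence: commutators. -/
theorem has_of_conj (hQ : Nondeg Q) (hHO : H ≤ O Q) {Z : Submodule F V} {z₀ y : V}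
    (hz₀ : z₀ ∈ Z) (hz : Q z₀ = 0) (hu : polar Q z₀ (-y) = 0)
    (hyZ : ∀ z ∈ Z, polar Q z y = 0) (hZs : ∀ z ∈ Z, Q z = 0) {t : V ≃ₗ[F] V} (ht : t ∈ O Q)
    (htf : ∀ x, (∀ z ∈ Z, polar Q z x = 0) → t x = x) (hm : siegel Q z₀ (-y) hz hu * t ∈ H)
    {h : V ≃ₗ[F] V} (hh : h ∈ H) (hhZ : ∀ z ∈ Z, h z = z) : Has Q H z₀ (y - h y) := by
  set s := siegel Q z₀ (-y) hz hu with hs
  set c := s * t with hcdef
  have hperp : ∀ x, (∀ y, (∀ z ∈ Z, polar Q z y = 0) → polar Q y x = 0) → x ∈ Z := by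
    intro x hx
    rw [← perp_perp hQ Z]
    exact mem_perp.2 fun y hy => hx y (mem_perp.1 hy)
  have hO : h ∈ O Q := hHO hh
  have k1 : h * t = t * h := central' hperp ht hO htf hhZ
  have e1 : h * c * h⁻¹ * c⁻¹ = h * s * h⁻¹ * s⁻¹ := by
    have k2 : t * h⁻¹ = h⁻¹ * t := ((show Commute h t from k1).inv_left).symm
    rw [hcdef, mul_inv_rev]
    calc h * (s * t) * h⁻¹ * (t⁻¹ * s⁻¹) = h * s * (t * h⁻¹) * t⁻¹ * s⁻¹ := by group
      _ = h * s * h⁻¹ * s⁻¹ := by rw [k2]; group
  have hmem : h * s * h⁻¹ * s⁻¹ ∈ H := by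
    rw [← e1]
    exact H.mul_mem (H.mul_mem (H.mul_mem hh hm) (H.inv_mem hh)) (H.inv_mem hm)
  have g1 : h z₀ = z₀ := hhZ z₀ hz₀
  have g3 : polar Q z₀ (h (-y)) = 0 := by
    nth_rewrite 1 [← g1]
    rw [polar_map hO]
    exact hu
  have g4 : h * s * h⁻¹ = siegel Q z₀ (h (-y)) hz g3 := by
    have hz' : Q (h z₀) = 0 := by rw [g1]; exact hz
    have hw' : polar Q (h z₀) (h (-y)) = 0 := by rw [g1]; exact g3
    rw [hs, siegel_conj hO hz hu hz' hw']
    congr 1
  have g5 : s⁻¹ = siegel Q z₀ (-(-y)) hz (by rw [polar_neg_right, hu, neg_zero]) :=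
    siegel_inv hz hu _
  have g6 : polar Q z₀ (h (-y) + -(-y)) = 0 := by
    rw [polar_add_right, g3, polar_neg_right, hu]; simp
  rw [g4, g5, siegel_mul hz g3 _ g6] at hmem
  have g7 : Has Q H z₀ (h (-y) + -(-y)) := ⟨hz, g6, hmem⟩
  exact g7.congr rfl (by rw [map_neg]; abel)

end Fin

end Cfsg.Agent.H925.Ext
end

-- part: H925/ExtFour
section
/-!
# Overgroups of `Ω(V, QK)` in `Ω(V, τ ∘ QK)`, XII: `dim_K V = 4`, the intersections of points
-/

set_option autoImplicit false
set_option linter.unusedSectionVars false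

namespace Cfsg.Agent.H925.Ext

open QuadraticMap Cfsg.Agent.LieClassical.OrthCore Cfsg.Agent.LieClassical.OrthTrans
  Cfsg.Agent.LieClassical.OrthFinite Cfsg.Agent.H883.Root Cfsg.Agent.H883.Sub
open scoped commutatorElement

section One

variable {K V : Type*} [Field K] [AddCommGroup V] [Module K V] {QK : QuadraticForm K V}

/-- Two orthogonal nonsingular vectors orthogonal to a hyperbolic pair. -/
theorem exists_orth_pair (hQ : Nondeg QK) (h2 : (2 : K) ≠ 0) (hd : 4 ≤ Module.finrank K V)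
    {v v' : V} (hyp : Hyp QK v v') : ∃ a b, polar QK v a = 0 ∧ polar QK v' a = 0 ∧
      polar QK v b = 0 ∧ polar QK v' b = 0 ∧ QK a ≠ 0 ∧ QK b ≠ 0 ∧ polar QK a b = 0 := by
  obtain ⟨a, ha1, ha2, ha⟩ := exists_perp_nonsing hQ (by omega) hyp
  obtain ⟨b, hb0, hb⟩ := exists_perp_ne (Q := QK) ![v, v', a] (by omega)
  have hb1 : polar QK v b = 0 := hb 0
  have hb2 : polar QK v' b = 0 := hb 1
  have hb3 : polar QK a b = 0 := hb 2
  obtain ⟨c, hc⟩ := hQ.exists_polar_eq hb0 1
  set p := Cfsg.Agent.LieClassical.OrthTrans.proj QK v v' c with hp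
  set c' := p - (polar QK a p * (2 * QK a)⁻¹) • a with hc'
  have h1 : polar QK v c' = 0 := by
    rw [hc', polar_sub_right, polar_smul_right, ha1, smul_zero, sub_zero]
    exact polar_proj_left hyp c
  have h3 : polar QK v' c' = 0 := by
    rw [hc', polar_sub_right, polar_smul_right, ha2, smul_zero, sub_zero]
    exact polar_proj_right hyp c
  have h4 : polar QK a c' = 0 := by
    rw [hc', polar_sub_right, polar_smul_right, polar_self', smul_eq_mul]
    field_simp
    ring
  have h5 : polar QK b c' = 1 := by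
    rw [hc', polar_sub_right, polar_smul_right, polar_comm QK b a, hb3, smul_zero, sub_zero, hp,
      polar_proj_of_perp hb1 hb2, hc]
  rcases exists_nonsing h5 with h | h | h
  · exact ⟨a, b, ha1, ha2, hb1, hb2, ha, h, hb3⟩
  · exact ⟨a, c', ha1, ha2, h1, h3, ha, h, h4⟩
  · exact ⟨a, b + c', ha1, ha2, by rw [polar_add_right, hb1, h1, add_zero],
      by rw [polar_add_right, hb2, h3, add_zero], ha, h, by rw [polar_add_right, hb3, h4, add_zero]⟩

/-- The complement of a hyperbolic pair represents everything (`dim ≥ 4`, odd characteristic). -/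
theorem exists_norm_perp [Finite K] (hQ : Nondeg QK) (h2 : (2 : K) ≠ 0)
    (hd : 4 ≤ Module.finrank K V) {v v' : V} (hyp : Hyp QK v v') (κ : K) :
    ∃ w, polar QK v w = 0 ∧ polar QK v' w = 0 ∧ QK w = κ := by
  obtain ⟨a, b, ha1, ha2, hb1, hb2, ha, hb, hab⟩ := exists_orth_pair hQ h2 hd hyp
  obtain ⟨x, y, hxy⟩ := Cfsg.Agent.ClassicalGeometry.Discriminant.exists_repr h2 (QK a) (QK b) κ ha hb
  refine ⟨x • a + y • b, ?_, ?_, ?_⟩
  · rw [polar_add_right, polar_smul_right, polar_smul_right, ha1, hb1]; simp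
  · rw [polar_add_right, polar_smul_right, polar_smul_right, ha2, hb2]; simp
  · rw [Q_add, QuadraticMap.map_smul, QuadraticMap.map_smul, polar_smul_left, polar_smul_right,
      hab, ← hxy]
    simp only [smul_eq_mul]
    ring

/-- A singular vector not orthogonal to two given orthogonal nonzero singular vectors. -/
theorem exists_sing_two (hQ : Nondeg QK) {v v₁ : V} (hv : QK v = 0) (hv₁ : QK v₁ = 0)
    (hv0 : v ≠ 0) (hv₁0 : v₁ ≠ 0) (hvv : polar QK v v₁ = 0) :
    ∃ v₂, QK v₂ = 0 ∧ polar QK v v₂ ≠ 0 ∧ polar QK v₂ v₁ ≠ 0 := by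
  obtain ⟨v', hyp⟩ := Cfsg.Agent.LieClassical.OrthTrans.exists_hyp hQ hv hv0
  obtain ⟨v₁', hyp₁⟩ := Cfsg.Agent.LieClassical.OrthTrans.exists_hyp hQ hv₁ hv₁0
  by_cases h1 : polar QK v' v₁ = 0
  · by_cases h3 : polar QK v v₁' = 0
    · set ε := polar QK v' v₁' with hε
      have hQ2 : QK (v' + v₁' + (-ε) • v) = 0 := by
        rw [Q_add, Q_add, QuadraticMap.map_smul, hyp.right, hyp₁.right, hyp.left, ← hε,
          polar_smul_right, polar_add_left, hyp.pair', polar_comm QK v₁' v, h3]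
        simp
      refine ⟨v' + v₁' + (-ε) • v, hQ2, ?_, ?_⟩
      · rw [polar_add_right, polar_add_right, hyp.pair, h3, polar_smul_right, hyp.polar_left]
        simp
      · rw [polar_add_left, polar_add_left, h1, hyp₁.pair', polar_smul_left, hvv]
        simp
    · exact ⟨v₁', hyp₁.right, h3, by rw [hyp₁.pair']; exact one_ne_zero⟩
  · exact ⟨v', hyp.right, by rw [hyp.pair]; exact one_ne_zero, h1⟩

/-- **Transitivity on singular vectors, `dim ≥ 4`.** -/
theorem trans_four [Finite K] (hQ : Nondeg QK) (h2 : (2 : K) ≠ 0) (hd : 4 ≤ Module.finrank K V)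
    {v v₁ : V} (hv : QK v = 0) (hv₁ : QK v₁ = 0) (hv0 : v ≠ 0) (hv₁0 : v₁ ≠ 0) :
    ∃ g ∈ ⁅O QK, O QK⁆, g v = v₁ := by
  have key : ∀ v v₁ : V, QK v = 0 → QK v₁ = 0 → v ≠ 0 → polar QK v v₁ ≠ 0 →
      ∃ g ∈ ⁅O QK, O QK⁆, g v = v₁ := by
    intro v v₁ hv hv₁ hv0 hvv
    obtain ⟨v', hyp⟩ := Cfsg.Agent.LieClassical.OrthTrans.exists_hyp hQ hv hv0
    obtain ⟨w, hw1, -, hw⟩ := exists_norm_perp hQ h2 hd hyp (-(polar QK v v₁))
    have hw0 : QK w ≠ 0 := by rw [hw]; exact neg_ne_zero.2 hvv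
    obtain ⟨g, hg, e⟩ := exists_move_sing h2 hv hv₁ hvv hw0 hw1
    refine ⟨g, hg, ?_⟩
    rw [e, hw, neg_neg, mul_inv_cancel₀ hvv, one_smul]
  by_cases hvv : polar QK v v₁ = 0
  · obtain ⟨v₂, h3, h4, h5⟩ := exists_sing_two hQ hv hv₁ hv0 hv₁0 hvv
    have hv₂0 : v₂ ≠ 0 := by
      rintro rfl
      exact h4 (polar_zero_right QK v)
    obtain ⟨g, hg, e⟩ := key v v₂ hv h3 hv0 h4
    obtain ⟨g', hg', e'⟩ := key v₂ v₁ h3 hv₁ hv₂0 h5
    refine ⟨g' * g, Subgroup.mul_mem _ hg' hg, ?_⟩
    show g' (g v) = v₁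
    rw [e, e']
  · exact key v v₁ hv hv₁ hv0 hvv

end One

variable {F K V : Type*} [Field F] [Field K] [Algebra F K] [AddCommGroup V]
  [Module F V] [Module K V] [IsScalarTower F K V]

variable {τ : K →ₗ[F] F} {QK : QuadraticForm K V} {Q : QuadraticForm F V}
  {H : Subgroup (V ≃ₗ[F] V)}

section Fin

variable [FiniteDimensional F V] [FiniteDimensional F K]

theorem sing_of_three [Finite K] (hd : 3 ≤ Module.finrank K V) : ∃ v : V, v ≠ 0 ∧ QK v = 0 := by
  obtain ⟨w, hw0, hw, -⟩ := exists_sing_perp (Q := QK) (n := 0) ![] (by omega)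
  exact ⟨w, hw0, hw⟩

theorem PreC.trans_exact [Finite K] (hP : PreC τ QK Q H) (h2 : (2 : K) ≠ 0)
    (hd : 4 ≤ Module.finrank K V) {v v₁ : V} (hv : QK v = 0) (hv₁ : QK v₁ = 0) (hv0 : v ≠ 0)
    (hv₁0 : v₁ ≠ 0) : ∃ g ∈ O QK, (rs g : V ≃ₗ[F] V) ∈ H ∧ g v = v₁ := by
  obtain ⟨g, hg, e⟩ := trans_four hP.nondeg h2 hd hv hv₁ hv0 hv₁0
  exact ⟨g, comm_le_O hg, hP.hE g hg, e⟩

theorem PreC.trans_four [Finite K] (hP : PreC τ QK Q H) (h2 : (2 : K) ≠ 0)
    (hd : 4 ≤ Module.finrank K V) : Trans F QK H := by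
  intro v v' hv hv' hv0 hv'0
  obtain ⟨g, hg, hgH, e⟩ := hP.trans_exact h2 hd hv hv' hv0 hv'0
  exact ⟨g, hg, hgH, 1, one_ne_zero, by rw [one_smul]; exact e⟩

theorem setup_of_four [Finite K] (hP : PreC τ QK Q H) (h2 : (2 : K) ≠ 0)
    (hd : 4 ≤ Module.finrank K V) (hr : 2 ≤ Module.finrank F K) : Setup τ QK Q H where
  tr := hP.tr
  nondeg := hP.nondeg
  hHO := hP.hHO
  hE := (hP.pre h2).hE
  trans := hP.trans_four h2 hd
  vals := by
    intro v hv hv0 κ hκ
    by_cases hκ0 : κ = 0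
    · subst hκ0
      exact Submodule.zero_mem _
    obtain ⟨v', hyp⟩ := Cfsg.Agent.LieClassical.OrthTrans.exists_hyp hP.nondeg hv hv0
    obtain ⟨w, hw1, -, hw⟩ := exists_norm_perp hP.nondeg h2 hd hyp κ
    apply Submodule.subset_span
    refine ⟨w, hw1, fun h => ?_, hw, hκ⟩
    obtain ⟨k, rfl⟩ := mem_line.1 h
    apply hκ0
    rw [← hw, QuadraticMap.map_smul, hv, smul_zero]
  sing := sing_of_three (by omega)
  deg := hr
  dim := by
    rw [← Module.finrank_mul_finrank F K V]
    nlinarith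

/-- **A degenerate pair of points**: `y₁ ∈ Y ∖ X` orthogonal to `X`, `Y` not orthogonal to `X`. -/
theorem adj_step_degenerate [Finite K] (hP : Pre τ QK Q H) (h2 : (2 : K) ≠ 0)
    (hd : 4 ≤ Module.finrank K V) {s : ℕ} {v : V} (hv : QK v = 0) (hv0 : v ≠ 0)
    {Y : Submodule F V} (hY : IsPoint QK H Y) (hne : line F K v ≠ Y) (hvY : v ∈ Y)
    (hint : s ≤ Module.finrank F (line F K v ⊓ Y : Submodule F V)) {y₁ y₂ : V} (hy₁ : y₁ ∈ Y)
    (hy₁X : y₁ ∉ line F K v) (hvy₁ : polar QK v y₁ = 0) (hy₂ : y₂ ∈ Y)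
    (hvy₂ : polar QK v y₂ ≠ 0) : Adj QK H (s + 1) := by
  have hnl := hY.not_line hvY hv0 hne
  obtain ⟨v', hyp⟩ := Cfsg.Agent.LieClassical.OrthTrans.exists_hyp hP.nondeg hv hv0
  obtain ⟨w, hw0, hw⟩ := exists_perp_ne (Q := QK) ![v, v', y₁] (by omega)
  have hvw : polar QK v w = 0 := hw 0
  have hv'w : polar QK v' w = 0 := hw 1
  have hy₁w : polar QK y₁ w = 0 := hw 2
  obtain ⟨ω, hω, hmove⟩ := exists_move h2 hnl hv hvw hy₂ (by
    intro h0
    have h1 : polar QK v' (polar QK v y₂ • w - polar QK w y₂ • v) = 0 := by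
      rw [h0, polar_zero_right]
    rw [polar_sub_right, polar_smul_right, polar_smul_right, hv'w, hyp.pair', smul_zero, zero_sub,
      neg_eq_zero, smul_eq_mul, mul_one] at h1
    rw [h1, zero_smul, sub_zero] at h0
    exact (smul_ne_zero hvy₂ hw0) h0)
  refine adj_of_move hP hY (siegel_mem_E hv hω)
    (S := (line F K v ⊓ Y) ⊔ Submodule.span F {y₁})
    (finrank_sup_line hint fun h => hy₁X h.1) ?_ ?_ hy₂ hmove
  · refine sup_le inf_le_right ?_
    rw [Submodule.span_singleton_le_iff_mem]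
    exact hy₁
  · intro x hx
    obtain ⟨x₁, hx₁, x₂, hx₂, rfl⟩ := Submodule.mem_sup.1 hx
    obtain ⟨c, rfl⟩ := Submodule.mem_span_singleton.1 hx₂
    refine ⟨x₁ + c • y₁, Y.add_mem hx₁.2 (Y.smul_mem c hy₁), ?_⟩
    have h1 : siegel QK v (ω • w) hv hω y₁ = y₁ := by
      apply siegel_fix hv hω hvy₁
      rw [polar_smul_left, polar_comm, hy₁w, smul_zero]
    rw [map_add, siegel_fix_line hv hω hx₁.1, ← algebraMap_smul K c y₁, map_smul, h1]

end Fin

end Cfsg.Agent.H925.Ext
end

-- part: H925/ExtFourB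
section
/-!
# Overgroups of `Ω(V, QK)` in `Ω(V, τ ∘ QK)`, XIII: `dim_K V = 4`, the intersections of points (continued)
-/

set_option autoImplicit false
set_option linter.unusedSectionVars false

namespace Cfsg.Agent.H925.Ext

open QuadraticMap Cfsg.Agent.LieClassical.OrthCore Cfsg.Agent.LieClassical.OrthTrans
  Cfsg.Agent.LieClassical.OrthFinite Cfsg.Agent.H883.Root Cfsg.Agent.H883.Sub
open scoped commutatorElement

section One

variable {K V : Type*} [Field K] [AddCommGroup V] [Module K V] {QK : QuadraticForm K V}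

/-- The product of two reflections in a plane. -/
theorem refl_refl_add {a a' : V} {d α β : K} (ha : QK a ≠ 0) (ha' : QK a' = d * QK a)
    (haa : polar QK a a' = 0) (hαβ : α * α + d * (β * β) = 1) (hb : QK (α • a + β • a') ≠ 0)
    (x y : K) :
    refl QK a ha (refl QK (α • a + β • a') hb (x • a + y • a')) +
      refl QK (α • a + β • a') hb (refl QK a ha (x • a + y • a')) =
      (4 * (α * α) - 2) • (x • a + y • a') := by
  have hQb : QK (α • a + β • a') = QK a := by
    rw [Q_add, QuadraticMap.map_smul, QuadraticMap.map_smul, polar_smul_left, polar_smul_right,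
      haa, ha']
    simp only [smul_eq_mul]
    linear_combination QK a * hαβ
  have haa' : polar QK a' a = 0 := by rw [polar_comm]; exact haa
  simp only [refl_apply, hQb, polar_sub_right, polar_add_right, polar_smul_right, polar_add_left,
    polar_smul_left, polar_self', haa, haa', ha', smul_eq_mul]
  match_scalars
  · field_simp
    ring
  · field_simp
    linear_combination (-4 * y * QK a ^ 2) * hαβ

/-- In dimension `4` the complement of a hyperbolic plane is spanned by two orthogonal nonsingular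
vectors. -/
theorem exists_coord (hQ : Nondeg QK) (h2 : (2 : K) ≠ 0) (hd : Module.finrank K V = 4)
    {v v' a b : V} (hyp : Hyp QK v v') (hva : polar QK v a = 0) (hv'a : polar QK v' a = 0)
    (hvb : polar QK v b = 0) (hv'b : polar QK v' b = 0) (ha : QK a ≠ 0) (hb : QK b ≠ 0)
    (hab : polar QK a b = 0) {w : V} (hvw : polar QK v w = 0) (hv'w : polar QK v' w = 0) :
    ∃ x y : K, w = x • a + y • b := by
  have hli : LinearIndependent K ![v, v', a, b] := by
    rw [Fintype.linearIndependent_iff]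
    intro f hf
    rw [Fin.sum_univ_four] at hf
    simp only [Matrix.cons_val_zero, Matrix.cons_val_one, Matrix.cons_val] at hf
    have h0 : f 0 = 0 := by
      have := congrArg (fun z => polar QK v' z) hf
      simp only [polar_add_right, polar_smul_right, hyp.pair', hyp.polar_right, hv'a, hv'b,
        polar_zero_right, smul_eq_mul] at this
      simpa using this
    have h1 : f 1 = 0 := by
      have := congrArg (fun z => polar QK v z) hf
      simp only [polar_add_right, polar_smul_right, hyp.pair, hyp.polar_left, hva, hvb,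
        polar_zero_right, smul_eq_mul] at this
      simpa using this
    have h3 : f 2 = 0 := by
      have := congrArg (fun z => polar QK a z) hf
      simp only [polar_add_right, polar_smul_right, polar_comm QK a v, hva, polar_comm QK a v',
        hv'a, hab, polar_zero_right, smul_eq_mul, polar_self'] at this
      have h4 : f 2 * (2 * QK a) = 0 := by simpa using this
      exact (mul_eq_zero.1 h4).resolve_right (mul_ne_zero h2 ha)
    have h4 : f 3 = 0 := by
      have := congrArg (fun z => polar QK b z) hf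
      simp only [polar_add_right, polar_smul_right, polar_comm QK b v, hvb, polar_comm QK b v',
        hv'b, polar_comm QK b a, hab, polar_zero_right, smul_eq_mul, polar_self'] at this
      have h5 : f 3 * (2 * QK b) = 0 := by simpa using this
      exact (mul_eq_zero.1 h5).resolve_right (mul_ne_zero h2 hb)
    intro i
    fin_cases i
    · exact h0
    · exact h1
    · exact h3
    · exact h4
  have hspan : Submodule.span K (Set.range ![v, v', a, b]) = ⊤ :=
    hli.span_eq_top_of_card_eq_finrank (by rw [hd]; rfl)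
  refine ⟨polar QK a w * (2 * QK a)⁻¹, polar QK b w * (2 * QK b)⁻¹, ?_⟩
  rw [← sub_eq_zero]
  apply hQ
  intro z
  set w' := w - ((polar QK a w * (2 * QK a)⁻¹) • a + (polar QK b w * (2 * QK b)⁻¹) • b) with hw'
  have e0 : polar QK v w' = 0 := by
    rw [hw', polar_sub_right, polar_add_right, polar_smul_right, polar_smul_right, hva, hvb, hvw]
    simp
  have e1 : polar QK v' w' = 0 := by
    rw [hw', polar_sub_right, polar_add_right, polar_smul_right, polar_smul_right, hv'a, hv'b, hv'w]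
    simp
  have e2 : polar QK a w' = 0 := by
    rw [hw', polar_sub_right, polar_add_right, polar_smul_right, polar_smul_right, hab,
      polar_self']
    simp only [smul_eq_mul, mul_zero, add_zero]
    field_simp
    ring
  have e3 : polar QK b w' = 0 := by
    rw [hw', polar_sub_right, polar_add_right, polar_smul_right, polar_smul_right,
      polar_comm QK b a, hab, polar_self']
    simp only [smul_eq_mul, mul_zero, zero_add]
    field_simp
    ring
  have hz : z ∈ Submodule.span K (Set.range ![v, v', a, b]) := by rw [hspan]; trivial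
  induction hz using Submodule.span_induction with
  | mem x hx =>
    obtain ⟨i, rfl⟩ := hx
    rw [polar_comm]
    fin_cases i
    · exact e0
    · exact e1
    · exact e2
    · exact e3
  | zero => exact polar_zero_right QK w'
  | add x y _ _ hx hy => rw [polar_add_right, hx, hy, add_zero]
  | smul c x _ hx => rw [polar_smul_right, hx, smul_zero]

end One

section Fld

variable {F K : Type*} [Field F] [Field K] [Algebra F K] [FiniteDimensional F K]

/-- A point `(α, β)` of the conic with `α²` outside `F` (degree at least `3`). -/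
theorem exists_alpha (h2 : (2 : K) ≠ 0) (hr : (Module.finrank F K).Prime)
    (hr3 : 3 ≤ Module.finrank F K) {d : K} (hd : d ≠ 0) :
    ∃ α β : K, α * α + d * (β * β) = 1 ∧ ∀ c : F, α * α ≠ c • (1 : K) := by
  -- `d t²` outside `F`
  obtain ⟨t, ht⟩ : ∃ t : K, ∀ c : F, d * (t * t) ≠ c • (1 : K) := by
    by_contra hcon
    push Not at hcon
    have hmem : ∀ t : K, d * (t * t) ∈ Submodule.span F {(1 : K)} := by
      intro t
      obtain ⟨c, hc⟩ := hcon t
      rw [hc]
      exact Submodule.smul_mem _ _ (Submodule.mem_span_singleton_self _)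
    have htop : (⊤ : Submodule F K) ≤ Submodule.span F {(1 : K)} := by
      intro k _
      have e : k = d * ((k / d / 2 + 1) * (k / d / 2 + 1)) - d * ((k / d / 2) * (k / d / 2)) -
          d * (1 * 1) := by
        field_simp
        ring
      rw [e]
      exact Submodule.sub_mem _ (Submodule.sub_mem _ (hmem _) (hmem _)) (hmem _)
    have h3 := Submodule.finrank_mono htop
    rw [finrank_top, finrank_span_singleton one_ne_zero] at h3
    omega
  set u := d * (t * t) with hu
  have hu1 : 1 + u ≠ 0 := by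
    intro h
    apply ht (-1)
    rw [neg_smul, one_smul]
    linear_combination h
  set α := (1 - u) / (1 + u) with hα
  have hαF : ∀ c : F, α ≠ c • (1 : K) := by
    intro c hc
    have h3 : 1 - u = c • (1 : K) * (1 + u) := by
      rw [← hc, hα, div_mul_cancel₀ _ hu1]
    by_cases hc1 : c = -1
    · subst hc1
      rw [neg_smul, one_smul] at h3
      exact h2 (by linear_combination h3)
    · have hc2 : 1 + c ≠ 0 := fun h => hc1 (by linear_combination h)
      apply ht ((1 - c) / (1 + c))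
      have h4 : u * (1 + c • (1 : K)) = 1 - c • (1 : K) := by linear_combination -h3
      have h5 : (1 : K) + c • (1 : K) = algebraMap F K (1 + c) := by
        rw [map_add, map_one, Algebra.smul_def, mul_one]
      have h6 : (1 : K) - c • (1 : K) = algebraMap F K (1 - c) := by
        rw [map_sub, map_one, Algebra.smul_def, mul_one]
      have h7 : algebraMap F K (1 + c) ≠ 0 := by
        rw [Ne, map_eq_zero]
        exact hc2
      rw [h5, h6] at h4
      rw [Algebra.smul_def, mul_one, map_div₀, eq_div_iff h7]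
      exact h4
  refine ⟨α, 2 * t / (1 + u), ?_, ?_⟩
  · rw [hα]
    field_simp
    rw [hu]
    ring
  · intro c hc
    let S : Submodule F K := Submodule.span F {1, α}
    have hS : S = ⊤ := by
      refine eq_top_of_closed hr hαF (Submodule.subset_span (by simp)) ?_
      intro s hs
      obtain ⟨x, y, rfl⟩ := Submodule.mem_span_pair.1 hs
      rw [Submodule.mem_span_pair]
      refine ⟨y * c, x, ?_⟩
      rw [mul_add, mul_smul_comm, mul_smul_comm, mul_one, hc, mul_smul]
      abel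
    have h3 : Module.finrank F S ≤ 2 := by
      have := finrank_span_pair_le (K := F) (V := K) 1 α
      exact this
    rw [hS, finrank_top] at h3
    omega

end Fld

variable {F K V : Type*} [Field F] [Field K] [Algebra F K] [AddCommGroup V]
  [Module F V] [Module K V] [IsScalarTower F K V]

variable {τ : K →ₗ[F] F} {QK : QuadraticForm K V} {Q : QuadraticForm F V}
  {H : Subgroup (V ≃ₗ[F] V)}

section Fin

variable [FiniteDimensional F V] [FiniteDimensional F K]

theorem adj_of_move' {Y : Submodule F V} (hY : IsPoint QK H Y)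
    {a : V ≃ₗ[K] V} (ha : (rs a : V ≃ₗ[F] V) ∈ H) {S : Submodule F V} {s : ℕ}
    (hs : s ≤ Module.finrank F S)
    (hSY : S ≤ Y) (hSa : ∀ x ∈ S, ∃ y ∈ Y, a y = x) {y : V} (hy : y ∈ Y) (hay : a y ∉ Y) :
    Adj QK H s := by
  refine ⟨Y, Y.map ((rs a : V ≃ₗ[F] V) : V →ₗ[F] V), hY, hY.map ha, ?_, ?_⟩
  · intro h
    apply hay
    rw [h]
    exact ⟨y, hy, rfl⟩
  · refine le_trans hs (Submodule.finrank_mono (le_inf hSY fun x hx => ?_))
    obtain ⟨y, hy, e⟩ := hSa x hx
    exact ⟨y, hy, e⟩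

theorem mem_span_of_proj {v v' y : V}
    (h : Cfsg.Agent.LieClassical.OrthTrans.proj QK v v' y = 0) :
    y ∈ Submodule.span K {v, v'} := by
  rw [Cfsg.Agent.LieClassical.OrthTrans.proj, sub_sub, sub_eq_zero] at h
  rw [h]
  exact Submodule.add_mem _ (Submodule.smul_mem _ _ (Submodule.subset_span (by simp)))
    (Submodule.smul_mem _ _ (Submodule.subset_span (by simp)))

/-- **Non-orthogonal pairs not in a `K`-plane, dimension `4`.** -/
theorem adj_step_out (hP : PreC τ QK Q H) (hr : (Module.finrank F K).Prime)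
    (hr3 : 3 ≤ Module.finrank F K) (h2 : (2 : K) ≠ 0) (hd : Module.finrank K V = 4) {s : ℕ}
    {v v' : V} (hyp : Hyp QK v v') {Y : Submodule F V} (hY : IsPoint QK H Y)
    (hne : line F K v ≠ Y) (hvY : v ∈ Y)
    (hint : s ≤ Module.finrank F (line F K v ⊓ Y : Submodule F V)) {y y₂ : V} (hyY : y ∈ Y)
    (hyX : y ∉ line F K v) (hyP : y ∈ Submodule.span K {v, v'}) (hy₂ : y₂ ∈ Y)
    (hy₂P : y₂ ∉ Submodule.span K {v, v'}) : Adj QK H (s + 1) := by
  have hnl := hY.not_line hvY hyp.left_ne hne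
  obtain ⟨a, a', hva, hv'a, hva', hv'a', ha, ha', haa⟩ :=
    exists_orth_pair hP.nondeg h2 (by omega) hyp
  set d := QK a' * (QK a)⁻¹ with hddef
  have hd0 : d ≠ 0 := mul_ne_zero ha' (inv_ne_zero ha)
  have hda : QK a' = d * QK a := by rw [hddef, mul_assoc, inv_mul_cancel₀ ha, mul_one]
  obtain ⟨α, β, hαβ, hαF⟩ := exists_alpha (F := F) h2 hr hr3 hd0
  set b := α • a + β • a' with hbdef
  have hQb : QK b = QK a := by
    rw [hbdef, Q_add, QuadraticMap.map_smul, QuadraticMap.map_smul, polar_smul_left,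
      polar_smul_right, haa, hda]
    simp only [smul_eq_mul]
    linear_combination QK a * hαβ
  have hb : QK b ≠ 0 := by rw [hQb]; exact ha
  have hvb : polar QK v b = 0 := by
    rw [hbdef, polar_add_right, polar_smul_right, polar_smul_right, hva, hva']; simp
  have hv'b : polar QK v' b = 0 := by
    rw [hbdef, polar_add_right, polar_smul_right, polar_smul_right, hv'a, hv'a']; simp
  set g := refl QK a ha * refl QK b hb with hg
  have hgC : g ∈ ⁅O QK, O QK⁆ := refl_mul_refl_mem_comm h2 ha hb hQb.symm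
  have hgapp : ∀ x, g x = refl QK a ha (refl QK b hb x) := fun x => rfl
  have hginv : ∀ x, g⁻¹ x = refl QK b hb (refl QK a ha x) := by
    intro x
    rw [hg, mul_inv_rev, refl_inv, refl_inv]
    rfl
  have hfix : ∀ x, polar QK a x = 0 → polar QK b x = 0 → g x = x := by
    intro x h1 h3
    rw [hgapp]
    have e1 : refl QK b hb x = x := by
      rw [refl_apply, h3]
      simp
    rw [e1, refl_apply, h1]
    simp
  have hgv : g v = v := hfix v (by rw [polar_comm, hva]) (by rw [polar_comm, hvb])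
  have hgv' : g v' = v' := hfix v' (by rw [polar_comm, hv'a]) (by rw [polar_comm, hv'b])
  have hgP : ∀ p ∈ Submodule.span K {v, v'}, g p = p := by
    intro p hp
    obtain ⟨x, y, rfl⟩ := Submodule.mem_span_pair.1 hp
    rw [map_add, map_smul, map_smul, hgv, hgv']
  by_cases hmove : ∃ z ∈ Y, g z ∉ Y
  · obtain ⟨z, hz, hgz⟩ := hmove
    refine adj_of_move' hY (hP.hE g hgC) (S := (line F K v ⊓ Y) ⊔ Submodule.span F {y})
      (finrank_sup_line hint fun h => hyX h.1) ?_ ?_ hz hgz
    · refine sup_le inf_le_right ?_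
      rw [Submodule.span_singleton_le_iff_mem]
      exact hyY
    · intro x hx
      obtain ⟨x₁, hx₁, x₂, hx₂, rfl⟩ := Submodule.mem_sup.1 hx
      obtain ⟨c, rfl⟩ := Submodule.mem_span_singleton.1 hx₂
      refine ⟨x₁ + c • y, Y.add_mem hx₁.2 (Y.smul_mem c hyY), ?_⟩
      obtain ⟨k, rfl⟩ := mem_line.1 hx₁.1
      rw [map_add, map_smul, hgv, ← algebraMap_smul K c y, map_smul, hgP y hyP]
  · exfalso
    push Not at hmove
    have hmap : Y.map ((rs g : V ≃ₗ[F] V) : V →ₗ[F] V) = Y := by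
      apply Submodule.eq_of_le_of_finrank_eq
      · rintro _ ⟨z, hz, rfl⟩
        exact hmove z hz
      · exact LinearEquiv.finrank_map_eq _ _
    have hmove' : ∀ z ∈ Y, g⁻¹ z ∈ Y := by
      intro z hz
      rw [← hmap] at hz
      obtain ⟨z', hz', rfl⟩ := hz
      have : g⁻¹ (g z') = z' := LinearEquiv.symm_apply_apply g z'
      show g⁻¹ (g z') ∈ Y
      rw [this]
      exact hz'
    set κ := 4 * (α * α) - 2 with hκ
    -- the action on the complement
    have hact : ∀ z, polar QK v z = 0 → polar QK v' z = 0 → g z + g⁻¹ z = κ • z := by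
      intro z h1 h3
      obtain ⟨x, y, rfl⟩ := exists_coord hP.nondeg h2 hd hyp hva hv'a hva' hv'a' ha ha' haa h1 h3
      rw [hgapp, hginv]
      exact refl_refl_add ha hda haa hαβ hb x y
    have hκF : ∀ c : F, κ ≠ c • (1 : K) := by
      intro c hc
      apply hαF ((c + 2) / 4)
      have h4 : (4 : K) ≠ 0 := by
        have : (4 : K) = 2 * 2 := by norm_num
        rw [this]
        exact mul_ne_zero h2 h2
      rw [Algebra.smul_def, mul_one, map_div₀, map_add, map_ofNat, map_ofNat, eq_div_iff h4]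
      rw [Algebra.smul_def, mul_one] at hc
      rw [← hc, hκ]
      ring
    -- vectors of `Y` in the complement vanish
    have hzero : ∀ z ∈ Y, polar QK v z = 0 → polar QK v' z = 0 → z = 0 := by
      intro z hz h1 h3
      by_contra hz0
      let S : Submodule F K := Y.comap ((LinearMap.toSpanSingleton K V z).restrictScalars F)
      have hSmem : ∀ k : K, k ∈ S ↔ k • z ∈ Y := fun k => Iff.rfl
      have hS : S = ⊤ := by
        refine eq_top_of_closed hr hκF ?_ ?_
        · rw [hSmem, one_smul]; exact hz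
        · intro k hk
          rw [hSmem] at hk ⊢
          rw [mul_smul, ← hact (k • z) (by rw [polar_smul_right, h1, smul_zero])
            (by rw [polar_smul_right, h3, smul_zero])]
          exact Y.add_mem (hmove _ hk) (hmove' _ hk)
      apply hnl z hz0
      intro x hx
      obtain ⟨k, rfl⟩ := mem_line.1 hx
      have : k ∈ S := by rw [hS]; trivial
      exact this
    set ω := Cfsg.Agent.LieClassical.OrthTrans.proj QK v v' y₂ with hω
    have hω1 : polar QK v ω = 0 := polar_proj_left hyp y₂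
    have hω2 : polar QK v' ω = 0 := polar_proj_right hyp y₂
    have hgO : g ∈ O QK := comm_le_O hgC
    have hgω1 : polar QK v (g ω) = 0 := by
      nth_rewrite 1 [← hgv]
      rw [polar_map hgO]
      exact hω1
    have hgω2 : polar QK v' (g ω) = 0 := by
      nth_rewrite 1 [← hgv']
      rw [polar_map hgO]
      exact hω2
    have h3 : g ω - ω = 0 := by
      apply hzero
      · have e : g ω - ω = g y₂ - y₂ := by
          rw [hω, Cfsg.Agent.LieClassical.OrthTrans.proj, map_sub, map_sub, map_smul, map_smul, hgv,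
            hgv']
          abel
        rw [e]
        exact Y.sub_mem (hmove y₂ hy₂) hy₂
      · rw [polar_sub_right, hgω1, hω1, sub_zero]
      · rw [polar_sub_right, hgω2, hω2, sub_zero]
    have h4 : g ω = ω := sub_eq_zero.1 h3
    have h5 : g⁻¹ ω = ω := by
      apply g.injective
      rw [h4]
      exact LinearEquiv.apply_symm_apply g ω
    have h6 := hact ω hω1 hω2
    rw [h4, h5] at h6
    have h7 : (κ - 2) • ω = 0 := by
      rw [sub_smul, ← h6, two_smul, sub_self]
    have h8 : κ - 2 ≠ 0 := by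
      intro h8
      apply hκF 2
      rw [Algebra.smul_def, mul_one, map_ofNat]
      linear_combination h8
    have h9 : ω = 0 := (smul_eq_zero.1 h7).resolve_left h8
    exact hy₂P (mem_span_of_proj h9)

/-- **Non-orthogonal pairs in a `K`-plane, dimension at least `4`.** -/
theorem adj_step_in [Finite K] (hP : PreC τ QK Q H) (hr : (Module.finrank F K).Prime)
    (h2 : (2 : K) ≠ 0) (hd : 4 ≤ Module.finrank K V) {s : ℕ} (hs1 : 1 ≤ s)
    (hs : s + 2 ≤ Module.finrank F K)
    {v v' : V} (hyp : Hyp QK v v') {Y : Submodule F V} (hY : IsPoint QK H Y)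
    (hne : line F K v ≠ Y) (hvY : v ∈ Y)
    (hint : s ≤ Module.finrank F (line F K v ⊓ Y : Submodule F V)) {y : V} (hyY : y ∈ Y)
    (hvy : polar QK v y ≠ 0) (hYP : ∀ z ∈ Y, z ∈ Submodule.span K {v, v'}) :
    Adj QK H (s + 1) := by
  have hPre := hP.pre h2
  have hT := hP.tr
  -- the space of the coordinates `γ`
  let f : V →ₗ[F] K :=
    { toFun := fun z => polar QK v z
      map_add' := fun a b => polar_add_right QK v a b
      map_smul' := fun c a => by
        rw [← algebraMap_smul K c a, polar_smul_right]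
        simp [Algebra.smul_def] }
  have hf : ∀ z, f z = polar QK v z := fun z => rfl
  have hlt : Y.map f < ⊤ := by
    rw [lt_top_iff_ne_top]
    intro htop
    have h1 := LinearMap.finrank_range_add_finrank_ker (f.domRestrict Y)
    have h3 : LinearMap.range (f.domRestrict Y) = Y.map f := by
      rw [LinearMap.range_domRestrict]
    rw [h3, htop, finrank_top, hY.finrank] at h1
    have h4 : Module.finrank F (LinearMap.ker (f.domRestrict Y)) = 0 := by omega
    have h5 : LinearMap.ker (f.domRestrict Y) = ⊥ := Submodule.finrank_eq_zero.1 h4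
    have h6 : (⟨v, hvY⟩ : Y) ∈ LinearMap.ker (f.domRestrict Y) := by
      rw [LinearMap.mem_ker]
      show polar QK v v = 0
      exact hyp.polar_left
    rw [h5, Submodule.mem_bot] at h6
    exact hyp.left_ne (congrArg Subtype.val h6)
  obtain ⟨φ, hφ0, hφ⟩ := Submodule.exists_le_ker_of_lt_top _ hlt
  obtain ⟨μ, hμ⟩ := exists_delta hT.ne φ
  have hμ0 : μ ≠ 0 := by
    rintro rfl
    apply hφ0
    ext k
    rw [hμ, mul_zero, map_zero]
    rfl
  have hμY : ∀ z ∈ Y, τ (polar QK v z * μ) = 0 := by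
    intro z hz
    rw [← hμ, ← hf]
    exact hφ ⟨z, hz, rfl⟩
  set γ := polar QK v y with hγ
  obtain ⟨w, hvw, hv'w, hQw⟩ := exists_norm_perp hP.nondeg h2 hd hyp (μ * γ⁻¹)
  have hQw0 : QK w ≠ 0 := by rw [hQw]; exact mul_ne_zero hμ0 (inv_ne_zero hvy)
  have hwY : ∀ z ∈ Y, polar QK w z = 0 := by
    intro z hz
    obtain ⟨x, y, e⟩ := Submodule.mem_span_pair.1 (hYP z hz)
    rw [← e, polar_add_right, polar_smul_right, polar_smul_right, polar_comm QK w v, hvw,
      polar_comm QK w v', hv'w]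
    simp
  set a := siegel QK v w hyp.left hvw with ha
  have haE : a ∈ E QK := siegel_mem_E hyp.left hvw
  have haH : (rs a : V ≃ₗ[F] V) ∈ H := hPre.hE a haE
  have hact : ∀ z ∈ Y, a z = z + polar QK v z • w - (QK w * polar QK v z) • v := by
    intro z hz
    rw [ha, siegel_apply, hwY z hz]
    simp
  set Y₂ := Y.map ((rs a : V ≃ₗ[F] V) : V →ₗ[F] V) with hY₂
  have hY₂P : IsPoint QK H Y₂ := hY.map haH
  -- `y` is orthogonal to `Y₂`
  have hyperp : ∀ z ∈ Y₂, polar Q y z = 0 := by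
    rintro _ ⟨z, hz, rfl⟩
    show polar Q y (a z) = 0
    have e : a z = z + (polar QK v z • w - (QK w * polar QK v z) • v) := by
      rw [hact z hz]; abel
    rw [e, polar_add_right, polar_zero_of_ts (hY.sing hPre) hyY hz, zero_add, hT.pol,
      polar_sub_right, polar_smul_right, polar_smul_right, polar_comm QK y w, hwY y hyY,
      polar_comm QK y v, ← hγ, hQw]
    have e2 : polar QK v z • (0 : K) - (μ * γ⁻¹ * polar QK v z) • γ = -(polar QK v z * μ) := by
      simp only [smul_eq_mul]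
      field_simp
      ring
    rw [e2, map_neg, hμY z hz, neg_zero]
  have hyY₂ : y ∉ Y₂ := by
    rintro ⟨z, hz, e⟩
    have e' : a z = y := e
    rw [hact z hz] at e'
    have h1 : polar QK w (z + polar QK v z • w - (QK w * polar QK v z) • v) = polar QK w y := by
      rw [e']
    rw [polar_sub_right, polar_add_right, hwY z hz, hwY y hyY, polar_smul_right,
      polar_smul_right, polar_self', polar_comm QK w v, hvw] at h1
    have h3 : polar QK v z * (2 * QK w) = 0 := by simpa using h1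
    have h4 : polar QK v z = 0 := (mul_eq_zero.1 h3).resolve_right (mul_ne_zero h2 hQw0)
    rw [h4] at e'
    have e'' : z = y := by simpa using e'
    apply hvy
    rw [hγ, ← e'']
    exact h4
  have hne2 : Y₂ ≠ Y := fun h => hyY₂ (h ▸ hyY)
  have hint2 : s ≤ Module.finrank F (Y₂ ⊓ Y : Submodule F V) := by
    refine le_trans hint (Submodule.finrank_mono (le_inf (fun x hx => ?_) inf_le_right))
    exact ⟨x, hx.2, siegel_fix_line hyp.left hvw hx.1⟩
  obtain ⟨g, hg, v₁, hv₁, hv₁0, e₁, hv₁Y, hne₁⟩ := exists_line_pair hY₂P hne2 (le_trans hs1 hint2)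
  have hint3 : s ≤ Module.finrank F (line F K v₁ ⊓ Y.map (g : V →ₗ[F] V) : Submodule F V) := by
    rw [← e₁, finrank_map_inf]
    exact hint2
  have hgy : g y ∈ Y.map (g : V →ₗ[F] V) := ⟨y, hyY, rfl⟩
  have hgyX : g y ∉ line F K v₁ := by
    rw [← e₁]
    rintro ⟨z, hz, e⟩
    have : z = y := g.injective e
    exact hyY₂ (this ▸ hz)
  have hv₁y : polar QK v₁ (g y) = 0 := by
    apply hT.perp_line
    intro k
    have : k • v₁ ∈ Y₂.map (g : V →ₗ[F] V) := by rw [e₁]; exact smul_mem_line k v₁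
    obtain ⟨z, hz, e⟩ := this
    rw [← e]
    show polar Q (g z) (g y) = 0
    rw [polar_map (hP.hHO hg), polar_comm]
    exact hyperp z hz
  by_cases horth : ∀ z ∈ Y.map (g : V →ₗ[F] V), polar QK v₁ z = 0
  · exact adj_step_orth hPre hr h2 hs hv₁ hv₁0 (hY.map hg) hne₁ hv₁Y hint3 horth
  · push Not at horth
    obtain ⟨z, hz, hvz⟩ := horth
    exact adj_step_degenerate hPre h2 hd hv₁ hv₁0 (hY.map hg) hne₁ hv₁Y hint3 hgy hgyX hv₁y hz hvz

/-- **Stage 2, dimension `4`.** -/
theorem adj_all_four [Finite K] (hP : PreC τ QK Q H) (hr : (Module.finrank F K).Prime)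
    (hr3 : 3 ≤ Module.finrank F K) (h2 : (2 : K) ≠ 0) (hd : Module.finrank K V = 4)
    (h1 : Adj QK H 1) (s : ℕ) (hs : s + 1 ≤ Module.finrank F K) : Adj QK H s := by
  induction s with
  | zero =>
    obtain ⟨X, Y, hX, hY, hne, -⟩ := h1
    exact ⟨X, Y, hX, hY, hne, Nat.zero_le _⟩
  | succ s ih =>
    rcases Nat.eq_zero_or_pos s with rfl | hs0
    · exact h1
    have hPre := hP.pre h2
    obtain ⟨X, Y, hX, hY, hne, hint⟩ := ih (by omega)
    obtain ⟨g, hg, v, hv, hv0, e, hvY, hne'⟩ := exists_line_pair hX hne (le_trans hs0 hint)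
    have hint' : s ≤ Module.finrank F (line F K v ⊓ Y.map (g : V →ₗ[F] V) : Submodule F V) := by
      rw [← e, finrank_map_inf]
      exact hint
    have hY' : IsPoint QK H (Y.map (g : V →ₗ[F] V)) := hY.map hg
    by_cases horth : ∀ y ∈ Y.map (g : V →ₗ[F] V), polar QK v y = 0
    · exact adj_step_orth hPre hr h2 (by omega) hv hv0 hY' hne' hvY hint' horth
    · push Not at horth
      obtain ⟨y, hy, hvy⟩ := horth
      have hyX : y ∉ line F K v := by
        intro h
        obtain ⟨k, rfl⟩ := mem_line.1 h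
        apply hvy
        rw [polar_smul_right, polar_self_of_sing hv, smul_zero]
      obtain ⟨v', hyp, -, hyP⟩ := exists_plane hv hvy
      by_cases hout : ∃ y₂ ∈ Y.map (g : V →ₗ[F] V), y₂ ∉ Submodule.span K {v, v'}
      · obtain ⟨y₂, hy₂, hy₂P⟩ := hout
        exact adj_step_out hP hr hr3 h2 hd hyp hY' hne' hvY hint' hy hyX hyP hy₂ hy₂P
      · push Not at hout
        exact adj_step_in hP hr h2 (by omega) hs0 (by omega) hyp hY' hne' hvY hint' hy hvy hout

end Fin

end Cfsg.Agent.H925.Ext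
end

-- part: H925/ExtTheta
section
/-!
# Overgroups of `Ω(V, QK)` in `Ω(V, τ ∘ QK)`, XIV: `dim_K V = 4`, orthogonal adjacent points in a totally
singular `K`-plane
-/

set_option autoImplicit false
set_option linter.unusedSectionVars false

namespace Cfsg.Agent.H925.Ext

open QuadraticMap Cfsg.Agent.LieClassical.OrthCore Cfsg.Agent.LieClassical.OrthTrans
  Cfsg.Agent.LieClassical.OrthFinite Cfsg.Agent.H883.Root Cfsg.Agent.H883.Sub
open scoped commutatorElement

section Abs

variable {F V : Type*} [Field F] [AddCommGroup V] [Module F V]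

/-- The second difference of the conjugates of a unipotent. -/
theorem second_diff {ρ Ψ : V ≃ₗ[F] V} {S : Submodule F V} {η : V →ₗ[F] V}
    (h1 : ∀ x, Ψ x = x + η x) (hS1 : ∀ x, η x ∈ S) (hS2 : ∀ x ∈ S, η x = 0)
    (hρ : ∀ x ∈ S, ρ⁻¹ x ∈ S) (x : V) :
    (ρ * ρ * Ψ * ρ⁻¹ * ρ⁻¹ * (ρ * Ψ⁻¹ * Ψ⁻¹ * ρ⁻¹) * Ψ) x =
      x + η x - (2 : F) • ρ (η (ρ⁻¹ x)) + ρ (ρ (η (ρ⁻¹ (ρ⁻¹ x)))) := by
  have hinv : ∀ x, Ψ⁻¹ x = x - η x := by
    intro x
    apply Ψ.injective
    have : Ψ (Ψ⁻¹ x) = x := LinearEquiv.apply_symm_apply Ψ x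
    rw [this, h1, map_sub, hS2 _ (hS1 x)]
    abel
  have hρ1 : ∀ x, ρ (ρ⁻¹ x) = x := fun x => LinearEquiv.apply_symm_apply ρ x
  have e0 : ∀ z, Ψ⁻¹ (Ψ⁻¹ z) = z - (2 : F) • η z := by
    intro z
    rw [hinv (Ψ⁻¹ z), hinv z, map_sub, hS2 _ (hS1 z), sub_zero, two_smul]
    abel
  have e1 : ρ (Ψ⁻¹ (Ψ⁻¹ (ρ⁻¹ (Ψ x)))) = x + η x - (2 : F) • ρ (η (ρ⁻¹ x)) := by
    have e : η (ρ⁻¹ (Ψ x)) = η (ρ⁻¹ x) := by
      rw [h1 x, map_add, map_add, hS2 _ (hρ _ (hS1 x)), add_zero]
    rw [e0, map_sub, hρ1, map_smul, e, h1]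
  show ρ (ρ (Ψ (ρ⁻¹ (ρ⁻¹ (ρ (Ψ⁻¹ (Ψ⁻¹ (ρ⁻¹ (Ψ x))))))))) = _
  rw [e1, h1, map_add ρ, map_add ρ, hρ1, hρ1]
  congr 3
  have e2 : ρ⁻¹ (ρ⁻¹ (x + η x - (2 : F) • ρ (η (ρ⁻¹ x)))) =
      ρ⁻¹ (ρ⁻¹ x) + (ρ⁻¹ (ρ⁻¹ (η x)) - (2 : F) • ρ⁻¹ (η (ρ⁻¹ x))) := by
    have hρ2 : ∀ x, ρ⁻¹ (ρ x) = x := fun x => LinearEquiv.symm_apply_apply ρ x
    rw [map_sub ρ⁻¹, map_sub ρ⁻¹, map_add ρ⁻¹, map_add ρ⁻¹, map_smul ρ⁻¹, map_smul ρ⁻¹, hρ2]
    abel
  rw [e2, map_add η, hS2 _ (S.sub_mem (hρ _ (hρ _ (hS1 x))) (S.smul_mem _ (hρ _ (hS1 _)))),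
    add_zero]

end Abs

variable {F K V : Type*} [Field F] [Field K] [Algebra F K] [AddCommGroup V]
  [Module F V] [Module K V] [IsScalarTower F K V]

variable {τ : K →ₗ[F] F} {QK : QuadraticForm K V} {Q : QuadraticForm F V}
  {H : Subgroup (V ≃ₗ[F] V)}

section Fin

variable [FiniteDimensional F V] [FiniteDimensional F K]

/-- The pairs of vectors with prescribed products with `v` and `y`. -/
theorem exists_dual_pair (hQ : Nondeg QK) {v y : V} (hv : QK v = 0) (hv0 : v ≠ 0)
    (hvy : polar QK v y = 0) (hyX : y ∉ line F K v) : ∃ a b : V, polar QK v a = 1 ∧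
      polar QK y a = 0 ∧ polar QK v b = 0 ∧ polar QK y b = 1 := by
  obtain ⟨v', hyp⟩ := Cfsg.Agent.LieClassical.OrthTrans.exists_hyp hQ hv hv0
  set y₁ := y - polar QK v' y • v with hy₁
  have hy₁0 : y₁ ≠ 0 := by
    intro h
    apply hyX
    rw [sub_eq_zero] at h
    rw [h]
    exact smul_mem_line _ v
  have h1 : polar QK v y₁ = 0 := by
    rw [hy₁, polar_sub_right, polar_smul_right, hvy, hyp.polar_left, smul_zero, sub_zero]
  have h2 : polar QK v' y₁ = 0 := by
    rw [hy₁, polar_sub_right, polar_smul_right, hyp.pair', smul_eq_mul, mul_one, sub_self]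
  obtain ⟨c, hc⟩ := hQ.exists_polar_eq hy₁0 1
  set c₁ := Cfsg.Agent.LieClassical.OrthTrans.proj QK v v' c with hc₁
  have h3 : polar QK v c₁ = 0 := polar_proj_left hyp c
  have h4 : polar QK y₁ c₁ = 1 := by
    rw [hc₁, polar_proj_of_perp h1 h2, hc]
  have h5 : polar QK y c₁ = 1 := by
    have e : y = y₁ + polar QK v' y • v := by rw [hy₁]; abel
    rw [e, polar_add_left, h4, polar_smul_left, h3, smul_zero, add_zero]
  refine ⟨v' - polar QK y v' • c₁, c₁, ?_, ?_, h3, h5⟩
  · rw [polar_sub_right, polar_smul_right, hyp.pair, h3, smul_zero, sub_zero]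
  · rw [polar_sub_right, polar_smul_right, h5, smul_eq_mul, mul_one, sub_self]

/-- The data of an orthogonal adjacent pair in a totally singular `K`-plane, `dim_K V = 4`. -/
theorem exists_theta (hP : PreC τ QK Q H) (h2 : (2 : K) ≠ 0) (hr : 2 ≤ Module.finrank F K)
    (hd : Module.finrank K V = 4) {v y : V} (hv : QK v = 0)
    (hv0 : v ≠ 0) (hy : QK y = 0) (hvy : polar QK v y = 0) (hyX : y ∉ line F K v)
    {Y : Submodule F V} (hY : IsPoint QK H Y) {δ : K} (hδ : δ ≠ 0)
    (hsp : ∀ x ∈ Y, ∃ (k : K) (c : F), τ (k * δ) = 0 ∧ x = k • v + c • y) :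
    ∃ v', QK v' = 0 ∧ v' ≠ 0 ∧ ∃ Θ ∈ H, (∀ x, polar QK v' x = 0 → Θ x = x) ∧ ∃ e, Θ e ≠ e := by
  have hT := hP.tr
  have hPre := hP.pre h2
  obtain ⟨a, b, hva, hya, hvb, hyb⟩ := exists_dual_pair (F := F) hP.nondeg hv hv0 hvy hyX
  obtain ⟨γ, hγ, hγ0⟩ : ∃ γ : K, τ γ = 0 ∧ γ ≠ 0 := by
    have hker : LinearMap.ker τ ≠ ⊥ := by
      apply LinearMap.ker_ne_bot_of_finrank_lt
      rw [Module.finrank_self]
      omega
    obtain ⟨μ, hμ, hμ0⟩ := Submodule.exists_mem_ne_zero_of_ne_bot hker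
    exact ⟨μ, hμ, hμ0⟩
  obtain ⟨g, hg, v', hv', hv'0, e⟩ := hY.exists_line
  have hgO := hP.hHO hg
  have hg1 : ∀ x, g (g⁻¹ x) = x := fun x => LinearEquiv.apply_symm_apply g x
  have hg2 : ∀ x, g⁻¹ (g x) = x := fun x => LinearEquiv.symm_apply_apply g x
  -- the orthogonal of `Y`
  have hYperp : ∀ t : V, (∀ k : K, τ (k * δ) = 0 → τ (k * polar QK v t) = 0) →
      τ (polar QK y t) = 0 → polar QK v' (g t) = 0 := by
    intro t h1 h3
    apply hT.perp_line
    intro k
    have : k • v' ∈ Y.map (g : V →ₗ[F] V) := by rw [e]; exact smul_mem_line k v'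
    obtain ⟨x, hx, ex⟩ := this
    rw [← ex]
    show polar Q (g x) (g t) = 0
    rw [polar_map hgO]
    obtain ⟨k', c, hk', rfl⟩ := hsp x hx
    rw [polar_add_left, polar_smul_left, hT.pol, hT.pol, polar_smul_left, smul_eq_mul, h1 k' hk',
      h3]
    simp
  have hYperp' : ∀ w : V, polar QK v (g⁻¹ w) = 0 → polar QK y (g⁻¹ w) = 0 →
      polar QK v' w = 0 := by
    intro w h1 h3
    rw [← hg1 w]
    apply hYperp
    · intro k _
      rw [h1, mul_zero, map_zero]
    · rw [h3, map_zero]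
  -- the alternating form
  set D : V → V → K := fun t t' => polar QK v t * polar QK y t' - polar QK y t * polar QK v t'
    with hD
  have hDadd : ∀ a b c d : V, D (a + b) (c + d) = D a c + D a d + D b c + D b d := by
    intro a b c d
    simp only [hD, polar_add_right]
    ring
  have hDswap : ∀ a b : V, D a b = -D b a := by
    intro a b
    simp only [hD]
    ring
  obtain ⟨w, k, hw, hwk⟩ : ∃ (w : V) (k : K), polar QK v' w = 0 ∧ D (g⁻¹ w) (g⁻¹ (k • w)) ≠ 0 := by
    by_contra hcon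
    push Not at hcon
    have hpolz : ∀ w w' : V, polar QK v' w = 0 → polar QK v' w' = 0 → ∀ k : K,
        D (g⁻¹ (k • w)) (g⁻¹ w') = D (g⁻¹ w) (g⁻¹ (k • w')) := by
      intro w w' h1 h3 k
      have h4 := hcon (w + w') k (by rw [polar_add_right, h1, h3, add_zero])
      rw [smul_add, map_add, map_add, hDadd, hcon w k h1, hcon w' k h3] at h4
      rw [hDswap (g⁻¹ (k • w))]
      linear_combination -h4
    set t₁ := δ • a with ht₁
    set t₂ := γ • b with ht₂
    have hpt₁ : polar QK v t₁ = δ := by rw [ht₁, polar_smul_right, hva, smul_eq_mul, mul_one]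
    have hqt₁ : polar QK y t₁ = 0 := by rw [ht₁, polar_smul_right, hya, smul_zero]
    have hpt₂ : polar QK v t₂ = 0 := by rw [ht₂, polar_smul_right, hvb, smul_zero]
    have hqt₂ : polar QK y t₂ = γ := by rw [ht₂, polar_smul_right, hyb, smul_eq_mul, mul_one]
    have ht₁' : polar QK v' (g t₁) = 0 := by
      apply hYperp
      · intro k hk
        rw [hpt₁, hk]
      · rw [hqt₁, map_zero]
    have ht₂' : polar QK v' (g t₂) = 0 := by
      apply hYperp
      · intro k _
        rw [hpt₂, mul_zero, map_zero]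
      · rw [hqt₂, hγ]
    have hclosed : ∀ w : V, polar QK v (g⁻¹ w) = 0 → polar QK y (g⁻¹ w) = 0 → ∀ k : K,
        polar QK v (g⁻¹ (k • w)) = 0 ∧ polar QK y (g⁻¹ (k • w)) = 0 := by
      intro w h1 h3 k
      have h4 := hYperp' w h1 h3
      have h5 := hpolz w _ h4 ht₁' k
      have h6 := hpolz w _ h4 ht₂' k
      rw [hg2] at h5 h6
      simp only [hD, h1, h3, zero_mul, sub_zero, hpt₁, hqt₁, hpt₂, hqt₂, mul_zero, zero_sub,
        neg_eq_zero] at h5 h6
      exact ⟨(mul_eq_zero.1 h6).resolve_right hγ0, (mul_eq_zero.1 h5).resolve_right hδ⟩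
    let S : Submodule K V :=
      { carrier := {w | polar QK v (g⁻¹ w) = 0 ∧ polar QK y (g⁻¹ w) = 0}
        add_mem' := by
          rintro a b ⟨h1, h3⟩ ⟨h4, h5⟩
          constructor
          · rw [map_add, polar_add_right, h1, h4, add_zero]
          · rw [map_add, polar_add_right, h3, h5, add_zero]
        zero_mem' := by
          constructor
          · rw [map_zero, polar_zero_right]
          · rw [map_zero, polar_zero_right]
        smul_mem' := fun k w hw => hclosed w hw.1 hw.2 k }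
    have hSmem : ∀ w, w ∈ S ↔ polar QK v (g⁻¹ w) = 0 ∧ polar QK y (g⁻¹ w) = 0 := fun w => Iff.rfl
    set T : Submodule K V := perp QK (Submodule.span K {v, y}) with hTdef
    have hTmem : ∀ t, t ∈ T ↔ polar QK v t = 0 ∧ polar QK y t = 0 := by
      intro t
      rw [hTdef, mem_perp]
      constructor
      · intro h
        exact ⟨h v (Submodule.subset_span (by simp)), h y (Submodule.subset_span (by simp))⟩
      · rintro ⟨h1, h3⟩ x hx
        obtain ⟨c, d, rfl⟩ := Submodule.mem_span_pair.1 hx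
        rw [polar_add_left, polar_smul_left, polar_smul_left, h1, h3]
        simp
    have hST : S.restrictScalars F = (T.restrictScalars F).map (g : V →ₗ[F] V) := by
      ext w
      constructor
      · intro hw
        exact ⟨g⁻¹ w, (hTmem _).2 hw, hg1 w⟩
      · rintro ⟨t, ht, rfl⟩
        show g t ∈ S
        rw [hSmem, hg2]
        exact (hTmem _).1 ht
    have : FiniteDimensional K V := FiniteDimensional.right F K V
    have hfS : Module.finrank K T = Module.finrank K S := by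
      have h1 : Module.finrank F (S.restrictScalars F) = Module.finrank F (T.restrictScalars F) := by
        rw [hST]
        exact LinearEquiv.finrank_map_eq g _
      have h3 : Module.finrank F S = Module.finrank F T := h1
      rw [← Module.finrank_mul_finrank F K S, ← Module.finrank_mul_finrank F K T] at h3
      exact (Nat.eq_of_mul_eq_mul_left (by omega) h3).symm
    have h3 := finrank_perp hP.nondeg (Submodule.span K {v, y})
    rw [← hTdef] at h3
    have h4 : Module.finrank K (Submodule.span K {v, y}) ≤ 2 := finrank_span_pair_le v y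
    set W : Submodule K V := perp QK (Submodule.span K {v'}) with hW
    have hWmem : ∀ t, t ∈ W ↔ polar QK v' t = 0 := by
      intro t
      rw [hW, mem_perp]
      constructor
      · intro h
        exact h v' (Submodule.subset_span (by simp))
      · rintro h1 x hx
        obtain ⟨c, rfl⟩ := Submodule.mem_span_singleton.1 hx
        rw [polar_smul_left, h1, smul_zero]
    have h5 := finrank_perp hP.nondeg (Submodule.span K {v'})
    rw [← hW, finrank_span_singleton hv'0] at h5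
    have hx₁S : g t₁ ∉ S := by
      rw [hSmem, hg2, hpt₁]
      exact fun h => hδ h.1
    obtain ⟨c, hc⟩ := exists_sub_mem (F := K) (X := W) (Z := S)
      (fun w hw => (hWmem w).2 (hYperp' w hw.1 hw.2)) ((hWmem _).2 ht₁') hx₁S (by omega) (g t₂)
      ((hWmem _).2 ht₂')
    rw [hSmem, map_sub, hg2] at hc
    have h6 : D t₁ t₂ = D t₁ (g⁻¹ (c • g t₁)) := by
      obtain ⟨h7, h8⟩ := hc
      rw [polar_sub_right, sub_eq_zero] at h7 h8
      simp only [hD]
      rw [h7, h8]
    have h7 := hcon (g t₁) c ht₁'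
    rw [hg2] at h7
    rw [h7] at h6
    simp only [hD, hpt₁, hqt₁, hpt₂, hqt₂] at h6
    have h8 : δ * γ = 0 := by linear_combination h6
    exact (mul_ne_zero hδ hγ0) h8
  -- the unipotent
  obtain ⟨κ, hκ⟩ : ∃ κ : K, τ (κ * D (g⁻¹ w) (g⁻¹ (k • w))) ≠ 0 := by
    by_contra hcon
    push Not at hcon
    exact hwk (tau_ext hT.ne hcon)
  have hvκ : polar QK v (κ • y) = 0 := by rw [polar_smul_right, hvy, smul_zero]
  set Ψ : V ≃ₗ[F] V := g * rs (siegel QK v (κ • y) hv hvκ) * g⁻¹ with hΨ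
  have hΨH : Ψ ∈ H := H.mul_mem (H.mul_mem hg (hPre.hE _ (siegel_mem_E _ _))) (H.inv_mem hg)
  set η : V →ₗ[F] V := (Ψ : V →ₗ[F] V) - LinearMap.id with hη
  have hηapp : ∀ x, η x = g ((polar QK v (g⁻¹ x) * κ) • y - (κ * polar QK y (g⁻¹ x)) • v) := by
    intro x
    show g (siegel QK v (κ • y) hv hvκ (g⁻¹ x)) - x = _
    nth_rewrite 2 [← hg1 x]
    rw [← map_sub]
    congr 1
    rw [siegel_apply, QuadraticMap.map_smul, hy, polar_smul_left]
    simp only [smul_eq_mul, mul_zero, zero_mul, zero_smul, sub_zero, smul_smul]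
    abel
  have hΨη : ∀ x, Ψ x = x + η x := by
    intro x
    show Ψ x = x + (Ψ x - x)
    abel
  let S : Submodule F V :=
    { carrier := {w | polar QK v (g⁻¹ w) = 0 ∧ polar QK y (g⁻¹ w) = 0}
      add_mem' := by
        rintro a b ⟨h1, h3⟩ ⟨h4, h5⟩
        constructor
        · rw [map_add, polar_add_right, h1, h4, add_zero]
        · rw [map_add, polar_add_right, h3, h5, add_zero]
      zero_mem' := by
        constructor
        · rw [map_zero, polar_zero_right]
        · rw [map_zero, polar_zero_right]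
      smul_mem' := by
        rintro c w ⟨h1, h3⟩
        constructor
        · rw [map_smul, ← algebraMap_smul K c, polar_smul_right, h1, smul_zero]
        · rw [map_smul, ← algebraMap_smul K c, polar_smul_right, h3, smul_zero] }
  have hyv : polar QK y v = 0 := by rw [polar_comm]; exact hvy
  have hS1 : ∀ x, η x ∈ S := by
    intro x
    rw [hηapp]
    show polar QK v (g⁻¹ (g _)) = 0 ∧ polar QK y (g⁻¹ (g _)) = 0
    rw [hg2]
    constructor
    · rw [polar_sub_right, polar_smul_right, polar_smul_right, hvy, polar_self_of_sing hv]; simp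
    · rw [polar_sub_right, polar_smul_right, polar_smul_right, hyv, polar_self_of_sing hy]; simp
  have hS2 : ∀ x ∈ S, η x = 0 := by
    rintro x ⟨h1, h3⟩
    rw [hηapp, h1, h3]
    simp
  have hS3 : ∀ x ∈ S, polar QK v' x = 0 := fun x hx => hYperp' x hx.1 hx.2
  have hS4 : ∀ k : K, k • v' ∈ S := by
    intro k
    have : k • v' ∈ Y.map (g : V →ₗ[F] V) := by rw [e]; exact smul_mem_line k v'
    obtain ⟨x, hx, ex⟩ := this
    obtain ⟨k', c, hk', rfl⟩ := hsp x hx
    rw [← ex]
    show polar QK v (g⁻¹ (g _)) = 0 ∧ polar QK y (g⁻¹ (g _)) = 0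
    rw [hg2]
    constructor
    · rw [polar_add_right, ← algebraMap_smul K c, polar_smul_right, polar_smul_right, hvy,
        polar_self_of_sing hv]
      simp
    · rw [polar_add_right, ← algebraMap_smul K c, polar_smul_right, polar_smul_right, hyv,
        polar_self_of_sing hy]
      simp
  -- the transvection
  have hw' : polar QK v' (-w) = 0 := by rw [polar_neg_right, hw, neg_zero]
  set ρ : V ≃ₗ[F] V := rs (siegel QK v' w hv' hw) with hρ
  have hρH : ρ ∈ H := hPre.hE _ (siegel_mem_E _ _)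
  have hρinv : ρ⁻¹ = rs (siegel QK v' (-w) hv' hw') := by
    rw [hρ, ← map_inv, siegel_inv hv' hw hw']
  have hρapp : ∀ x, polar QK v' x = 0 → ρ x = x - polar QK w x • v' := by
    intro x hx
    rw [hρ, rs_apply, siegel_apply, hx]
    simp
  have hρiapp : ∀ x, ρ⁻¹ x = x - polar QK v' x • w +
      (polar QK w x - QK w * polar QK v' x) • v' := by
    intro x
    rw [hρinv, rs_apply, siegel_apply, polar_neg_left, QuadraticMap.map_neg]
    module
  have hρS : ∀ x ∈ S, ρ⁻¹ x ∈ S := by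
    intro x hx
    rw [hρiapp, hS3 x hx, zero_smul, sub_zero]
    exact S.add_mem hx (hS4 _)
  have hv'v' : polar QK v' v' = 0 := polar_self_of_sing hv'
  set Θ : V ≃ₗ[F] V := ρ * ρ * Ψ * ρ⁻¹ * ρ⁻¹ * (ρ * Ψ⁻¹ * Ψ⁻¹ * ρ⁻¹) * Ψ with hΘ
  have hΘH : Θ ∈ H := by
    have h1 := H.inv_mem hρH
    have h3 := H.inv_mem hΨH
    exact H.mul_mem (H.mul_mem (H.mul_mem (H.mul_mem (H.mul_mem (H.mul_mem hρH hρH) hΨH) h1) h1)
      (H.mul_mem (H.mul_mem (H.mul_mem hρH h3) h3) h1)) hΨH
  have hρη : ∀ z, ρ (η z) = η z - polar QK w (η z) • v' := fun z => hρapp _ (hS3 _ (hS1 z))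
  have hρρη : ∀ z, ρ (ρ (η z)) = η z - (2 * polar QK w (η z)) • v' := by
    intro z
    have h3 : polar QK v' (η z - polar QK w (η z) • v') = 0 := by
      rw [polar_sub_right, hS3 _ (hS1 z), polar_smul_right, hv'v', smul_zero, sub_zero]
    rw [hρη, hρapp _ h3, polar_sub_right, polar_smul_right, polar_comm QK w v', hw, smul_zero,
      sub_zero]
    module
  have hΘapp : ∀ x, Θ x = x + (2 * polar QK w (η (polar QK v' x • w))) • v' := by
    intro x
    rw [hΘ, second_diff hΨη hS1 hS2 hρS x, hρη, hρρη]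
    have e1 : η (ρ⁻¹ x) = η x - η (polar QK v' x • w) := by
      rw [hρiapp, map_add, map_sub, hS2 _ (hS4 _), add_zero]
    have e2 : polar QK v' (ρ⁻¹ x) = polar QK v' x := by
      rw [hρiapp, polar_add_right, polar_sub_right, polar_smul_right, polar_smul_right, hw, hv'v']
      simp
    have e3 : η (ρ⁻¹ (ρ⁻¹ x)) = η x - η (polar QK v' x • w) - η (polar QK v' x • w) := by
      rw [hρiapp (ρ⁻¹ x), map_add, map_sub, hS2 _ (hS4 _), add_zero, e1, e2]
    rw [e1, e3, polar_sub_right, polar_sub_right, polar_sub_right, two_smul]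
    module
  obtain ⟨v'', hyp⟩ := Cfsg.Agent.LieClassical.OrthTrans.exists_hyp hP.nondeg hv' hv'0
  refine ⟨v', hv', hv'0, Θ, hΘH, fun x hx => ?_, v'', fun h0 => ?_⟩
  · rw [hΘapp, hx, zero_smul, map_zero, polar_zero_right, mul_zero, zero_smul, add_zero]
  · rw [hΘapp, hyp.pair, one_smul, add_eq_left, smul_eq_zero] at h0
    have h3 := (mul_eq_zero.1 (h0.resolve_right hv'0)).resolve_left h2
    apply hκ
    have h4 : polar Q (k • w) (η w) = 0 := by
      rw [hT.pol, polar_smul_left, h3, smul_zero, map_zero]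
    rw [hηapp] at h4
    nth_rewrite 1 [← hg1 (k • w)] at h4
    rw [polar_map hgO, hT.pol, polar_sub_right, polar_smul_right, polar_smul_right,
      polar_comm QK _ y, polar_comm QK _ v] at h4
    rw [← h4]
    congr 1
    simp only [hD, smul_eq_mul]
    ring

end Fin

end Cfsg.Agent.H925.Ext
end

-- part: H925/ExtThetaB
section
/-!
# Overgroups of `Ω(V, QK)` in `Ω(V, τ ∘ QK)`, XV: the theorem when `dim_K V = 4`, degree at least `3`
-/

set_option autoImplicit false
set_option linter.unusedSectionVars false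

namespace Cfsg.Agent.H925.Ext

open QuadraticMap Cfsg.Agent.LieClassical.OrthCore Cfsg.Agent.LieClassical.OrthTrans
  Cfsg.Agent.LieClassical.OrthFinite Cfsg.Agent.H883.Root Cfsg.Agent.H883.Sub
open scoped commutatorElement

section Abs

variable {F V : Type*} [Field F] [AddCommGroup V] [Module F V] {Q : QuadraticForm F V}

/-- The commutator of an element trivial on `Y^⊥` and one moving `Y` inside a totally singular space. -/
theorem comm_eq_siegel (hQ : Nondeg Q) [FiniteDimensional F V] {Y Z : Submodule F V}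
    (hYs : ∀ x ∈ Y, Q x = 0) {y : V} (hsp : ∀ x ∈ Y, ∃ c : F, x - c • y ∈ Z) {Θ ρ : V ≃ₗ[F] V} (hΘ : Θ ∈ O Q) (hρ : ρ ∈ O Q)
    (hΘY : ∀ x, (∀ z ∈ Y, polar Q z x = 0) → Θ x = x) {e x₁ : V}
    (heZ : ∀ z ∈ Z, polar Q z e = 0) (hye : polar Q y e = 1) (hx₁Y : ∀ z ∈ Y, polar Q z x₁ = 0)
    (hx₁ : Q x₁ = 0)
    (hρZ : ∀ z ∈ Z, ρ z = z) (hρy : ρ y = y - x₁)
    (hρx : ∀ x, ∀ z ∈ Z, polar Q z (x - ρ⁻¹ x) = 0) :
    ∃ (hz : Q (Θ e - e) = 0) (hzx : polar Q (Θ e - e) x₁ = 0), Θ e - e ∈ Z ∧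
      ρ * Θ * ρ⁻¹ * Θ⁻¹ = siegel Q (Θ e - e) x₁ hz hzx := by
  set z₁ := Θ e - e with hz₁
  have hθY : ∀ x, Θ x - x ∈ Y := by
    intro x
    rw [← perp_perp hQ Y]
    refine mem_perp.2 fun t ht => ?_
    rw [polar_sub_right]
    nth_rewrite 1 [← hΘY t (mem_perp.1 ht)]
    rw [polar_map hΘ, sub_self]
  have hYY : ∀ a ∈ Y, ∀ b ∈ Y, polar Q a b = 0 := fun a ha b hb => polar_zero_of_ts hYs ha hb
  have hz₁Q : Q z₁ = 0 := hYs _ (hθY e)
  have hz₁x : polar Q z₁ x₁ = 0 := hx₁Y _ (hθY e)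
  -- the alternating form
  have halt : ∀ a b, polar Q (Θ a - a) b = -polar Q a (Θ b - b) := by
    intro a b
    have h1 : polar Q (Θ a) (Θ b) = polar Q a b := polar_map hΘ a b
    have h2 := hYY _ (hθY a) _ (hθY b)
    rw [polar_sub_left, polar_sub_right, polar_sub_right, h1] at h2
    rw [polar_sub_left, polar_sub_right]
    linear_combination -h2
  have hz₁e : polar Q z₁ e = 0 := by
    have h1 : Q (e + z₁) = Q e := by
      have : e + z₁ = Θ e := by rw [hz₁]; abel
      rw [this]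
      exact hΘ e
    rw [Q_add, hz₁Q, add_zero, polar_comm] at h1
    linear_combination h1
  have hcoord : ∀ x ∈ Y, x - polar Q x e • y ∈ Z := by
    intro x hx
    obtain ⟨c, hc⟩ := hsp x hx
    have h1 := heZ _ hc
    rw [polar_sub_left, polar_smul_left, hye, smul_eq_mul, mul_one, sub_eq_zero] at h1
    rw [h1]
    exact hc
  have hz₁Z : z₁ ∈ Z := by
    have := hcoord _ (hθY e)
    rwa [← hz₁, hz₁e, zero_smul, sub_zero] at this
  -- the values on `Z^⊥`
  have hθZ : ∀ x, (∀ z ∈ Z, polar Q z x = 0) → Θ x - x = polar Q y x • z₁ := by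
    intro x hx
    have h1 : Θ (x - polar Q y x • e) = x - polar Q y x • e := by
      apply hΘY
      intro z hz
      have h3 := hcoord z hz
      have h4 : polar Q (z - polar Q z e • y) (x - polar Q y x • e) = 0 := by
        rw [polar_sub_right, polar_smul_right, hx _ h3, heZ _ h3, smul_zero, sub_zero]
      have h5 : polar Q y (x - polar Q y x • e) = 0 := by
        rw [polar_sub_right, polar_smul_right, hye, smul_eq_mul, mul_one, sub_self]
      rw [polar_sub_left, polar_smul_left, h5, smul_zero, sub_zero] at h4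
      exact h4
    rw [map_sub, map_smul] at h1
    have e1 : Θ x - x = (Θ x - polar Q y x • Θ e) - (x - polar Q y x • e) +
        polar Q y x • (Θ e - e) := by module
    rw [e1, h1, sub_self, zero_add]
  have hρ1 : ∀ x, ρ (ρ⁻¹ x) = x := fun x => LinearEquiv.apply_symm_apply ρ x
  refine ⟨hz₁Q, hz₁x, hz₁Z, ?_⟩
  rw [mul_inv_eq_iff_eq_mul]
  ext x
  show ρ (Θ (ρ⁻¹ x)) = siegel Q z₁ x₁ hz₁Q hz₁x (Θ x)
  -- the left side
  have h1 : polar Q y (x - ρ⁻¹ x) = polar Q x₁ x := by
    have h3 : polar Q y (ρ⁻¹ x) = polar Q (ρ y) x := by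
      rw [← polar_map hρ y, hρ1]
    rw [polar_sub_right, h3, hρy, polar_sub_left]
    ring
  have h3 : Θ (x - ρ⁻¹ x) = (x - ρ⁻¹ x) + polar Q x₁ x • z₁ := by
    have := hθZ _ (hρx x)
    rw [h1] at this
    rw [← this]
    abel
  have h4 : Θ (ρ⁻¹ x) = ρ⁻¹ x + (Θ x - x) - polar Q x₁ x • z₁ := by
    rw [map_sub] at h3
    have e1 : Θ (ρ⁻¹ x) = Θ x - (Θ x - Θ (ρ⁻¹ x)) := by abel
    rw [e1, h3]
    abel
  have h5 : ρ (Θ x - x) = (Θ x - x) + polar Q z₁ x • x₁ := by
    have h6 := hcoord _ (hθY x)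
    have h7 : polar Q (Θ x - x) e = -polar Q z₁ x := by
      rw [halt, polar_comm]
    rw [h7] at h6
    have e1 : Θ x - x = ((Θ x - x) - (-polar Q z₁ x) • y) + (-polar Q z₁ x) • y := by abel
    conv_lhs => rw [e1]
    rw [map_add, hρZ _ h6, map_smul, hρy]
    module
  rw [h4, map_sub, map_add, hρ1, h5, map_smul, hρZ _ hz₁Z]
  -- the right side
  have h8 : polar Q z₁ (Θ x) = polar Q z₁ x := by
    have := hYY _ (hθY e) _ (hθY x)
    rw [← hz₁, polar_sub_right, sub_eq_zero] at this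
    exact this
  have h9 : polar Q x₁ (Θ x) = polar Q x₁ x := by
    have := hx₁Y _ (hθY x)
    rw [polar_comm, polar_sub_right, sub_eq_zero] at this
    exact this
  rw [siegel_apply, h8, h9, hx₁]
  module

end Abs

variable {F K V : Type*} [Field F] [Field K] [Algebra F K] [AddCommGroup V]
  [Module F V] [Module K V] [IsScalarTower F K V]

variable {τ : K →ₗ[F] F} {QK : QuadraticForm K V} {Q : QuadraticForm F V}
  {H : Subgroup (V ≃ₗ[F] V)}

section Fin

variable [FiniteDimensional F V] [FiniteDimensional F K]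

/-- Transport of the elements trivial on the orthogonal of a `K`-line. -/
theorem theta_move [Finite K] (hP : PreC τ QK Q H) (h2 : (2 : K) ≠ 0)
    (hd : 4 ≤ Module.finrank K V) {v : V} (hv : QK v = 0) (hv0 : v ≠ 0) {Θ : V ≃ₗ[F] V}
    (hΘ : Θ ∈ H) (hΘf : ∀ x, polar QK v x = 0 → Θ x = x) {e : V} (he : Θ e ≠ e) {v' : V}
    (hv' : QK v' = 0) (hv'0 : v' ≠ 0) {δ : K} (hδ : δ ≠ 0) :
    ∃ Θ' ∈ H, (∀ x, polar QK v' x = 0 → Θ' x = x) ∧ ∃ e', polar QK v' e' = δ ∧ Θ' e' ≠ e' := by
  set μ := polar QK v e with hμ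
  have hμ0 : μ ≠ 0 := fun h => he (hΘf e h)
  obtain ⟨g, hg, hgH, eg⟩ := hP.trans_exact h2 hd (v₁ := (μ * δ⁻¹) • v') hv
    (by rw [QuadraticMap.map_smul, hv', smul_zero]) hv0
    (smul_ne_zero (mul_ne_zero hμ0 (inv_ne_zero hδ)) hv'0)
  have hg1 : ∀ x, g (g⁻¹ x) = x := fun x => LinearEquiv.apply_symm_apply g x
  have hg2 : ∀ x, g⁻¹ (g x) = x := fun x => LinearEquiv.symm_apply_apply g x
  have hpol : ∀ x, polar QK v' x = (μ * δ⁻¹)⁻¹ * polar QK v (g⁻¹ x) := by
    intro x
    rw [← polar_map hg v, hg1, eg, polar_smul_left, smul_eq_mul]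
    field_simp
  refine ⟨rs g * Θ * (rs g)⁻¹, H.mul_mem (H.mul_mem hgH hΘ) (H.inv_mem hgH), fun x hx => ?_,
    g e, ?_, fun h0 => ?_⟩
  · show g (Θ (g⁻¹ x)) = x
    rw [hpol] at hx
    rw [hΘf _ ((mul_eq_zero.1 hx).resolve_left (inv_ne_zero
      (mul_ne_zero hμ0 (inv_ne_zero hδ)))), hg1]
  · rw [hpol, hg2, ← hμ]
    field_simp
  · have h1 : g (Θ (g⁻¹ (g e))) = g e := h0
    rw [hg2] at h1
    exact he (g.injective h1)

/-- **Orthogonal adjacent points in a totally singular `K`-plane.** -/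
theorem long_of_theta [Finite K] (hP : PreC τ QK Q H) (h2 : (2 : K) ≠ 0)
    (hr : 2 ≤ Module.finrank F K) (hd : Module.finrank K V = 4) {v y : V} (hv : QK v = 0)
    (hv0 : v ≠ 0) (hy : QK y = 0) (hvy : polar QK v y = 0) (hyX : y ∉ line F K v)
    {Y : Submodule F V} (hY : IsPoint QK H Y) (hyY : y ∈ Y)
    (hint : Module.finrank F K ≤ Module.finrank F (line F K v ⊓ Y : Submodule F V) + 1) :
    Long QK Q H := by
  have hT := hP.tr
  have hPre := hP.pre h2
  have hQ : Nondeg Q := hT.nondeg hP.nondeg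
  set Z : Submodule F V := line F K v ⊓ Y with hZ
  have hyZ : y ∉ Z := fun h => hyX h.1
  have hspy := exists_sub_mem (X := Y) (Z := Z) inf_le_right hyY hyZ
    (by rw [hY.finrank]; exact hint)
  -- a vector of the line outside `Z`
  obtain ⟨a, ha, haZ⟩ : ∃ a ∈ line F K v, a ∉ Z := by
    by_contra hcon
    push Not at hcon
    have hle : line F K v ≤ Y := fun x hx => (hcon x hx).2
    have := (isPoint_line (H := H) hv hv0).eq_of_le hY hle
    rw [← this] at hyY
    exact hyX hyY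
  have hspa := exists_sub_mem (X := line F K v) (Z := Z) inf_le_left ha haZ
    (by rw [finrank_line hv0]; exact hint)
  obtain ⟨δ, hδ0, hδ⟩ := exists_delta_line hT.ne ha haZ hspa
  have hδZ : ∀ k : K, k • v ∈ Z → τ (k * δ) = 0 := by
    intro k hk
    by_contra h0
    apply haZ
    have h1 := Z.sub_mem hk (hδ k)
    rw [sub_sub_cancel] at h1
    have h3 := Z.smul_mem (τ (k * δ))⁻¹ h1
    rwa [smul_smul, inv_mul_cancel₀ h0, one_smul] at h3
  have hYs := hY.sing hPre
  obtain ⟨v₁, hv₁, hv₁0, Θ₁, hΘ₁, hΘ₁f, e₁, he₁⟩ := exists_theta hP h2 hr hd hv hv0 hy hvy hyX hY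
    hδ0 (by
      intro x hx
      obtain ⟨c, hc⟩ := hspy x hx
      obtain ⟨k, hk⟩ := mem_line.1 hc.1
      refine ⟨k, c, hδZ k (by rw [hk]; exact hc), ?_⟩
      rw [hk]
      abel)
  -- transport `Y` to a line
  obtain ⟨g, hg, v₂, hv₂, hv₂0, eg⟩ := hY.exists_line
  have hgO := hP.hHO hg
  have hg1 : ∀ x, g (g⁻¹ x) = x := fun x => LinearEquiv.apply_symm_apply g x
  have hg2 : ∀ x, g⁻¹ (g x) = x := fun x => LinearEquiv.symm_apply_apply g x
  -- a vector `e₂` of `Z^⊥` with `polar Q y e₂ = 1`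
  obtain ⟨e₀, he₀Z, he₀y⟩ : ∃ e₀, (∀ z ∈ Z, polar Q z e₀ = 0) ∧ polar Q y e₀ ≠ 0 := by
    by_contra hcon
    push Not at hcon
    apply hyZ
    rw [← perp_perp hQ Z]
    exact mem_perp.2 fun x hx => by rw [polar_comm]; exact hcon x (mem_perp.1 hx)
  set δ₂ := polar QK v₂ (g e₀) with hδ₂
  have hδ₂0 : δ₂ ≠ 0 := by
    intro h0
    apply he₀y
    have h1 : g y ∈ line F K v₂ := by rw [← eg]; exact ⟨y, hyY, rfl⟩
    obtain ⟨k, hk⟩ := mem_line.1 h1
    rw [← polar_map hgO, ← hk, hT.pol, polar_smul_left, ← hδ₂, h0, smul_zero, map_zero]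
  obtain ⟨Θ₂, hΘ₂, hΘ₂f, e₂, he₂, he₂m⟩ :=
    theta_move hP h2 (by omega) hv₁ hv₁0 hΘ₁ hΘ₁f he₁ hv₂ hv₂0 hδ₂0
  set Θ : V ≃ₗ[F] V := g⁻¹ * Θ₂ * g with hΘdef
  have hΘH : Θ ∈ H := H.mul_mem (H.mul_mem (H.inv_mem hg) hΘ₂) hg
  have hΘapp : ∀ x, Θ x = g⁻¹ (Θ₂ (g x)) := fun x => rfl
  have hΘY : ∀ x, (∀ z ∈ Y, polar Q z x = 0) → Θ x = x := by
    intro x hx
    rw [hΘapp, hΘ₂f, hg2]
    apply hT.perp_line
    intro k
    have : k • v₂ ∈ Y.map (g : V →ₗ[F] V) := by rw [eg]; exact smul_mem_line k v₂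
    obtain ⟨z, hz, ez⟩ := this
    rw [← ez]
    show polar Q (g z) (g x) = 0
    rw [polar_map hgO]
    exact hx z hz
  -- the products of `g⁻¹ e₂` with `Y` are those of `e₀`
  have hpe : ∀ z ∈ Y, polar Q z (g⁻¹ e₂) = polar Q z e₀ := by
    intro z hz
    have h1 : g z ∈ line F K v₂ := by rw [← eg]; exact ⟨z, hz, rfl⟩
    obtain ⟨k, hk⟩ := mem_line.1 h1
    rw [← polar_map hgO z, ← polar_map hgO z, hg1, ← hk, hT.pol, hT.pol, polar_smul_left,
      polar_smul_left, he₂]
  set c₀ := polar Q y e₀ with hc₀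
  set e := c₀⁻¹ • g⁻¹ e₂ with he
  have heZ : ∀ z ∈ Z, polar Q z e = 0 := by
    intro z hz
    rw [he, polar_smul_right, hpe z hz.2, he₀Z z hz, smul_zero]
  have hye : polar Q y e = 1 := by
    rw [he, polar_smul_right, hpe y hyY, ← hc₀, smul_eq_mul, inv_mul_cancel₀ he₀y]
  have heΘ : Θ e - e ≠ 0 := by
    intro h0
    apply he₂m
    rw [he, map_smul, ← smul_sub] at h0
    have h1 := (smul_eq_zero.1 h0).resolve_left (inv_ne_zero he₀y)
    rw [hΘapp, hg1, ← map_sub] at h1
    have h3 : Θ₂ e₂ - e₂ = 0 := g⁻¹.injective (by rw [h1, map_zero])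
    exact sub_eq_zero.1 h3
  -- the vectors orthogonal to `v`
  have hXs := line_sing hT hv
  have hYv : ∀ x ∈ Y, polar QK v x = 0 := by
    intro x hx
    obtain ⟨c, hc⟩ := hspy x hx
    obtain ⟨k, hk⟩ := mem_line.1 hc.1
    have e1 : x = k • v + c • y := by rw [hk]; abel
    rw [e1, ← algebraMap_smul K c y, polar_add_right, polar_smul_right, polar_smul_right, hvy,
      polar_self_of_sing hv]
    simp
  have hmain : ∀ w, polar QK v w = 0 → Has Q H (Θ e - e) (polar QK w y • v) := by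
    intro w hw
    set ρ : V ≃ₗ[F] V := rs (siegel QK v w hv hw) with hρ
    have hρH : ρ ∈ H := hPre.hE _ (siegel_mem_E _ _)
    have hw' : polar QK v (-w) = 0 := by rw [polar_neg_right, hw, neg_zero]
    have hρinv : ρ⁻¹ = rs (siegel QK v (-w) hv hw') := by
      rw [hρ, ← map_inv, siegel_inv hv hw hw']
    obtain ⟨hz, hzx, hzZ, hc⟩ := comm_eq_siegel hQ hYs (Z := Z) hspy
      (hP.hHO hΘH) (hP.hHO hρH) hΘY heZ hye (x₁ := polar QK w y • v) (by
        intro z hz
        rw [hT.pol, polar_smul_right, polar_comm QK z v, hYv z hz, smul_zero, map_zero])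
      (hXs _ (smul_mem_line _ v))
      (fun z hz => siegel_fix_line hv hw hz.1) (by
        rw [hρ, rs_apply, siegel_apply, hvy]
        simp) (by
        intro x z hz
        obtain ⟨k, rfl⟩ := mem_line.1 hz.1
        rw [hρinv, rs_apply, siegel_apply, hT.pol, polar_smul_left]
        simp only [polar_sub_right, polar_add_right, polar_smul_right, polar_neg_right, hw,
          polar_self_of_sing hv]
        simp)
    refine ⟨hz, hzx, ?_⟩
    rw [← hc]
    exact H.mul_mem (H.mul_mem (H.mul_mem hρH hΘH) (H.inv_mem hρH)) (H.inv_mem hΘH)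
  -- all the multiples of `v`
  have hzZ : Θ e - e ∈ line F K v := by
    obtain ⟨hz, hzx, hzZ, hc⟩ := comm_eq_siegel hQ hYs (Z := Z) hspy
      (hP.hHO hΘH) (O Q).one_mem hΘY heZ hye (x₁ := 0) (by
        intro z hz
        rw [polar_zero_right]) (by rw [QuadraticMap.map_zero]) (fun z hz => rfl)
        (by rw [sub_zero]; rfl) (by
        intro x z hz
        rw [inv_one]
        have : x - (1 : V ≃ₗ[F] V) x = 0 := sub_self x
        rw [this, polar_zero_right])
    exact hzZ.1
  obtain ⟨k₁, hk₁⟩ := mem_line.1 hzZ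
  have hz₁s : QK (Θ e - e) = 0 := by rw [← hk₁, QuadraticMap.map_smul, hv, smul_zero]
  obtain ⟨a', b', -, -, hvb, hyb⟩ := exists_dual_pair (F := F) hP.nondeg hv hv0 hvy hyX
  apply long_of_one hT hP.hHO (hP.trans_four h2 (by omega)) hz₁s heΘ
  intro x hx
  rw [line_eq_of_mem hzZ heΘ] at hx
  obtain ⟨k, rfl⟩ := mem_line.1 hx
  have h3 := hmain (k • b') (by rw [polar_smul_right, hvb, smul_zero])
  rwa [polar_smul_left, polar_comm QK b' y, hyb, smul_eq_mul, mul_one] at h3

/-- **Orthogonal adjacent points, a nonsingular vector.** -/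
theorem long_of_nonsing [Finite F] [Finite K] (hP : PreC τ QK Q H) (h2 : (2 : K) ≠ 0)
    (htr : Trans F QK H)
    (hdim : 2 * Module.finrank F K + 3 ≤ Module.finrank F V) {v y : V} (hv : QK v = 0)
    (hv0 : v ≠ 0) (hy : QK y ≠ 0) (hvy : polar QK v y = 0)
    {Y : Submodule F V} (hY : IsPoint QK H Y) (hyY : y ∈ Y)
    (hint : Module.finrank F K ≤ Module.finrank F (line F K v ⊓ Y : Submodule F V) + 1) :
    Long QK Q H := by
  have hT := hP.tr
  have hPre := hP.pre h2
  have hQ : Nondeg Q := hT.nondeg hP.nondeg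
  set Z : Submodule F V := line F K v ⊓ Y with hZ
  have hyX : y ∉ line F K v := by
    intro h
    obtain ⟨k, rfl⟩ := mem_line.1 h
    apply hy
    rw [QuadraticMap.map_smul, hv, smul_zero]
  have hyZ : y ∉ Z := fun h => hyX h.1
  have hspy := exists_sub_mem (X := Y) (Z := Z) inf_le_right hyY hyZ
    (by rw [hY.finrank]; exact hint)
  obtain ⟨a, ha, haZ⟩ : ∃ a ∈ line F K v, a ∉ Z := by
    by_contra hcon
    push Not at hcon
    have hle : line F K v ≤ Y := fun x hx => (hcon x hx).2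
    have := (isPoint_line (H := H) hv hv0).eq_of_le hY hle
    rw [← this] at hyY
    exact hyX hyY
  have hspa := exists_sub_mem (X := line F K v) (Z := Z) inf_le_left ha haZ
    (by rw [finrank_line hv0]; exact hint)
  have hYs := hY.sing hPre
  have hZdim : Module.finrank F Z + 1 ≤ Module.finrank F K := by
    have h1 : Z < line F K v :=
      lt_of_le_of_ne inf_le_left fun h => haZ (by rw [h]; exact ha)
    have := Submodule.finrank_lt_finrank_of_lt h1
    rw [finrank_line hv0] at this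
    omega
  have hdd : 2 * Module.finrank F Z + 5 ≤ Module.finrank F V := by omega
  obtain ⟨z₀, hz₀, hz₀0, hz, hu, t, htO, htf, hm⟩ := orth_adj hPre h2 hv hv0 (hY.isPt hPre) hYs
    (inf_le_left : Z ≤ line F K v) inf_le_right ha haZ hspa hyY hyZ hspy hvy hy hdd
  obtain ⟨k₁, hk₁⟩ := mem_line.1 hz₀.1
  have hz₀s : QK z₀ = 0 := by rw [← hk₁, QuadraticMap.map_smul, hv, smul_zero]
  apply long_of_one hT hP.hHO htr hz₀s hz₀0
  intro x hx
  rw [line_eq_of_mem hz₀.1 hz₀0] at hx
  obtain ⟨k, rfl⟩ := mem_line.1 hx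
  have h4 : (2 : K) * QK y ≠ 0 := mul_ne_zero h2 hy
  set w := (k * (2 * QK y)⁻¹) • y with hw
  have hvw : polar QK v w = 0 := by rw [hw, polar_smul_right, hvy, smul_zero]
  have h3 := has_of_conj hQ hP.hHO (Z := Z) hz₀ hz hu
    (fun z hz => polar_zero_of_ts hYs hz.2 hyY) (fun z hz => hYs z hz.2) htO htf hm
    (h := rs (siegel QK v w hv hvw)) (hPre.hE _ (siegel_mem_E _ _))
    (fun z hz => siegel_fix_line hv hvw hz.1)
  refine h3.congr rfl ?_
  rw [rs_apply, siegel_apply, hvy, hw, polar_smul_left, polar_self', smul_eq_mul]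
  rw [zero_smul, add_zero, mul_zero, zero_smul, sub_zero, sub_sub_cancel]
  congr 1
  field_simp

/-- **Overgroups of `Ω(V, QK)`, `dim_K V = 4`, degree at least `3`.** -/
theorem main_four [Finite F] [Finite K] (hP : PreC τ QK Q H) (h2F : (2 : F) ≠ 0)
    (hd : Module.finrank K V = 4) (hr : (Module.finrank F K).Prime)
    (hr3 : 3 ≤ Module.finrank F K) (hH : ¬ ∀ g ∈ H, NormK K g) : E Q ≤ H := by
  have h2 : (2 : K) ≠ 0 := by
    intro h0
    apply h2F
    apply (algebraMap F K).injective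
    rw [map_ofNat, map_zero]
    exact h0
  have hT := hP.tr
  have hPre := hP.pre h2
  have : FiniteDimensional K V := FiniteDimensional.right F K V
  have hdim : Module.finrank F V = Module.finrank F K * 4 := by
    rw [← Module.finrank_mul_finrank F K V, hd]
  have hG : Good Q := good_of_finite (hT.nondeg hP.nondeg) (by omega)
  push Not at hH
  obtain ⟨g, hg, hgK⟩ := hH
  obtain ⟨v₀, hv₀0, hv₀⟩ := sing_of_three (QK := QK) (by omega)
  obtain ⟨v₁, hyp⟩ := Cfsg.Agent.LieClassical.OrthTrans.exists_hyp hP.nondeg hv₀ hv₀0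
  obtain ⟨v, k, hv, hv0, hk⟩ := exists_not_line hT hP.nondeg (by omega) h2 hyp (hP.hHO hg) hgK
  have hY : IsPoint QK H ((line F K v).map (g : V →ₗ[F] V)) := (isPoint_line hv hv0).map hg
  have h1 : Adj QK H 1 := adj_one hPre (by omega) h2 hY (x := g v) (y := g (k • v))
    ⟨v, self_mem_line v, rfl⟩ ⟨k • v, smul_mem_line k v, rfl⟩
    (fun h0 => hv0 (g.injective (by rw [h0, map_zero]))) hk
  obtain ⟨X, Y, hX, hY, hne, hint⟩ :=
    adj_all_four hP hr hr3 h2 hd h1 (Module.finrank F K - 1) (by omega)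
  obtain ⟨g, hg, v, hv, hv0, e, hvY, hne'⟩ := exists_line_pair hX hne (by omega)
  have hint' : Module.finrank F K - 1 ≤
      Module.finrank F (line F K v ⊓ Y.map (g : V →ₗ[F] V) : Submodule F V) := by
    rw [← e, finrank_map_inf]
    exact hint
  have hY' : IsPoint QK H (Y.map (g : V →ₗ[F] V)) := hY.map hg
  by_cases horth : ∀ y ∈ Y.map (g : V →ₗ[F] V), polar QK v y = 0
  · obtain ⟨y, hy, hyX⟩ : ∃ y ∈ Y.map (g : V →ₗ[F] V), y ∉ line F K v := by
      by_contra hcon
      push Not at hcon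
      exact hne' (hY'.eq_of_le (isPoint_line hv hv0) hcon).symm
    have hL : Long QK Q H := by
      by_cases hQy : QK y = 0
      · exact long_of_theta hP h2 hr.two_le hd hv hv0 hQy (horth y hy) hyX hY' hy (by omega)
      · exact long_of_nonsing hP h2 (hP.trans_four h2 (by omega)) (by omega) hv hv0 hQy
          (horth y hy) hY' hy (by omega)
    exact hL.E_le hT hP.nondeg hr3 hG hv hv0
  · push Not at horth
    obtain ⟨y, hy, hvy⟩ := horth
    refine (setup_of_four hP h2 (by omega) hr.two_le).of_nonOrthAdj h2F ?_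
    obtain ⟨κ, hκ⟩ : ∃ κ : K, τ (κ * polar QK v y) ≠ 0 := by
      by_contra hcon
      push Not at hcon
      exact hvy (tau_ext hT.ne hcon)
    refine ⟨line F K v, _, isPoint_line hv hv0, hY', by omega, κ • v, smul_mem_line κ v, y, hy, ?_⟩
    rw [hT.pol, polar_smul_left, smul_eq_mul]
    exact hκ

end Fin

end Cfsg.Agent.H925.Ext
end

-- part: H925/ExtGeo
section
/-!
# Maximality of the normalisers of self-adjoint field subalgebras in `Ω`: the transfer to matrices
-/

set_option autoImplicit false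
set_option linter.unusedSectionVars false

namespace Cfsg.Agent.H925.Ext

open QuadraticMap Cfsg.Geo Cfsg.Agent.LieClassical.OrthCore Cfsg.Agent.LieClassical.OrthTrans
  Cfsg.Agent.LieClassical.OrthFinite Cfsg.Agent.H887.OmegaBridge
open scoped MatrixGroups Matrix

universe u

variable {ι : Type} [Fintype ι] [DecidableEq ι] {F : Type u} [Field F]

section

variable {K : Subalgebra F (Matrix ι ι F)}

theorem ksmul_def (k : K) (v : ι → F) : k • v = (k : Matrix ι ι F) *ᵥ v := rfl

/-- Membership in the normaliser of a (finite) subalgebra. -/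
theorem mem_subalgebraNormalizer_iff' [Finite F] (g : GL ι F) :
    g ∈ subalgebraNormalizer K ↔
      ∀ k : K, ∃ c : K, ∀ x : ι → F, (le ι F g)⁻¹ (k • le ι F g x) = c • x := by
  have hinv1 : ((g⁻¹ : GL ι F) : Matrix ι ι F) * (g : Matrix ι ι F) = 1 := by
    rw [← Units.val_mul, inv_mul_cancel, Units.val_one]
  have hinv2 : (g : Matrix ι ι F) * ((g⁻¹ : GL ι F) : Matrix ι ι F) = 1 := by
    rw [← Units.val_mul, mul_inv_cancel, Units.val_one]
  have hle : ∀ x : ι → F, (le ι F g)⁻¹ x = ((g⁻¹ : GL ι F) : Matrix ι ι F) *ᵥ x := by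
    intro x
    rw [← map_inv, le_apply]
  have hconj : ∀ (k : K) (x : ι → F), (le ι F g)⁻¹ (k • le ι F g x) =
      (((g⁻¹ : GL ι F) : Matrix ι ι F) * (k : Matrix ι ι F) * (g : Matrix ι ι F)) *ᵥ x := by
    intro k x
    rw [hle, le_apply, ksmul_def, Matrix.mulVec_mulVec, Matrix.mulVec_mulVec]
  constructor
  · intro hg k
    have h1 : ((g⁻¹ : GL ι F) : Matrix ι ι F) * (k : Matrix ι ι F) * (g : Matrix ι ι F) ∈ K := by
      rw [hg]
      have : (g : Matrix ι ι F) * (((g⁻¹ : GL ι F) : Matrix ι ι F) * (k : Matrix ι ι F) *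
          (g : Matrix ι ι F)) * ((g⁻¹ : GL ι F) : Matrix ι ι F) = k := by
        rw [mul_assoc ((g⁻¹ : GL ι F) : Matrix ι ι F), ← mul_assoc (g : Matrix ι ι F), hinv2,
          one_mul, mul_assoc, hinv2, mul_one]
      rw [this]
      exact k.2
    exact ⟨⟨_, h1⟩, fun x => by rw [hconj]; rfl⟩
  · intro h
    have h1 : ∀ k : K, ((g⁻¹ : GL ι F) : Matrix ι ι F) * (k : Matrix ι ι F) *
        (g : Matrix ι ι F) ∈ K := by
      intro k
      obtain ⟨c, hc⟩ := h k
      have : ((g⁻¹ : GL ι F) : Matrix ι ι F) * (k : Matrix ι ι F) * (g : Matrix ι ι F) = c := by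
        apply Matrix.mulVec_injective
        funext x
        rw [← hconj, hc]
        rfl
      rw [this]
      exact c.2
    have : Finite K := Module.finite_of_finite F
    let f : K → K := fun k => ⟨_, h1 k⟩
    have hf : Function.Injective f := by
      intro a b hab
      apply Subtype.ext
      have h2 : ((g⁻¹ : GL ι F) : Matrix ι ι F) * (a : Matrix ι ι F) * (g : Matrix ι ι F) =
          ((g⁻¹ : GL ι F) : Matrix ι ι F) * (b : Matrix ι ι F) * (g : Matrix ι ι F) :=
        congrArg Subtype.val hab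
      have h3 : ∀ m : Matrix ι ι F, m = (g : Matrix ι ι F) *
          (((g⁻¹ : GL ι F) : Matrix ι ι F) * m * (g : Matrix ι ι F)) *
            ((g⁻¹ : GL ι F) : Matrix ι ι F) := by
        intro m
        rw [mul_assoc ((g⁻¹ : GL ι F) : Matrix ι ι F), ← mul_assoc (g : Matrix ι ι F), hinv2,
          one_mul, mul_assoc, hinv2, mul_one]
      rw [h3 a, h2, ← h3 b]
    have hfs := Finite.surjective_of_injective hf
    intro k
    constructor
    · intro hk
      obtain ⟨k', hk'⟩ := hfs ⟨k, hk⟩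
      have h2 : ((g⁻¹ : GL ι F) : Matrix ι ι F) * (k' : Matrix ι ι F) * (g : Matrix ι ι F) = k :=
        congrArg Subtype.val hk'
      rw [← h2, mul_assoc ((g⁻¹ : GL ι F) : Matrix ι ι F), ← mul_assoc (g : Matrix ι ι F), hinv2,
          one_mul, mul_assoc, hinv2, mul_one]
      exact k'.2
    · intro hk
      have h2 := h1 ⟨_, hk⟩
      have h3 : ((g⁻¹ : GL ι F) : Matrix ι ι F) * ((g : Matrix ι ι F) * k *
          ((g⁻¹ : GL ι F) : Matrix ι ι F)) * (g : Matrix ι ι F) = k := by
        rw [mul_assoc (g : Matrix ι ι F), ← mul_assoc, hinv1, one_mul, mul_assoc, hinv1, mul_one]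
      rwa [h3] at h2

end

/-- The derived group of the orthogonal group of a `K`-form. -/
theorem rs_mem_E_of_comm {F K V : Type*} [Field F] [Field K] [Algebra F K] [AddCommGroup V]
    [Module F V] [Module K V] [IsScalarTower F K V] {τ : K →ₗ[F] F} {QK : QuadraticForm K V}
    {Q : QuadraticForm F V} (hT : Tr τ QK Q) (hG : Good Q) :
    ∀ g ∈ ⁅O QK, O QK⁆, (rs g : V ≃ₗ[F] V) ∈ E Q := by
  have h1 : (O QK).map (rs (F := F)) ≤ O Q := by
    rintro _ ⟨g, hg, rfl⟩ v
    rw [rs_apply, hT.eq, hT.eq, hg]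
  have h2 : (⁅O QK, O QK⁆).map (rs (F := F)) ≤ E Q := by
    rw [Subgroup.map_commutator, ← hG.commutator_eq_E]
    exact Subgroup.commutator_mono h1 h1
  intro g hg
  exact h2 ⟨g, hg, rfl⟩

/-- **The transfer.**  `hmain` is the theorem on overgroups for the `K`-forms of the given dimension. -/
theorem isMaximalIn_of_mainC [Finite F] {Q : (ι → F) → F} (hQ : IsNondegenerateQuadraticForm Q)
    (hn : 5 ≤ Fintype.card ι) (h2 : (2 : F) ≠ 0) {r : ℕ} (hr : r.Prime)
    {K : Subalgebra F (Matrix ι ι F)} (hK : IsFieldSubalgebra r K)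
    (hsa : IsSelfAdjointFor (polar Q) K)
    (hmain : ∀ (K' : Type u) [Field K'] [Algebra F K'] [Module K' (ι → F)]
      [IsScalarTower F K' (ι → F)] [FiniteDimensional F K'] [Finite K'] (τ : K' →ₗ[F] F)
      (QK : QuadraticForm K' (ι → F)), Tr τ QK (H887.OmegaBridge.qf Q hQ) → Nondeg QK → Module.finrank F K' = r →
        Module.finrank K' (ι → F) * r = Fintype.card ι →
        ∀ H : Subgroup ((ι → F) ≃ₗ[F] (ι → F)), PreC τ QK (H887.OmegaBridge.qf Q hQ) H →
          (¬ ∀ g ∈ H, NormK K' g) → E (H887.OmegaBridge.qf Q hQ) ≤ H) :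
    IsMaximalIn (omegaGL Q) (subalgebraNormalizer K ⊓ omegaGL Q) := by
  have : Nonempty ι := Fintype.card_pos_iff.1 (by omega)
  have hG : Good (H887.OmegaBridge.qf Q hQ) := good_of_finite (H887.OmegaBridge.nondeg_qf Q hQ)
    (by rwa [Module.finrank_fintype_fun_eq_card])
  obtain ⟨τ, hτ⟩ := H926.exists_tau K
  let instK : Field K := (H912.isField_of_fieldSub hK).toField
  have : Finite K := Module.finite_of_finite F
  have hf : IsBilinearForm (polar Q) := hQ.polar_bilinear
  let B : LinearMap.BilinForm K (ι → F) := LinearMap.mk₂ K (fun u v => H926.kForm hK hτ hf u v)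
    (fun u u' v => H926.kForm_unique hK hτ hf fun k => by
      rw [mul_add, map_add, H926.kForm_spec, H926.kForm_spec, Matrix.mulVec_add, hf.add_left])
    (fun c u v => H926.kForm_unique hK hτ hf fun k => by
      have h1 : k * c • H926.kForm hK hτ hf u v = (k * c) * H926.kForm hK hτ hf u v := by
        rw [smul_eq_mul, mul_assoc]
      rw [h1, H926.kForm_spec]
      show polar Q (((k : Matrix ι ι F) * (c : Matrix ι ι F)) *ᵥ u) v =
        polar Q ((k : Matrix ι ι F) *ᵥ ((c : Matrix ι ι F) *ᵥ u)) v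
      rw [Matrix.mulVec_mulVec])
    (fun u v v' => H926.kForm_unique hK hτ hf fun k => by
      rw [mul_add, map_add, H926.kForm_spec, H926.kForm_spec, hf.add_right])
    (fun c u v => H926.kForm_unique hK hτ hf fun k => by
      have h1 : k * c • H926.kForm hK hτ hf u v = (c * k) * H926.kForm hK hτ hf u v := by
        rw [smul_eq_mul, ← mul_assoc, mul_comm k c]
      rw [h1, H926.kForm_spec]
      show polar Q (((c : Matrix ι ι F) * (k : Matrix ι ι F)) *ᵥ u) v =
        polar Q ((k : Matrix ι ι F) *ᵥ u) ((c : Matrix ι ι F) *ᵥ v)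
      rw [← Matrix.mulVec_mulVec, hsa c c.2])
  have hB : ∀ (k : K) (u v : ι → F), τ (k * B u v) = polar Q ((k : Matrix ι ι F) *ᵥ u) v :=
    fun k u v => H926.kForm_spec hK hτ hf u v k
  have hB1 : ∀ (u v : ι → F), τ (B u v) = polar Q u v := by
    intro u v
    have := hB 1 u v
    rw [one_mul] at this
    rw [this]
    show polar Q ((1 : Matrix ι ι F) *ᵥ u) v = polar Q u v
    rw [Matrix.one_mulVec]
  have hBsymm : ∀ u v, B u v = B v u := by
    intro u v
    apply tau_ext' hτ
    intro k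
    rw [hB, hB, hsa k k.2, polar_comm]
  have h2K : (2 : K) ≠ 0 := by
    intro h0
    apply h2
    apply (algebraMap F K).injective
    rw [map_ofNat, map_zero]
    exact h0
  let QK : QuadraticForm K (ι → F) := (2 : K)⁻¹ • B.toQuadraticMap
  have hQK : ∀ v, QK v = (2 : K)⁻¹ * B v v := fun v => rfl
  have hpolar : ∀ u v, polar QK u v = B u v := by
    intro u v
    rw [QuadraticMap.polar, hQK, hQK, hQK, map_add, map_add, LinearMap.add_apply,
      LinearMap.add_apply, hBsymm v u]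
    field_simp
    ring
  have hTr : Tr τ QK (H887.OmegaBridge.qf Q hQ) := by
    refine ⟨hτ, fun v => ?_⟩
    rw [H887.OmegaBridge.qf_apply, hQK]
    have e1 : (2 : K)⁻¹ * B v v = (2 : F)⁻¹ • B v v := by
      rw [Algebra.smul_def, map_inv₀, map_ofNat]
    rw [e1, map_smul, hB1, smul_eq_mul]
    have h3 : polar (H887.OmegaBridge.qf Q hQ) v v = 2 * H887.OmegaBridge.qf Q hQ v := polar_self' v
    change polar Q v v = 2 * Q v at h3
    rw [h3, ← mul_assoc, inv_mul_cancel₀ h2, one_mul]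
  have hnd : Nondeg QK := by
    intro x hx
    apply H887.OmegaBridge.nondeg_qf Q hQ
    intro y
    change polar Q x y = 0
    rw [← hB1, ← hpolar, hx y, map_zero]
  have hdim : Module.finrank K (ι → F) * r = Fintype.card ι := by
    have h1 := Module.finrank_mul_finrank F K (ι → F)
    rw [hK.finrank_eq, Module.finrank_fintype_fun_eq_card, mul_comm] at h1
    exact h1
  have hmain' := hmain K τ QK hTr hnd hK.finrank_eq hdim
  refine H887.OmegaBridge.isMaximalIn_omegaGL Q hQ hG (subalgebraNormalizer K) {g | NormK K g}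
    mem_subalgebraNormalizer_iff' ?_ ?_
  · by_contra hcon
    push Not at hcon
    apply Cfsg.Agent.H925.omegaGL_not_le_subalgebraNormalizer hQ hn hr.two_le hK
    intro g hg
    rw [mem_subalgebraNormalizer_iff']
    exact hcon _ ((H887.OmegaBridge.mem_omegaGL_iff Q hQ hG g).1 hg)
  · intro H hHE hSH hex
    apply hmain' H
    · refine ⟨hTr, hnd, hHE.trans E_le_O, fun g hg => hSH _ (rs_mem_E_of_comm hTr hG g hg) ?_⟩
      intro k
      refine ⟨k, fun x => ?_⟩
      have h3 : (rs g : (ι → F) ≃ₗ[F] (ι → F))⁻¹ (k • g x) = k • x := by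
        rw [← map_inv, rs_apply, map_smul]
        congr 1
        exact LinearEquiv.symm_apply_apply g x
      exact h3
    · push Not
      exact hex

/-- **The transfer.**  `hmain` is the theorem on overgroups for the `K`-forms of the given dimension. -/
theorem isMaximalIn_of_main [Finite F] {Q : (ι → F) → F} (hQ : IsNondegenerateQuadraticForm Q)
    (hn : 5 ≤ Fintype.card ι) (h2 : (2 : F) ≠ 0) {r : ℕ} (hr : r.Prime)
    {K : Subalgebra F (Matrix ι ι F)} (hK : IsFieldSubalgebra r K)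
    (hsa : IsSelfAdjointFor (polar Q) K)
    (hmain : ∀ (K' : Type u) [Field K'] [Algebra F K'] [Module K' (ι → F)]
      [IsScalarTower F K' (ι → F)] [FiniteDimensional F K'] [Finite K'] (τ : K' →ₗ[F] F)
      (QK : QuadraticForm K' (ι → F)), Tr τ QK (H887.OmegaBridge.qf Q hQ) → Nondeg QK → Module.finrank F K' = r →
        Module.finrank K' (ι → F) * r = Fintype.card ι →
        (∀ g ∈ E QK, (rs g : (ι → F) ≃ₗ[F] (ι → F)) ∈ E (H887.OmegaBridge.qf Q hQ)) ∧
        ∀ H : Subgroup ((ι → F) ≃ₗ[F] (ι → F)), Pre τ QK (H887.OmegaBridge.qf Q hQ) H → (¬ ∀ g ∈ H, NormK K' g) →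
          E (H887.OmegaBridge.qf Q hQ) ≤ H) :
    IsMaximalIn (omegaGL Q) (subalgebraNormalizer K ⊓ omegaGL Q) := by
  refine isMaximalIn_of_mainC hQ hn h2 hr hK hsa ?_
  intro K' _ _ _ _ _ _ τ QK hT hnd hrK hdim H hP hH
  refine (hmain K' τ QK hT hnd hrK hdim).2 H (hP.pre ?_) hH
  intro h0
  apply h2
  apply (algebraMap F K').injective
  rw [map_ofNat, map_zero]
  exact h0

/-- For `Good` forms over `K` the group `E QK` is perfect. -/
theorem rs_mem_E {F K V : Type*} [Field F] [Field K] [Algebra F K] [AddCommGroup V]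
    [Module F V] [Module K V] [IsScalarTower F K V] {τ : K →ₗ[F] F} {QK : QuadraticForm K V}
    {Q : QuadraticForm F V} (hT : Tr τ QK Q) (hG : Good Q) (hperf : ⁅E QK, E QK⁆ = E QK) :
    ∀ g ∈ E QK, (rs g : V ≃ₗ[F] V) ∈ E Q := by
  have h1 : (E QK).map (rs (F := F)) ≤ O Q := by
    rintro _ ⟨g, hg, rfl⟩ v
    rw [rs_apply, hT.eq, hT.eq, E_le_O hg]
  have h2 : (E QK).map (rs (F := F)) ≤ E Q := by
    rw [← hperf, Subgroup.map_commutator, ← hG.commutator_eq_E]
    exact Subgroup.commutator_mono h1 h1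
  intro g hg
  exact h2 ⟨g, hg, rfl⟩

/-- **Self-adjoint field subalgebras, dimension at least `5` over `K`.** -/
theorem selfAdjoint_isMaximalIn_of_five [Finite F] {Q : (ι → F) → F}
    (hQ : IsNondegenerateQuadraticForm Q) (h2 : (2 : F) ≠ 0) {r : ℕ} (hr : r.Prime)
    (hn : 5 * r ≤ Fintype.card ι) {K : Subalgebra F (Matrix ι ι F)} (hK : IsFieldSubalgebra r K)
    (hsa : IsSelfAdjointFor (polar Q) K) :
    IsMaximalIn (omegaGL Q) (subalgebraNormalizer K ⊓ omegaGL Q) := by
  have hr2 := hr.two_le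
  have hG : Good (H887.OmegaBridge.qf Q hQ) := good_of_finite (H887.OmegaBridge.nondeg_qf Q hQ)
    (by rw [Module.finrank_fintype_fun_eq_card]; omega)
  refine isMaximalIn_of_main hQ (by omega) h2 hr hK hsa ?_
  intro K' _ _ _ _ _ _ τ QK hT hnd hrK hdim
  have hd : 5 ≤ Module.finrank K' (ι → F) := by
    by_contra hcon
    have h3 : Module.finrank K' (ι → F) * r ≤ 4 * r := Nat.mul_le_mul_right r (by omega)
    omega
  have hGK : Good QK := good_of_finite hnd hd
  refine ⟨rs_mem_E hT hG hGK.E_perfect, fun H hP hH => ?_⟩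
  exact main_five hP h2 hd (by rw [hrK]; exact hr) hH

/-- **Self-adjoint field subalgebras of odd degree, dimension at least `4` over `K`.** -/
theorem selfAdjoint_isMaximalIn_of_four [Finite F] {Q : (ι → F) → F}
    (hQ : IsNondegenerateQuadraticForm Q) (h2 : (2 : F) ≠ 0) {r : ℕ} (hr : r.Prime) (hr3 : 3 ≤ r)
    (hn : 4 * r ≤ Fintype.card ι) {K : Subalgebra F (Matrix ι ι F)} (hK : IsFieldSubalgebra r K)
    (hsa : IsSelfAdjointFor (polar Q) K) :
    IsMaximalIn (omegaGL Q) (subalgebraNormalizer K ⊓ omegaGL Q) := by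
  refine isMaximalIn_of_mainC hQ (by omega) h2 hr hK hsa ?_
  intro K' _ _ _ _ _ _ τ QK hT hnd hrK hdim H hP hH
  have hd : 4 ≤ Module.finrank K' (ι → F) := by
    by_contra hcon
    have h3 : Module.finrank K' (ι → F) * r ≤ 3 * r := Nat.mul_le_mul_right r (by omega)
    omega
  have h2K : (2 : K') ≠ 0 := by
    intro h0
    apply h2
    apply (algebraMap F K').injective
    rw [map_ofNat, map_zero]
    exact h0
  rcases Nat.eq_or_lt_of_le hd with h4 | h5
  · exact main_four hP h2 h4.symm (by rw [hrK]; exact hr) (by omega) hH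
  · exact main_five (hP.pre h2K) h2 h5 (by rw [hrK]; exact hr) hH

end Cfsg.Agent.H925.Ext
end
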