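import Cfsg.Agent.H883.Root
import Cfsg.Agent.H883.Sub
set_option linter.all false

-- part: H925/ExtBase
section
/-!
# Overgroups of `Ω(V, QK)` in `Ω(V, τ ∘ QK)`, I: the setting

`V` is a vector space over a finite extension `K` of `F`, `QK` a quadratic form over `K`,
`Q = τ ∘ QK` for a nonzero `F`-linear `τ : K → F`.

* `IsPt H X` : the group `H` contains elements fixing the totally singular `F`-subspace `X` pointwise and
  inducing on `Z^⊥ / Z`, for every hyperplane `Z` of `X`, all Siegel transformations attached to `X / Z`;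
* `isPt_line` : the `K`-lines spanned by `QK`-singular vectors have that property;
* `IsPt.map` : transport.
-/

set_option autoImplicit false
set_option linter.unusedSectionVars false

namespace Cfsg.Agent.H925.Ext

open QuadraticMap Cfsg.Agent.LieClassical.OrthCore Cfsg.Agent.LieClassical.OrthTrans
  Cfsg.Agent.H883.Root Cfsg.Agent.H883.Sub

variable {F K V : Type*} [Field F] [Field K] [Algebra F K] [AddCommGroup V]
  [Module F V] [Module K V] [IsScalarTower F K V]

/-- The setting: `Q = τ ∘ QK`. -/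
structure Tr (τ : K →ₗ[F] F) (QK : QuadraticForm K V) (Q : QuadraticForm F V) : Prop where
  ne : τ ≠ 0
  eq : ∀ v, Q v = τ (QK v)

variable {τ : K →ₗ[F] F} {QK : QuadraticForm K V} {Q : QuadraticForm F V}

theorem Tr.pol (h : Tr τ QK Q) (x y : V) : polar Q x y = τ (polar QK x y) := by
  simp only [QuadraticMap.polar, h.eq, map_sub]

theorem tau_ext (hτ : τ ≠ 0) {a : K} (h : ∀ k, τ (k * a) = 0) : a = 0 := by
  by_contra ha
  apply hτ
  ext k
  have := h (k * a⁻¹)
  rw [mul_assoc, inv_mul_cancel₀ ha, mul_one] at this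
  rw [this, LinearMap.zero_apply]

theorem tau_ext' (hτ : τ ≠ 0) {a b : K} (h : ∀ k, τ (k * a) = τ (k * b)) : a = b := by
  rw [← sub_eq_zero]
  apply tau_ext hτ
  intro k
  rw [mul_sub, map_sub, h, sub_self]

theorem tau_smul_mul (c : F) (a b : K) : τ (a * c • b) = c * τ (a * b) := by
  rw [mul_smul_comm, map_smul, smul_eq_mul]

/-- Every functional on `K` is of the form `τ (· δ)`. -/
theorem exists_delta [FiniteDimensional F K] (hτ : τ ≠ 0) (f : K →ₗ[F] F) :
    ∃ δ : K, ∀ k, f k = τ (k * δ) := by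
  let Φ : K →ₗ[F] (K →ₗ[F] F) :=
    { toFun := fun δ => τ ∘ₗ (LinearMap.mulRight F δ)
      map_add' := fun a b => by
        ext k
        simp [mul_add]
      map_smul' := fun c a => by
        ext k
        simp }
  have hinj : Function.Injective Φ := by
    rw [← LinearMap.ker_eq_bot, LinearMap.ker_eq_bot']
    intro a ha
    apply tau_ext hτ
    intro k
    exact congrArg (fun g : K →ₗ[F] F => g k) ha
  have hdim : Module.finrank F K = Module.finrank F (K →ₗ[F] F) :=
    (Subspace.dual_finrank_eq (K := F) (V := K)).symm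
  have : FiniteDimensional F (K →ₗ[F] F) := inferInstanceAs (FiniteDimensional F (Module.Dual F K))
  have hsurj : Function.Surjective Φ :=
    (LinearMap.injective_iff_surjective_of_finrank_eq_finrank hdim).1 hinj
  obtain ⟨δ, hδ⟩ := hsurj f
  exact ⟨δ, fun k => by rw [← hδ]; rfl⟩

theorem exists_tau_eq (hτ : τ ≠ 0) (c : F) : ∃ k, τ k = c := by
  obtain ⟨k, hk⟩ : ∃ k, τ k ≠ 0 := by
    by_contra hc
    push Not at hc
    exact hτ (LinearMap.ext hc)
  exact ⟨(c / τ k) • k, by rw [map_smul, smul_eq_mul, div_mul_cancel₀ _ hk]⟩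

/-- Orthogonality to a `K`-line, over `F` and over `K`. -/
theorem Tr.perp_line (h : Tr τ QK Q) {v x : V} (hx : ∀ k : K, polar Q (k • v) x = 0) :
    QuadraticMap.polar QK v x = 0 := by
  apply tau_ext h.ne
  intro k
  have := hx k
  rw [h.pol, polar_smul_left, smul_eq_mul] at this
  exact this

/-- The group of `K`-linear automorphisms inside the group of `F`-linear ones. -/
def rs : (V ≃ₗ[K] V) →* (V ≃ₗ[F] V) where
  toFun g := g.restrictScalars F
  map_one' := rfl
  map_mul' _ _ := rfl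

@[simp] theorem rs_apply (g : V ≃ₗ[K] V) (x : V) : (rs g : V ≃ₗ[F] V) x = g x := rfl

theorem Tr.nondeg (h : Tr τ QK Q) (hQ : Nondeg QK) : Nondeg Q := by
  intro x hx
  apply hQ
  intro y
  apply tau_ext h.ne
  intro k
  have := hx (k • y)
  rw [h.pol, polar_smul_right, smul_eq_mul] at this
  exact this

/-- `H` contains, for each hyperplane `Z` of `X`, elements fixing `X` pointwise and acting on `Z^⊥ / Z` as
the Siegel transformations attached to `X / Z`. -/
def IsPt (Q : QuadraticForm F V) (H : Subgroup (V ≃ₗ[F] V)) (X : Submodule F V) : Prop :=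
  ∀ (Z : Submodule F V) (a w : V), Z ≤ X → a ∈ X → a ∉ Z → (∀ x ∈ X, ∃ c : F, x - c • a ∈ Z) →
    (∀ x ∈ X, polar Q x w = 0) →
      ∃ h ∈ H, (∀ x ∈ X, h x = x) ∧
        ∀ x, (∀ z ∈ Z, polar Q z x = 0) → h x - siegelLin Q a w x ∈ Z

/-- The `K`-line spanned by `v` as a subspace over `F`. -/
def line (F K : Type*) {V : Type*} [Field F] [Field K] [Algebra F K] [AddCommGroup V]
    [Module F V] [Module K V] [IsScalarTower F K V] (v : V) : Submodule F V :=
  (Submodule.span K {v}).restrictScalars F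

theorem mem_line {v x : V} : x ∈ line F K v ↔ ∃ k : K, k • v = x := by
  rw [line, Submodule.restrictScalars_mem, Submodule.mem_span_singleton]

theorem smul_mem_line (k : K) (v : V) : k • v ∈ line F K v := mem_line.2 ⟨k, rfl⟩

theorem self_mem_line (v : V) : v ∈ line F K v := mem_line.2 ⟨1, one_smul K v⟩

variable {H : Subgroup (V ≃ₗ[F] V)}

/-- The functional attached to a hyperplane `Z` of a `K`-line and a vector `a` outside. -/
theorem exists_delta_line [FiniteDimensional F K] (hτ : τ ≠ 0) {v : V} {Z : Submodule F V} {a : V}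
    (haX : a ∈ line F K v) (haZ : a ∉ Z) (hX : ∀ x ∈ line F K v, ∃ c : F, x - c • a ∈ Z) :
    ∃ δ : K, δ ≠ 0 ∧ ∀ k : K, k • v - τ (k * δ) • a ∈ Z := by
  obtain ⟨s₁, rfl⟩ := mem_line.1 haX
  -- the functional with kernel `Z`
  have hsp : ∀ k : K, ∃! c : F, (k • v - c • s₁ • v) ∈ Z := by
    intro k
    obtain ⟨c, hc⟩ := hX _ (smul_mem_line k v)
    refine ⟨c, hc, fun c' hc' => ?_⟩
    by_contra hne
    apply haZ
    have h1 : (c' - c) • (s₁ • v) ∈ Z := by
      have := Z.sub_mem hc hc'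
      rwa [sub_sub_sub_cancel_left, ← sub_smul] at this
    have h2 : c' - c ≠ 0 := sub_ne_zero.2 hne
    have := Z.smul_mem (c' - c)⁻¹ h1
    rwa [smul_smul, inv_mul_cancel₀ h2, one_smul] at this
  choose f hf hf' using hsp
  let fl : K →ₗ[F] F :=
    { toFun := f
      map_add' := fun x y => by
        refine (hf' (x + y) (f x + f y) ?_).symm
        have e : (x + y) • v - (f x + f y) • s₁ • v =
            (x • v - f x • s₁ • v) + (y • v - f y • s₁ • v) := by module
        show (x + y) • v - (f x + f y) • s₁ • v ∈ Z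
        rw [e]
        exact Z.add_mem (hf x) (hf y)
      map_smul' := fun c x => by
        refine (hf' (c • x) (c * f x) ?_).symm
        have e : (c • x) • v - (c * f x) • s₁ • v = c • (x • v - f x • s₁ • v) := by
          rw [smul_sub, smul_assoc, mul_smul]
        show (c • x) • v - (c * f x) • s₁ • v ∈ Z
        rw [e]
        exact Z.smul_mem _ (hf x) }
  obtain ⟨δ, hδ⟩ := exists_delta hτ fl
  have hδ' : ∀ k : K, k • v - τ (k * δ) • s₁ • v ∈ Z := by
    intro k
    rw [← hδ k]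
    exact hf k
  refine ⟨δ, ?_, hδ'⟩
  rintro rfl
  apply haZ
  have := hδ' s₁
  rwa [mul_zero, map_zero, zero_smul, sub_zero] at this

theorem tau_delta {v : V} {Z : Submodule F V} {s₁ : K} (haZ : s₁ • v ∉ Z) {δ : K}
    (hδ : ∀ k : K, k • v - τ (k * δ) • s₁ • v ∈ Z) : τ (s₁ * δ) = 1 := by
  by_contra hne
  apply haZ
  have h1 := hδ s₁
  have h2 : s₁ • v - τ (s₁ * δ) • s₁ • v = (1 - τ (s₁ * δ)) • s₁ • v := by module
  rw [h2] at h1
  have h3 : 1 - τ (s₁ * δ) ≠ 0 := sub_ne_zero.2 (Ne.symm hne)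
  have := Z.smul_mem (1 - τ (s₁ * δ))⁻¹ h1
  rwa [smul_smul, inv_mul_cancel₀ h3, one_smul] at this

/-- The Siegel transformations over `K` attached to `v`, on `Z^⊥ / Z`. -/
theorem siegel_line (h : Tr τ QK Q) {v : V} (hv : QK v = 0) {Z : Submodule F V} {a : V}
    (haX : a ∈ line F K v) {δ : K} (hδ0 : δ ≠ 0)
    (hδ' : ∀ k : K, k • v - τ (k * δ) • a ∈ Z) {w : V} (hvw' : polar QK v (δ⁻¹ • w) = 0)
    {x : V} (hx : ∀ z ∈ Z, polar Q z x = 0) :
    siegel QK v (δ⁻¹ • w) hv hvw' x - siegelLin Q a w x ∈ Z := by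
  obtain ⟨s₁, rfl⟩ := mem_line.1 haX
  -- `polar QK v x` is a multiple of `δ`
  have hc : polar QK v x = (polar Q (s₁ • v) x) • δ := by
    apply tau_ext' h.ne
    intro k
    rw [tau_smul_mul]
    have h1 : polar Q (k • v - τ (k * δ) • s₁ • v) x = 0 := hx _ (hδ' k)
    rw [polar_sub_left, polar_smul_left, smul_eq_mul, sub_eq_zero, h.pol, polar_smul_left,
      smul_eq_mul] at h1
    rw [h1, mul_comm]
  set c := polar Q (s₁ • v) x with hcdef
  rw [siegel_apply, siegelLin_apply, hc, polar_smul_left, QuadraticMap.map_smul,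
    h.pol w x, h.eq w, ← hcdef]
  have e1 : (c • δ) • δ⁻¹ • w = c • w := by
    rw [smul_smul, smul_mul_assoc, mul_inv_cancel₀ hδ0, smul_assoc, one_smul]
  rw [e1]
  have key1 := hδ' (δ⁻¹ * polar QK w x)
  have key2 := hδ' (δ⁻¹ * QK w)
  have e3 : τ (δ⁻¹ * polar QK w x * δ) = τ (polar QK w x) := by
    congr 1
    field_simp
  have e4 : τ (δ⁻¹ * QK w * δ) = τ (QK w) := by
    congr 1
    field_simp
  rw [e3] at key1
  rw [e4] at key2
  have e5 : (((δ⁻¹ * δ⁻¹) • QK w) * c • δ) • v = c • (δ⁻¹ * QK w) • v := by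
    rw [← smul_assoc]
    congr 1
    rw [smul_eq_mul, Algebra.smul_def, Algebra.smul_def]
    field_simp
  rw [e5]
  have e6 : x + c • w - (δ⁻¹ • polar QK w x) • v - c • (δ⁻¹ * QK w) • v -
      (x + c • w - τ (polar QK w x) • s₁ • v - (τ (QK w) * c) • s₁ • v) =
      -((δ⁻¹ * polar QK w x) • v - τ (polar QK w x) • s₁ • v) -
        c • ((δ⁻¹ * QK w) • v - τ (QK w) • s₁ • v) := by
    rw [smul_eq_mul]
    module
  rw [e6]
  exact Z.sub_mem (Z.neg_mem key1) (Z.smul_mem _ key2)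

theorem siegel_fix_line {v w x : V} (hv : QK v = 0) (hvw : polar QK v w = 0)
    (hx : x ∈ line F K v) : siegel QK v w hv hvw x = x := by
  obtain ⟨k, rfl⟩ := mem_line.1 hx
  rw [siegel_apply, polar_smul_right, polar_smul_right, polar_self_of_sing hv,
    polar_comm QK _ v, hvw]
  simp

theorem isPt_line [FiniteDimensional F K] (h : Tr τ QK Q)
    (hE : ∀ g ∈ E QK, (rs g : V ≃ₗ[F] V) ∈ H) {v : V} (hv : QK v = 0) :
    IsPt Q H (line F K v) := by
  intro Z a w hZX haX haZ hX hw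
  obtain ⟨δ, hδ0, hδ⟩ := exists_delta_line h.ne haX haZ hX
  have hvw : polar QK v w = 0 := h.perp_line fun k => hw _ (smul_mem_line k v)
  have hvw' : polar QK v (δ⁻¹ • w) = 0 := by rw [polar_smul_right, hvw, smul_zero]
  exact ⟨rs (siegel QK v (δ⁻¹ • w) hv hvw'), hE _ (siegel_mem_E _ _),
    fun x hx => siegel_fix_line hv hvw' hx, fun x hx => siegel_line h hv haX hδ0 hδ hvw' hx⟩

theorem siegelLin_map {g : V ≃ₗ[F] V} (hg : g ∈ O Q) (u w v : V) :
    siegelLin Q (g u) (g w) (g v) = g (siegelLin Q u w v) := by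
  rw [siegelLin_apply, siegelLin_apply, polar_map hg, polar_map hg, hg w]
  simp only [map_sub, map_add, map_smul]

theorem IsPt.map {X : Submodule F V} (hX : IsPt Q H X) {g : V ≃ₗ[F] V} (hgO : g ∈ O Q)
    (hg : g ∈ H) : IsPt Q H (X.map (g : V →ₗ[F] V)) := by
  intro Z a w hZX haX haZ hsp hw
  obtain ⟨a', ha', rfl⟩ := haX
  have hg1 : ∀ x, g (g⁻¹ x) = x := fun x => LinearEquiv.apply_symm_apply g x
  have hg2 : ∀ x, g⁻¹ (g x) = x := fun x => LinearEquiv.symm_apply_apply g x
  obtain ⟨h, hhH, hh1, hh2⟩ := hX (Z.comap (g : V →ₗ[F] V)) a' (g⁻¹ w)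
    (by
      intro z hz
      obtain ⟨x, hx, e⟩ := hZX (show g z ∈ Z from hz)
      have : x = z := g.injective e
      rwa [← this])
    ha' haZ
    (by
      intro x hx
      obtain ⟨c, hc⟩ := hsp (g x) ⟨x, hx, rfl⟩
      refine ⟨c, ?_⟩
      show g (x - c • a') ∈ Z
      rw [map_sub, map_smul]
      exact hc)
    (by
      intro x hx
      rw [← polar_map hgO, hg1]
      exact hw _ ⟨x, hx, rfl⟩)
  refine ⟨g * h * g⁻¹, H.mul_mem (H.mul_mem hg hhH) (H.inv_mem hg), ?_, ?_⟩
  · rintro _ ⟨x, hx, rfl⟩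
    show g (h (g⁻¹ (g x))) = g x
    rw [hg2, hh1 x hx]
  · intro x hx
    have h1 := hh2 (g⁻¹ x) (by
      intro z hz
      rw [← polar_map hgO, hg1]
      exact hx _ hz)
    have h2 : g (h (g⁻¹ x) - siegelLin Q a' (g⁻¹ w) (g⁻¹ x)) ∈ Z := h1
    rw [map_sub, ← siegelLin_map hgO, hg1, hg1] at h2
    exact h2

end Cfsg.Agent.H925.Ext
end

-- part: H925/ExtConf
section
/-!
# Overgroups of `Ω(V, QK)` in `Ω(V, τ ∘ QK)`, II: two adjacent points

From two totally singular subspaces `X`, `Y` with the property `IsPt`, meeting in a common hyperplane `Z` and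
not orthogonal, `H` induces (at least) `E (Z^⊥ / Z)` on `Z^⊥ / Z`.
-/

set_option autoImplicit false
set_option linter.unusedSectionVars false

namespace Cfsg.Agent.H925.Ext

open QuadraticMap Cfsg.Agent.LieClassical.OrthCore Cfsg.Agent.LieClassical.OrthTrans
  Cfsg.Agent.H883.Root Cfsg.Agent.H883.Sub

variable {F V : Type*} [Field F] [AddCommGroup V] [Module F V] {Q : QuadraticForm F V}
  {H : Subgroup (V ≃ₗ[F] V)}

/-- The automorphisms of `N` induced modulo `Z` by the elements of `H` fixing `Z` pointwise. -/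
def HN (H : Subgroup (V ≃ₗ[F] V)) (Z N : Submodule F V) : Subgroup (N ≃ₗ[F] N) where
  carrier := {g | ∃ h ∈ H, (∀ z ∈ Z, h z = z) ∧ ∀ x : N, h (x : V) - (g x : V) ∈ Z}
  mul_mem' := by
    rintro g₁ g₂ ⟨h₁, hh₁, h1, h2⟩ ⟨h₂, hh₂, h3, h4⟩
    refine ⟨h₁ * h₂, H.mul_mem hh₁ hh₂, fun z hz => ?_, fun x => ?_⟩
    · show h₁ (h₂ z) = z
      rw [h3 z hz, h1 z hz]
    · show h₁ (h₂ x) - (g₁ (g₂ x) : V) ∈ Z
      have e : h₁ (h₂ x) - (g₁ (g₂ x) : V) =
          h₁ (h₂ x - (g₂ x : V)) + (h₁ (g₂ x : V) - (g₁ (g₂ x) : V)) := by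
        rw [map_sub]; abel
      rw [e, h1 _ (h4 x)]
      exact Z.add_mem (h4 x) (h2 _)
  one_mem' := ⟨1, H.one_mem, fun z _ => rfl, fun x => by
    show (x : V) - (x : V) ∈ Z
    rw [sub_self]
    exact Z.zero_mem⟩
  inv_mem' := by
    rintro g ⟨h, hh, h1, h2⟩
    have h3 : ∀ z ∈ Z, h⁻¹ z = z := fun z hz => by
      show h.symm z = z
      rw [LinearEquiv.symm_apply_eq, h1 z hz]
    refine ⟨h⁻¹, H.inv_mem hh, h3, fun x => ?_⟩
    have h4 := h2 (g⁻¹ x)
    have h5 : g (g⁻¹ x) = x := LinearEquiv.apply_symm_apply g x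
    rw [h5] at h4
    have h6 := h3 _ h4
    rw [map_sub] at h6
    have h7 : h⁻¹ (h (g⁻¹ x : N)) = ((g⁻¹ x : N) : V) := LinearEquiv.symm_apply_apply h _
    rw [h7] at h6
    have h8 : h⁻¹ (x : V) - ((g⁻¹ x : N) : V) = -(h ((g⁻¹ x : N) : V) - (x : V)) := by
      rw [← h6]; abel
    rw [h8]
    exact Z.neg_mem h4

theorem mem_HN {Z N : Submodule F V} {g : N ≃ₗ[F] N} : g ∈ HN H Z N ↔
    ∃ h ∈ H, (∀ z ∈ Z, h z = z) ∧ ∀ x : N, h (x : V) - (g x : V) ∈ Z := Iff.rfl

theorem full_HN {X Z N : Submodule F V} (hX : IsPt Q H X) (hZX : Z ≤ X)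
    (hZN : ∀ z ∈ Z, ∀ x ∈ N, polar Q z x = 0) {a : V} (ha : a ∈ X) (haN : a ∈ N) (haZ : a ∉ Z)
    (hsp : ∀ x ∈ X, ∃ c : F, x - c • a ∈ Z) (hQa : Q a = 0) :
    Full (res Q N) (HN H Z N) ⟨a, haN⟩ := by
  have hQa' : res Q N ⟨a, haN⟩ = 0 := hQa
  refine ⟨hQa', fun w hw => ⟨hQa', hw, ?_⟩⟩
  have hw' : polar Q a (w : V) = 0 := hw
  obtain ⟨h, hh, h1, h2⟩ := hX Z a (w : V) hZX ha haZ hsp (by
    intro x hx
    obtain ⟨c, hc⟩ := hsp x hx
    have e : x = (x - c • a) + c • a := by abel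
    rw [e, polar_add_left, hZN _ hc _ w.2, polar_smul_left, hw', smul_zero, add_zero])
  refine ⟨h, hh, fun z hz => h1 z (hZX hz), fun x => ?_⟩
  have h3 := h2 (x : V) (fun z hz => hZN z hz _ x.2)
  have e : ((siegel (res Q N) (⟨a, haN⟩ : N) w hQa' hw x : N) : V) =
      siegelLin Q a (w : V) (x : V) := by
    rw [siegel_apply, siegelLin_apply]
    rfl
  rw [e]
  exact h3

/-- The data of a totally singular subspace `Z`, a complement `N` of `Z` in `Z^⊥`, such that `H` induces all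
the elements of `E (res Q N)` modulo `Z`. -/
structure Conf (Q : QuadraticForm F V) (H : Subgroup (V ≃ₗ[F] V)) (Z N : Submodule F V) : Prop where
  hHO : H ≤ O Q
  sing : ∀ z ∈ Z, Q z = 0
  zn : ∀ z ∈ Z, ∀ x ∈ N, polar Q z x = 0
  dec : ∀ x, (∀ z ∈ Z, polar Q z x = 0) → ∃ z ∈ Z, ∃ n ∈ N, x = z + n
  perp : ∀ x, (∀ y, (∀ z ∈ Z, polar Q z y = 0) → polar Q y x = 0) → x ∈ Z
  good : Good (res Q N)
  lift : E (res Q N) ≤ HN H Z N

theorem polar_zero_of_ts {Z : Submodule F V} (h : ∀ z ∈ Z, Q z = 0) {z z' : V} (hz : z ∈ Z)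
    (hz' : z' ∈ Z) : polar Q z z' = 0 := by
  rw [QuadraticMap.polar, h _ (Z.add_mem hz hz'), h _ hz, h _ hz']
  simp

/-- A complement of `Z` in `Z^⊥` containing two given vectors. -/
theorem exists_compl [FiniteDimensional F V] (hQ : Nondeg Q) {Z : Submodule F V}
    (hZ : ∀ z ∈ Z, Q z = 0) {a b : V} (ha : ∀ z ∈ Z, polar Q z a = 0)
    (hb : ∀ z ∈ Z, polar Q z b = 0) (hQa : Q a = 0) (hQb : Q b = 0) (hab : polar Q a b ≠ 0) :
    ∃ N : Submodule F V, a ∈ N ∧ b ∈ N ∧ (∀ z ∈ Z, ∀ x ∈ N, polar Q z x = 0) ∧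
      (∀ x, (∀ z ∈ Z, polar Q z x = 0) → ∃ z ∈ Z, ∃ n ∈ N, x = z + n) ∧ NondegOn Q N ∧
      Module.finrank F N + 2 * Module.finrank F Z = Module.finrank F V := by
  have hdisj : Disjoint (Submodule.span F {a, b}) Z := by
    rw [Submodule.disjoint_def]
    intro x hx hxZ
    obtain ⟨c, d, rfl⟩ := Submodule.mem_span_pair.1 hx
    have h1 : polar Q (c • a + d • b) a = 0 := ha _ hxZ
    have h2 : polar Q (c • a + d • b) b = 0 := hb _ hxZ
    rw [polar_add_left, polar_smul_left, polar_smul_left, polar_self_of_sing hQa,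
      polar_comm Q b a] at h1
    rw [polar_add_left, polar_smul_left, polar_smul_left, polar_self_of_sing hQb] at h2
    have hd : d = 0 := by
      rw [smul_zero, zero_add, smul_eq_mul] at h1
      exact (mul_eq_zero.1 h1).resolve_right hab
    have hc : c = 0 := by
      rw [smul_zero, add_zero, smul_eq_mul] at h2
      exact (mul_eq_zero.1 h2).resolve_right hab
    rw [hc, hd, zero_smul, zero_smul, add_zero]
  obtain ⟨N', hN', hcompl⟩ := hdisj.exists_isCompl
  have hZP : Z ≤ perp Q Z := by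
    intro z hz
    exact mem_perp.2 fun z' hz' => polar_zero_of_ts hZ hz' hz
  have hsup : (N' ⊓ perp Q Z) ⊔ Z = perp Q Z := by
    rw [inf_comm, inf_sup_assoc_of_le _ hZP, hcompl.sup_eq_top, inf_top_eq]
  have hdec : ∀ x, (∀ z ∈ Z, polar Q z x = 0) → ∃ z ∈ Z, ∃ n ∈ N' ⊓ perp Q Z, x = z + n := by
    intro x hx
    have : x ∈ (N' ⊓ perp Q Z) ⊔ Z := by rw [hsup]; exact mem_perp.2 hx
    obtain ⟨n, hn, z, hz, e⟩ := Submodule.mem_sup.1 this
    exact ⟨z, hz, n, hn, by rw [← e, add_comm]⟩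
  have hinf : (N' ⊓ perp Q Z) ⊓ Z = ⊥ := by
    rw [← le_bot_iff, ← hcompl.inf_eq_bot]
    exact inf_le_inf_right _ inf_le_left
  refine ⟨N' ⊓ perp Q Z, ⟨hN' (Submodule.subset_span (by simp)), mem_perp.2 ha⟩,
    ⟨hN' (Submodule.subset_span (by simp)), mem_perp.2 hb⟩,
    fun z hz x hx => mem_perp.1 hx.2 z hz, hdec, ?_, ?_⟩
  · intro y hy hy'
    have h1 : y ∈ perp Q (perp Q Z) := by
      refine mem_perp.2 fun x hx => ?_
      obtain ⟨z, hz, n, hn, rfl⟩ := hdec x (mem_perp.1 hx)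
      rw [polar_add_left, mem_perp.1 hy.2 z hz, polar_comm, hy' n hn, add_zero]
    rw [perp_perp hQ] at h1
    have h2 : y ∈ (N' ⊓ perp Q Z) ⊓ Z := ⟨hy, h1⟩
    rw [hinf] at h2
    exact (Submodule.mem_bot F).1 h2
  · have h1 := Submodule.finrank_sup_add_finrank_inf_eq (N' ⊓ perp Q Z) Z
    rw [hsup, hinf, finrank_bot, add_zero] at h1
    have h2 := finrank_perp hQ Z
    omega

/-- **The configuration attached to two adjacent points.** -/
theorem exists_conf [Finite F] [FiniteDimensional F V] (hQ : Nondeg Q) (hHO : H ≤ O Q)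
    {X Y Z : Submodule F V} (hX : IsPt Q H X) (hY : IsPt Q H Y) (hXs : ∀ x ∈ X, Q x = 0)
    (hYs : ∀ x ∈ Y, Q x = 0) (hZX : Z ≤ X) (hZY : Z ≤ Y) {a b : V} (ha : a ∈ X) (hb : b ∈ Y)
    (hspa : ∀ x ∈ X, ∃ c : F, x - c • a ∈ Z) (hspb : ∀ x ∈ Y, ∃ c : F, x - c • b ∈ Z)
    (hab : polar Q a b ≠ 0) (hdim : 2 * Module.finrank F Z + 5 ≤ Module.finrank F V) :
    ∃ N, a ∈ N ∧ b ∈ N ∧ Conf Q H Z N := by
  have hZs : ∀ z ∈ Z, Q z = 0 := fun z hz => hXs z (hZX hz)
  obtain ⟨N, haN, hbN, hZN, hdec, hN, hfin⟩ := exists_compl hQ hZs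
    (fun z hz => polar_zero_of_ts hXs (hZX hz) ha) (fun z hz => polar_zero_of_ts hYs (hZY hz) hb)
    (hXs a ha) (hYs b hb) hab
  have hG : Good (res Q N) := good_res hN (by omega)
  have haZ : a ∉ Z := fun h => hab (polar_zero_of_ts hYs (hZY h) hb)
  have hbZ : b ∉ Z := fun h => hab (by
    rw [polar_comm]; exact polar_zero_of_ts hXs (hZX h) ha)
  refine ⟨N, haN, hbN, hHO, hZs, hZN, hdec, ?_, hG, ?_⟩
  · intro x hx
    have h1 : x ∈ perp Q (perp Q Z) := mem_perp.2 fun y hy => hx y (mem_perp.1 hy)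
    rwa [perp_perp hQ] at h1
  · exact E_le_of_full_pair hG (full_HN hX hZX hZN ha haN haZ hspa (hXs a ha))
      (full_HN hY hZY hZN hb hbN hbZ hspb (hYs b hb)) hab

end Cfsg.Agent.H925.Ext
end

-- part: H925/ExtUnip
section
/-!
# Overgroups of `Ω(V, QK)` in `Ω(V, τ ∘ QK)`, III: the unipotent radical of the stabiliser of `Z`

`Conf Q H Z N`; `Phi` is the set of the linear maps `φ : N → Z` such that `H` has an element fixing `Z`
pointwise and acting on `N` as `x ↦ x + φ x`.
-/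

set_option autoImplicit false
set_option linter.unusedSectionVars false

namespace Cfsg.Agent.H925.Ext

open QuadraticMap Cfsg.Agent.LieClassical.OrthCore Cfsg.Agent.LieClassical.OrthTrans
  Cfsg.Agent.H883.Root Cfsg.Agent.H883.Sub

variable {F V : Type*} [Field F] [AddCommGroup V] [Module F V] {Q : QuadraticForm F V}
  {H : Subgroup (V ≃ₗ[F] V)} {Z N : Submodule F V}

/-- `H` has an element fixing `Z` pointwise and acting on `N` as `1 + φ`. -/
def Phi (H : Subgroup (V ≃ₗ[F] V)) (φ : N →ₗ[F] Z) : Prop :=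
  ∃ c ∈ H, (∀ z ∈ Z, c z = z) ∧ ∀ x : N, c (x : V) = x + (φ x : V)

theorem Phi.add {φ ψ : N →ₗ[F] Z} (h1 : Phi H φ) (h2 : Phi H ψ) : Phi H (φ + ψ) := by
  obtain ⟨c, hc, c1, c2⟩ := h1
  obtain ⟨d, hd, d1, d2⟩ := h2
  refine ⟨c * d, H.mul_mem hc hd, fun z hz => ?_, fun x => ?_⟩
  · show c (d z) = z
    rw [d1 z hz, c1 z hz]
  · show c (d x) = _
    rw [d2, map_add, c2, c1 _ (ψ x).2, LinearMap.add_apply, Submodule.coe_add, add_assoc]

theorem inv_fix {c : V ≃ₗ[F] V} {x y : V} (h : c x = y) : c⁻¹ y = x := by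
  show c.symm y = x
  rw [LinearEquiv.symm_apply_eq, h]

theorem Phi.neg {φ : N →ₗ[F] Z} (h1 : Phi H φ) : Phi H (-φ) := by
  obtain ⟨c, hc, c1, c2⟩ := h1
  refine ⟨c⁻¹, H.inv_mem hc, fun z hz => inv_fix (c1 z hz), fun x => ?_⟩
  apply inv_fix
  rw [map_add, c2, c1 _ ((-φ) x).2, LinearMap.neg_apply]
  simp

theorem Phi.sub {φ ψ : N →ₗ[F] Z} (h1 : Phi H φ) (h2 : Phi H ψ) : Phi H (φ - ψ) := by
  rw [sub_eq_add_neg]
  exact h1.add h2.neg

theorem Phi.zero : Phi H (0 : N →ₗ[F] Z) :=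
  ⟨1, H.one_mem, fun _ _ => rfl, fun x => by simp⟩

/-- Composition with an automorphism of `N` induced by `H`. -/
theorem Phi.comp {φ : N →ₗ[F] Z} (h1 : Phi H φ) {g : N ≃ₗ[F] N} (hg : g ∈ HN H Z N) :
    Phi H (φ ∘ₗ (g : N →ₗ[F] N)) := by
  obtain ⟨c, hc, c1, c2⟩ := h1
  obtain ⟨h, hh, h2, h3⟩ := hg
  refine ⟨h⁻¹ * c * h, H.mul_mem (H.mul_mem (H.inv_mem hh) hc) hh, fun z hz => ?_, fun x => ?_⟩
  · show h⁻¹ (c (h z)) = z
    rw [h2 z hz, c1 z hz]
    exact inv_fix (h2 z hz)
  · show h⁻¹ (c (h x)) = _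
    apply inv_fix
    have e : h (x : V) = (g x : V) + (h x - (g x : V)) := by abel
    rw [map_add, h2 _ ((φ ∘ₗ (g : N →ₗ[F] N)) x).2]
    conv_rhs => rw [e]
    rw [map_add, c2, c1 _ (h3 x)]
    show h (x : V) + ((φ (g x) : Z) : V) = _
    abel

/-- The rank one map `x ↦ B(u, x) z`. -/
def r1 (Q : QuadraticForm F V) (u : N) (z : Z) : N →ₗ[F] Z :=
  (polarBilin (res Q N) u).smulRight z

theorem r1_apply (u : N) (z : Z) (x : N) : r1 Q u z x = polar (res Q N) u x • z := rfl

theorem Conf.phi_comp (hC : Conf Q H Z N) {φ : N →ₗ[F] Z} (h1 : Phi H φ) {g : N ≃ₗ[F] N}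
    (hg : g ∈ E (res Q N)) : Phi H (φ ∘ₗ (g : N →ₗ[F] N)) := h1.comp (hC.lift hg)

/-- From one nontrivial `φ` to all the rank one maps with value in a line. -/
theorem Conf.phi_r1 (hC : Conf Q H Z N) {φ : N →ₗ[F] Z} (h1 : Phi H φ) {y : N}
    (hy : res Q N y = 0) (hy0 : y ≠ 0) (u : N) : Phi H (r1 Q u (φ y)) := by
  have hG := hC.good
  obtain ⟨y', hyp⟩ := Cfsg.Agent.LieClassical.OrthTrans.exists_hyp hG.nondeg hy hy0
  obtain ⟨v, v', hv, hyv, hyv', -, -⟩ := hG.exists_hyp2 hyp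
  have hvy : polar (res Q N) v y = 0 := by rw [polar_comm]; exact hyv
  -- first commutator
  have h2 := (hC.phi_comp h1 (siegel_mem_E hv.left hvy)).sub h1
  set φ₁ : N →ₗ[F] Z := (φ ∘ₗ (siegel (res Q N) v y hv.left hvy : N →ₗ[F] N)) - φ with hφ₁
  have e1 : ∀ x : N, φ₁ x = polar (res Q N) v x • φ y - polar (res Q N) y x • φ v := by
    intro x
    have : φ₁ x = φ (siegel (res Q N) v y hv.left hvy x) - φ x := rfl
    rw [this, siegel_apply, hy]
    simp only [map_sub, map_add, map_smul, zero_mul, zero_smul, map_zero, sub_zero]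
    abel
  -- second commutator
  have h3 := (hC.phi_comp h2 (siegel_mem_E hy hyv')).sub h2
  set φ₂ : N →ₗ[F] Z := (φ₁ ∘ₗ (siegel (res Q N) y v' hy hyv' : N →ₗ[F] N)) - φ₁ with hφ₂
  have e2 : φ₂ = r1 Q y (φ y) := by
    ext x
    have : φ₂ x = φ₁ (siegel (res Q N) y v' hy hyv' x) - φ₁ x := rfl
    rw [this, siegel_apply]
    have f1 : φ₁ y = 0 := by
      rw [e1, hvy, polar_self_of_sing hy, zero_smul, zero_smul, sub_zero]
    have f2 : φ₁ v' = φ y := by
      rw [e1, hv.pair, hyv', zero_smul, one_smul, sub_zero]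
    rw [map_sub, map_sub, map_add, map_smul, map_smul, map_smul, f1, f2, r1_apply]
    simp
  rw [e2] at h3
  -- all singular vectors
  have h4 : ∀ a : N, res Q N a = 0 → Phi H (r1 Q a (φ y)) := by
    intro a ha
    by_cases ha0 : a = 0
    · subst ha0
      have : r1 Q (0 : N) (φ y) = 0 := by
        ext x
        rw [r1_apply, polar_zero_left]
        simp
      rw [this]
      exact Phi.zero
    · obtain ⟨g, hg, e⟩ := hG.trans_sing hy ha hy0 ha0
      have h5 := hC.phi_comp h3 ((E (res Q N)).inv_mem hg)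
      have e3 : (r1 Q y (φ y)) ∘ₗ ((g⁻¹ : N ≃ₗ[F] N) : N →ₗ[F] N) = r1 Q a (φ y) := by
        ext x
        have : ((r1 Q y (φ y)) ∘ₗ ((g⁻¹ : N ≃ₗ[F] N) : N →ₗ[F] N)) x = r1 Q y (φ y) (g⁻¹ x) := rfl
        rw [this, r1_apply, r1_apply]
        have e4 : polar (res Q N) y (g⁻¹ x) = polar (res Q N) a x := by
          rw [← polar_map (E_le_O hg), e]
          congr 1
          exact LinearEquiv.apply_symm_apply g x
        rw [e4]
      rwa [e3] at h5
  refine sing_induction hyp (P := fun u => Phi H (r1 Q u (φ y))) ?_ h4 u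
  intro a c ha hc
  have : r1 Q (a + c) (φ y) = r1 Q a (φ y) + r1 Q c (φ y) := by
    ext x
    rw [LinearMap.add_apply, r1_apply, r1_apply, r1_apply, polar_add_left, add_smul]
  show Phi H (r1 Q (a + c) (φ y))
  rw [this]
  exact ha.add hc

/-- Isometries trivial on `Z^⊥` commute with the isometries fixing `Z` pointwise. -/
theorem Conf.central (hC : Conf Q H Z N) {t g : V ≃ₗ[F] V} (ht : t ∈ O Q) (hg : g ∈ O Q)
    (htZ : ∀ z ∈ Z, t z = z) (htN : ∀ x ∈ N, t x = x) (hgZ : ∀ z ∈ Z, g z = z) :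
    g * t = t * g := by
  have h1 : ∀ y, (∀ z ∈ Z, polar Q z y = 0) → t y = y := by
    intro y hy
    obtain ⟨z, hz, n, hn, rfl⟩ := hC.dec y hy
    rw [map_add, htZ z hz, htN n hn]
  have h2 : ∀ x, t x - x ∈ Z := by
    intro x
    apply hC.perp
    intro y hy
    rw [polar_sub_right]
    nth_rewrite 1 [← h1 y hy]
    rw [polar_map ht, sub_self]
  ext x
  show g (t x) = t (g x)
  have h3 : t (g x - x) = g x - x := by
    apply h1
    intro z hz
    rw [polar_sub_right]
    nth_rewrite 1 [← hgZ z hz]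
    rw [polar_map hg, sub_self]
  have h4 : g (t x) = g x + (t x - x) := by
    have e : t x = x + (t x - x) := by abel
    conv_lhs => rw [e]
    rw [map_add, hgZ _ (h2 x)]
  rw [h4]
  rw [map_sub] at h3
  have h5 : t (g x) = g x - x + t x := by rw [← h3]; abel
  rw [h5]; abel

/-- The Siegel transformation inducing a rank one `φ`. -/
theorem Conf.decomp (hC : Conf Q H Z N) {u : N} {z : Z} (h : Phi H (r1 Q u z)) :
    ∃ (c t : V ≃ₗ[F] V) (hz : Q (z : V) = 0) (hu : polar Q (z : V) (-(u : V)) = 0),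
      c ∈ H ∧ (∀ z ∈ Z, c z = z) ∧ t ∈ O Q ∧ (∀ z ∈ Z, t z = z) ∧ (∀ x ∈ N, t x = x) ∧
      c = siegel Q (z : V) (-(u : V)) hz hu * t := by
  obtain ⟨c, hc, c1, c2⟩ := h
  have hz : Q (z : V) = 0 := hC.sing _ z.2
  have hu : polar Q (z : V) (-(u : V)) = 0 := by
    rw [polar_neg_right, hC.zn _ z.2 _ u.2, neg_zero]
  set s := siegel Q (z : V) (-(u : V)) hz hu with hs
  have s1 : ∀ z' ∈ Z, s z' = z' := by
    intro z' hz'
    apply siegel_fix
    · exact polar_zero_of_ts hC.sing z.2 hz'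
    · rw [polar_neg_left, polar_comm, hC.zn _ hz' _ u.2, neg_zero]
  have s2 : ∀ x : N, s (x : V) = c x := by
    intro x
    rw [c2, hs, siegel_apply, hC.zn _ z.2 _ x.2, polar_neg_left, r1_apply, polar_res]
    simp
  refine ⟨c, s⁻¹ * c, hz, hu, hc, c1, (O Q).mul_mem ((O Q).inv_mem (siegel_mem_O hz hu))
    (hC.hHO hc), ?_, ?_, ?_⟩
  · intro z' hz'
    show s⁻¹ (c z') = z'
    rw [c1 z' hz']
    exact inv_fix (s1 z' hz')
  · intro x hx
    show s⁻¹ (c x) = x
    exact inv_fix (s2 ⟨x, hx⟩)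
  · rw [mul_inv_cancel_left]

/-- `H` contains the Siegel transformations attached to pairs of vectors of `Z`. -/
theorem Conf.has_zz (hC : Conf Q H Z N) (h : ∀ (u : N) (z : Z), Phi H (r1 Q u z)) {z₁ z₂ : V}
    (h1 : z₁ ∈ Z) (h2 : z₂ ∈ Z) : Has Q H z₂ z₁ := by
  obtain ⟨u₁, u₂, hyp⟩ := hC.good.exists_hyp
  obtain ⟨c₁, t₁, hz₁, hu₁, hc₁, c₁Z, t₁O, t₁Z, t₁N, e₁⟩ := hC.decomp (h u₁ ⟨z₁, h1⟩)
  obtain ⟨c₂, t₂, hz₂, hu₂, hc₂, c₂Z, t₂O, t₂Z, t₂N, e₂⟩ := hC.decomp (h u₂ ⟨z₂, h2⟩)
  change Q z₁ = 0 at hz₁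
  change Q z₂ = 0 at hz₂
  set s₁ := siegel Q z₁ (-(u₁ : V)) hz₁ hu₁ with hs₁
  set s₂ := siegel Q z₂ (-(u₂ : V)) hz₂ hu₂ with hs₂
  have s₁O : s₁ ∈ O Q := siegel_mem_O hz₁ hu₁
  have s₂O : s₂ ∈ O Q := siegel_mem_O hz₂ hu₂
  have s₁Z : ∀ z ∈ Z, s₁ z = z := by
    intro z' hz'
    apply siegel_fix
    · exact polar_zero_of_ts hC.sing h1 hz'
    · rw [polar_neg_left, polar_comm, hC.zn _ hz' _ u₁.2, neg_zero]
  have s₂Z : ∀ z ∈ Z, s₂ z = z := by
    intro z' hz'
    apply siegel_fix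
    · exact polar_zero_of_ts hC.sing h2 hz'
    · rw [polar_neg_left, polar_comm, hC.zn _ hz' _ u₂.2, neg_zero]
  have s₁Z' : ∀ z ∈ Z, s₁⁻¹ z = z := fun z hz => inv_fix (s₁Z z hz)
  -- `c₁ c₂ c₁⁻¹ = s₁ s₂ s₁⁻¹ t₂`
  have k1 : s₁ * t₁ = t₁ * s₁ := hC.central t₁O s₁O t₁Z t₁N s₁Z
  have k2 : (s₁ * c₂ * s₁⁻¹) * t₁ = t₁ * (s₁ * c₂ * s₁⁻¹) := by
    refine hC.central t₁O ((O Q).mul_mem ((O Q).mul_mem s₁O (hC.hHO hc₂))
      ((O Q).inv_mem s₁O)) t₁Z t₁N fun z hz => ?_
    show s₁ (c₂ (s₁⁻¹ z)) = z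
    rw [s₁Z' z hz, c₂Z z hz, s₁Z z hz]
  have k3 : s₁ * t₂ = t₂ * s₁ := hC.central t₂O s₁O t₂Z t₂N s₁Z
  have k4 : s₂ * t₂ = t₂ * s₂ := hC.central t₂O s₂O t₂Z t₂N s₂Z
  have k5 : (s₂⁻¹ * (s₁ * s₂ * s₁⁻¹)) * t₂ = t₂ * (s₂⁻¹ * (s₁ * s₂ * s₁⁻¹)) := by
    have k3' : Commute s₁ t₂ := k3
    have k4' : Commute s₂ t₂ := k4
    exact ((k4'.inv_left).mul_left ((k3'.mul_left k4').mul_left k3'.inv_left))
  have e : c₂⁻¹ * (c₁ * c₂ * c₁⁻¹) = s₂⁻¹ * (s₁ * s₂ * s₁⁻¹) := by
    have f1 : c₁ * c₂ * c₁⁻¹ = s₁ * c₂ * s₁⁻¹ := by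
      rw [e₁, k1, mul_inv_rev]
      calc t₁ * s₁ * c₂ * (s₁⁻¹ * t₁⁻¹) = t₁ * (s₁ * c₂ * s₁⁻¹) * t₁⁻¹ := by group
        _ = s₁ * c₂ * s₁⁻¹ := by rw [← k2, mul_inv_cancel_right]
    have f2 : s₁ * c₂ * s₁⁻¹ = s₁ * s₂ * s₁⁻¹ * t₂ := by
      rw [e₂]
      have k3' : s₁⁻¹ * t₂ = t₂ * s₁⁻¹ := (show Commute s₁ t₂ from k3).inv_left
      calc s₁ * (s₂ * t₂) * s₁⁻¹ = s₁ * s₂ * (t₂ * s₁⁻¹) := by group
        _ = s₁ * s₂ * s₁⁻¹ * t₂ := by rw [← k3']; group
    rw [f1, f2, e₂, k4, mul_inv_rev]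
    calc s₂⁻¹ * t₂⁻¹ * (s₁ * s₂ * s₁⁻¹ * t₂) = s₂⁻¹ * t₂⁻¹ * s₂ * ((s₂⁻¹ * (s₁ * s₂ * s₁⁻¹)) * t₂) := by
          group
      _ = s₂⁻¹ * t₂⁻¹ * (s₂ * t₂) * (s₂⁻¹ * (s₁ * s₂ * s₁⁻¹)) := by rw [k5]; group
      _ = s₂⁻¹ * (s₁ * s₂ * s₁⁻¹) := by rw [k4]; group
  have hmem : s₂⁻¹ * (s₁ * s₂ * s₁⁻¹) ∈ H := by
    rw [← e]
    exact H.mul_mem (H.inv_mem hc₂) (H.mul_mem (H.mul_mem hc₁ hc₂) (H.inv_mem hc₁))
  -- identify the commutator
  have hw1 : polar Q z₂ (u₂ : V) = 0 := hC.zn _ h2 _ u₂.2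
  have hu12 : polar Q (u₁ : V) (u₂ : V) = 1 := hyp.pair
  have g1 : s₁ z₂ = z₂ := s₁Z z₂ h2
  have g2 : s₁ (-(u₂ : V)) = -(u₂ : V) - z₁ := by
    rw [hs₁, siegel_apply, polar_neg_right, hC.zn _ h1 _ u₂.2, polar_neg_left, polar_neg_right,
      hu12]
    module
  have g3 : polar Q z₂ (-(u₂ : V) - z₁) = 0 := by
    rw [← g1, ← g2, polar_map s₁O]
    exact hu₂
  have g4 : s₁ * s₂ * s₁⁻¹ = siegel Q z₂ (-(u₂ : V) - z₁) hz₂ g3 := by
    have hz₂' : Q (s₁ z₂) = 0 := by rw [g1]; exact hz₂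
    have hw' : polar Q (s₁ z₂) (s₁ (-(u₂ : V))) = 0 := by rw [polar_map s₁O]; exact hu₂
    rw [hs₂, siegel_conj s₁O hz₂ hu₂ hz₂' hw']
    congr 1
  have g5 : s₂⁻¹ = siegel Q z₂ (-(-(u₂ : V))) hz₂ (by rw [polar_neg_right, hu₂, neg_zero]) :=
    siegel_inv hz₂ hu₂ _
  have g6 : polar Q z₂ (-(-(u₂ : V)) + (-(u₂ : V) - z₁)) = 0 := by
    rw [polar_add_right, g3, polar_neg_right, hu₂]; simp
  rw [g4, g5, siegel_mul hz₂ _ g3 g6] at hmem
  have g7 : Has Q H z₂ (-(-(u₂ : V)) + (-(u₂ : V) - z₁)) := ⟨hz₂, g6, hmem⟩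
  have g8 : Has Q H z₂ (-z₁) := g7.congr rfl (by abel)
  have g9 := g8.neg
  exact g9.congr rfl (neg_neg _)

/-- `H` contains the Siegel transformations attached to `Z × N`. -/
theorem Conf.has_zn (hC : Conf Q H Z N) (h : ∀ (u : N) (z : Z), Phi H (r1 Q u z)) {z : V}
    (hz : z ∈ Z) (u : N) : Has Q H z (u : V) := by
  have hG := hC.good
  have key : ∀ (u₀ : N) (g : N ≃ₗ[F] N), g ∈ E (res Q N) → Has Q H z ((u₀ : V) - (g u₀ : V)) := by
    intro u₀ g hg
    obtain ⟨c, t, hQz, hu₀, hc, cZ, tO, tZ, tN, e⟩ := hC.decomp (h u₀ ⟨z, hz⟩)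
    change Q z = 0 at hQz
    obtain ⟨k, hk, kZ, kN⟩ := hC.lift hg
    set s := siegel Q z (-(u₀ : V)) hQz hu₀ with hs
    have kO : k ∈ O Q := hC.hHO hk
    have k1 : k * t = t * k := hC.central tO kO tZ tN kZ
    have e1 : k * c * k⁻¹ * c⁻¹ = k * s * k⁻¹ * s⁻¹ := by
      have k2 : t * k⁻¹ = k⁻¹ * t := ((show Commute k t from k1).inv_left).symm
      rw [e, mul_inv_rev]
      calc k * (s * t) * k⁻¹ * (t⁻¹ * s⁻¹) = k * s * (t * k⁻¹) * t⁻¹ * s⁻¹ := by group
        _ = k * s * k⁻¹ * s⁻¹ := by rw [k2]; group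
    have hmem : k * s * k⁻¹ * s⁻¹ ∈ H := by
      rw [← e1]
      exact H.mul_mem (H.mul_mem (H.mul_mem hk hc) (H.inv_mem hk)) (H.inv_mem hc)
    have g1 : k z = z := kZ z hz
    have g3 : polar Q z (k (-(u₀ : V))) = 0 := by
      nth_rewrite 1 [← g1]
      rw [polar_map kO]
      exact hu₀
    have g4 : k * s * k⁻¹ = siegel Q z (k (-(u₀ : V))) hQz g3 := by
      have hz' : Q (k z) = 0 := by rw [g1]; exact hQz
      have hw' : polar Q (k z) (k (-(u₀ : V))) = 0 := by rw [g1]; exact g3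
      rw [hs, siegel_conj kO hQz hu₀ hz' hw']
      congr 1
    have g5 : s⁻¹ = siegel Q z (-(-(u₀ : V))) hQz (by rw [polar_neg_right, hu₀, neg_zero]) :=
      siegel_inv hQz hu₀ _
    have g6 : polar Q z (k (-(u₀ : V)) + -(-(u₀ : V))) = 0 := by
      rw [polar_add_right, g3, polar_neg_right, hu₀]; simp
    rw [g4, g5, siegel_mul hQz g3 _ g6] at hmem
    have g7 : Has Q H z (k (-(u₀ : V)) + -(-(u₀ : V))) := ⟨hQz, g6, hmem⟩
    have g8 : Has Q H z (k (u₀ : V) - (g u₀ : V)) := hC.has_zz h (kN u₀) hz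
    exact (g7.add g8).congr rfl (by rw [map_neg]; abel)
  -- singular vectors
  have hsing : ∀ a : N, res Q N a = 0 → Has Q H z (a : V) := by
    intro a ha
    by_cases ha0 : a = 0
    · subst ha0
      exact has_zero (hC.sing z hz)
    · obtain ⟨a', hyp⟩ := Cfsg.Agent.LieClassical.OrthTrans.exists_hyp hG.nondeg ha ha0
      obtain ⟨w, w', hw, haw, haw', -, -⟩ := hG.exists_hyp2 hyp
      have h1 := key w _ (siegel_mem_E ha haw')
      refine h1.congr rfl ?_
      rw [siegel_apply, haw, hw.pair']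
      simp
  obtain ⟨x, y, hyp⟩ := hG.exists_hyp
  refine sing_induction hyp (P := fun u : N => Has Q H z (u : V)) ?_ hsing u
  intro a c ha hc
  exact ha.add hc

/-- **All the Siegel transformations attached to `Z × Z^⊥`.** -/
theorem Conf.has_perp (hC : Conf Q H Z N) (h : ∀ (u : N) (z : Z), Phi H (r1 Q u z)) {z x : V}
    (hz : z ∈ Z) (hx : ∀ z ∈ Z, polar Q z x = 0) : Has Q H z x := by
  obtain ⟨z', hz', n, hn, rfl⟩ := hC.dec x hx
  exact (hC.has_zz h hz' hz).add (hC.has_zn h hz ⟨n, hn⟩)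

end Cfsg.Agent.H925.Ext
end

-- part: H925/ExtCore
section
/-!
# Overgroups of `Ω(V, QK)` in `Ω(V, τ ∘ QK)`, IV: the core

If `H ≥ E QK` (as a group of `F`-linear maps) has a further point `Y` meeting a `K`-line `X` in a hyperplane
and not orthogonal to `X`, then `H ≥ E Q`.
-/

set_option autoImplicit false
set_option linter.unusedSectionVars false

namespace Cfsg.Agent.H925.Ext

open QuadraticMap Cfsg.Agent.LieClassical.OrthCore Cfsg.Agent.LieClassical.OrthTrans
  Cfsg.Agent.H883.Root Cfsg.Agent.H883.Sub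

variable {F K V : Type*} [Field F] [Field K] [Algebra F K] [AddCommGroup V]
  [Module F V] [Module K V] [IsScalarTower F K V]

variable {τ : K →ₗ[F] F} {QK : QuadraticForm K V} {Q : QuadraticForm F V}
  {H : Subgroup (V ≃ₗ[F] V)}

/-- The hypotheses on the group and the forms. -/
structure Setup (τ : K →ₗ[F] F) (QK : QuadraticForm K V) (Q : QuadraticForm F V)
    (H : Subgroup (V ≃ₗ[F] V)) : Prop where
  tr : Tr τ QK Q
  nondeg : Nondeg QK
  hHO : H ≤ O Q
  hE : ∀ g ∈ E QK, (rs g : V ≃ₗ[F] V) ∈ H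
  /-- transitivity on singular vectors up to `F`-scalars -/
  trans : ∀ v v' : V, QK v = 0 → QK v' = 0 → v ≠ 0 → v' ≠ 0 → ∃ g ∈ O QK,
    (rs g : V ≃ₗ[F] V) ∈ H ∧ ∃ c : F, c ≠ 0 ∧ g v = c • v'
  /-- the values of `QK` on `v^⊥` -/
  vals : ∀ v : V, QK v = 0 → v ≠ 0 → ∀ κ : K, τ κ = 0 → κ ∈ Submodule.span F
    {κ' : K | ∃ y : V, polar QK v y = 0 ∧ y ∉ line F K v ∧ QK y = κ' ∧ τ κ' = 0}
  sing : ∃ v : V, v ≠ 0 ∧ QK v = 0
  deg : 2 ≤ Module.finrank F K
  dim : 2 * Module.finrank F K + 3 ≤ Module.finrank F V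

theorem line_sing (h : Tr τ QK Q) {v : V} (hv : QK v = 0) : ∀ x ∈ line F K v, Q x = 0 := by
  intro x hx
  obtain ⟨k, rfl⟩ := mem_line.1 hx
  rw [h.eq, QuadraticMap.map_smul, hv, smul_zero, map_zero]

theorem finrank_line [FiniteDimensional F K] {v : V} (hv : v ≠ 0) :
    Module.finrank F (line F K v) = Module.finrank F K := by
  have h1 : Module.finrank K (Submodule.span K {v}) = 1 := finrank_span_singleton hv
  have h2 : Module.finrank F (Submodule.span K {v}) = Module.finrank F (line F K v) := rfl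
  rw [← h2, ← Module.finrank_mul_finrank F K (Submodule.span K {v}), h1, mul_one]

section Core

variable [Finite F] [FiniteDimensional F V] [FiniteDimensional F K]

theorem Setup.phi_mem (hS : Setup τ QK Q H) (h2 : (2 : F) ≠ 0) {v : V} (hv : QK v = 0)
    (hv0 : v ≠ 0) {Z N : Submodule F V} (hZX : Z ≤ line F K v) {a : V} (ha : a ∈ line F K v)
    (haZ : a ∉ Z) (haN : a ∈ N) (hsp : ∀ x ∈ line F K v, ∃ c : F, x - c • a ∈ Z)
    (hC : Conf Q H Z N) (u : N) (z : Z) : Phi H (r1 Q u z) := by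
  have hT := hS.tr
  obtain ⟨δ, hδ0, hδ⟩ := exists_delta_line hT.ne ha haZ hsp
  obtain ⟨s₁, hs₁⟩ := mem_line.1 ha
  have hs₁δ : τ (s₁ * δ) = 1 := by
    subst hs₁
    exact tau_delta haZ hδ
  have hQa : Q a = 0 := line_sing hT hv a ha
  have ha0 : (⟨a, haN⟩ : N) ≠ 0 := by
    intro h
    apply haZ
    rw [show a = 0 from congrArg Subtype.val h]
    exact Z.zero_mem
  -- the elements of `Z`
  have hZmem : ∀ k : K, k • v ∈ Z ↔ τ (k * δ) = 0 := by
    intro k
    constructor
    · intro hk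
      by_contra hne
      apply haZ
      have h1 := Z.sub_mem hk (hδ k)
      rw [sub_sub_cancel] at h1
      have := Z.smul_mem (τ (k * δ))⁻¹ h1
      rwa [smul_smul, inv_mul_cancel₀ hne, one_smul] at this
    · intro hk
      have := hδ k
      rwa [hk, zero_smul, sub_zero] at this
  -- the basic elements
  have key : ∀ y : V, polar QK v y = 0 → y ∉ line F K v → τ (QK y) = 0 →
      ∀ (z : Z), (z : V) = (δ⁻¹ * QK y) • v → ∀ u : N, Phi H (r1 Q u z) := by
    intro y hvy hy hQy z hz u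
    have hQy' : Q y = 0 := by rw [hT.eq, hQy]
    have hXy : ∀ x ∈ line F K v, polar Q x y = 0 := by
      intro x hx
      obtain ⟨k, rfl⟩ := mem_line.1 hx
      rw [hT.pol, polar_smul_left, hvy, smul_zero, map_zero]
    have hay : polar Q a y = 0 := hXy a ha
    obtain ⟨zy, hzy, n, hn, e⟩ := hC.dec y fun z hz => hXy z (hZX hz)
    have hQn : Q n = 0 := by
      have h1 : Q (zy + n) = Q zy + Q n + polar Q zy n := QuadraticMap.map_add Q zy n
      rw [← e, hQy', hC.sing zy hzy, hC.zn zy hzy n hn] at h1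
      simpa using h1.symm
    have hn0 : (⟨n, hn⟩ : N) ≠ 0 := by
      intro h
      apply hy
      rw [e, show n = 0 from congrArg Subtype.val h, add_zero]
      exact hZX hzy
    -- move `a` to `n`
    obtain ⟨g, hg, hga⟩ := hC.good.trans_sing (x := ⟨a, haN⟩) (x' := ⟨n, hn⟩) hQa hQn ha0 hn0
    obtain ⟨k, hk, kZ, kN⟩ := hC.lift hg
    have hkO := hC.hHO hk
    have hka : k a - n ∈ Z := by
      have := kN ⟨a, haN⟩
      rwa [hga] at this
    have hX2 : IsPt Q H ((line F K v).map (k : V →ₗ[F] V)) := (isPt_line hT hS.hE hv).map hkO hk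
    have hZX2 : Z ≤ (line F K v).map (k : V →ₗ[F] V) := fun z hz => ⟨z, hZX hz, kZ z hz⟩
    have hyX2 : y ∈ (line F K v).map (k : V →ₗ[F] V) := by
      refine ⟨a + (zy - (k a - n)), (line F K v).add_mem ha (hZX (Z.sub_mem hzy hka)), ?_⟩
      show k (a + (zy - (k a - n))) = y
      rw [map_add, kZ _ (Z.sub_mem hzy hka), e]
      abel
    have hyZ : y ∉ Z := fun h => hy (hZX h)
    have hsp2 : ∀ x ∈ (line F K v).map (k : V →ₗ[F] V), ∃ c : F, x - c • y ∈ Z := by
      rintro _ ⟨x, hx, rfl⟩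
      obtain ⟨c, hc⟩ := hsp x hx
      refine ⟨c, ?_⟩
      have h1 : k (x - c • a) ∈ Z := by rw [kZ _ hc]; exact hc
      rw [map_sub, map_smul] at h1
      have e3 : k x - c • y = (k x - c • k a) + c • (k a - n) - c • zy := by
        rw [e]; module
      show k x - c • y ∈ Z
      rw [e3]
      exact Z.sub_mem (Z.add_mem h1 (Z.smul_mem _ hka)) (Z.smul_mem _ hzy)
    obtain ⟨h₂, hh₂, h₂X, h₂Z⟩ := hX2 Z y (-a) hZX2 hyX2 hyZ hsp2 (by
      intro x hx
      obtain ⟨c, hc⟩ := hsp2 x hx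
      have e3 : x = (x - c • y) + c • y := by abel
      rw [polar_neg_right, e3, polar_add_left, hC.zn _ hc a haN, polar_smul_left,
        polar_comm Q y a, hay]
      simp)
    have hvy' : polar QK v (δ⁻¹ • y) = 0 := by rw [polar_smul_right, hvy, smul_zero]
    set h₁ : V ≃ₗ[F] V := rs (siegel QK v (δ⁻¹ • y) hv hvy') with hh₁def
    have hh₁ : h₁ ∈ H := hS.hE _ (siegel_mem_E _ _)
    have h₁X : ∀ x ∈ line F K v, h₁ x = x := fun x hx => siegel_fix_line hv hvy' hx
    have h₁Z : ∀ x, (∀ z ∈ Z, polar Q z x = 0) → h₁ x - siegelLin Q a y x ∈ Z :=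
      fun x hx => siegel_line hT hv ha hδ0 hδ hvy' hx
    have hc : h₁ * h₂⁻¹ ∈ H := H.mul_mem hh₁ (H.inv_mem hh₂)
    have h₂inv : ∀ z ∈ Z, h₂⁻¹ z = z := fun z hz => inv_fix (h₂X z (hZX2 hz))
    have hdiff : ∀ x : V, (∀ z ∈ Z, polar Q z x = 0) → (h₁ * h₂⁻¹) x - x ∈ Z := by
      intro x hx
      set x' := h₂⁻¹ x with hx'
      have hx'2 : h₂ x' = x := LinearEquiv.apply_symm_apply h₂ x
      have hx'3 : ∀ z ∈ Z, polar Q z x' = 0 := by
        intro z hz
        rw [← h₂inv z hz, hx', polar_map ((O Q).inv_mem (hC.hHO hh₂))]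
        exact hx z hz
      have h5 := h₁Z x' hx'3
      have h6 := h₂Z x' hx'3
      have e5 : siegelLin Q y (-a) x' = siegelLin Q a y x' := by
        rw [siegelLin_apply, siegelLin_apply, hQy', QuadraticMap.map_neg, hQa, polar_neg_left]
        simp only [zero_mul, zero_smul]
        module
      rw [e5, hx'2] at h6
      have := Z.sub_mem h5 h6
      rw [sub_sub_sub_cancel_right] at this
      exact this
    have hcy : (h₁ * h₂⁻¹) y = y - (2 * (δ⁻¹ * QK y)) • v := by
      show h₁ (h₂⁻¹ y) = _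
      rw [inv_fix (h₂X y hyX2), hh₁def, rs_apply, siegel_apply, hvy, polar_smul_left,
        polar_self', smul_eq_mul]
      rw [zero_smul, mul_zero, zero_smul, sub_zero, add_zero]
      congr 2
      ring
    -- the linear map
    let φ : N →ₗ[F] Z := LinearMap.codRestrict Z
      (((h₁ * h₂⁻¹ : V ≃ₗ[F] V) : V →ₗ[F] V) ∘ₗ N.subtype - N.subtype) (fun x =>
        hdiff x fun z hz => hC.zn z hz x x.2)
    have hφ : Phi H φ := by
      refine ⟨h₁ * h₂⁻¹, hc, fun z hz => ?_, fun x => ?_⟩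
      · show h₁ (h₂⁻¹ z) = z
        rw [h₂inv z hz, h₁X z (hZX hz)]
      · show (h₁ * h₂⁻¹) (x : V) = x + ((h₁ * h₂⁻¹) (x : V) - x)
        abel
    have hφn : φ ⟨n, hn⟩ = (-2 : F) • z := by
      apply Subtype.ext
      show (h₁ * h₂⁻¹) n - n = (-2 : F) • (z : V)
      have e6 : n = y - zy := by rw [e]; abel
      have e7 : (h₁ * h₂⁻¹) zy = zy := by
        show h₁ (h₂⁻¹ zy) = zy
        rw [h₂inv zy hzy, h₁X zy (hZX hzy)]
      rw [e6, map_sub, hcy, e7, hz, mul_smul]
      have e8 : (2 : K) • (δ⁻¹ * QK y) • v = (2 : F) • (δ⁻¹ * QK y) • v := by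
        rw [two_smul, two_smul]
      rw [e8]
      module
    have h7 := hC.phi_r1 hφ (y := ⟨n, hn⟩) hQn hn0 ((-2 : F)⁻¹ • u)
    rw [hφn] at h7
    have e9 : r1 Q ((-2 : F)⁻¹ • u) ((-2 : F) • z) = r1 Q u z := by
      ext x
      rw [r1_apply, r1_apply, polar_smul_left, smul_smul, smul_eq_mul]
      congr 2
      field_simp
    rwa [e9] at h7
  -- the span
  have hspan : ∀ κ : K, κ ∈ Submodule.span F
      {κ' : K | ∃ y : V, polar QK v y = 0 ∧ y ∉ line F K v ∧ QK y = κ' ∧ τ κ' = 0} →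
      τ κ = 0 ∧ ∀ z : Z, (z : V) = (δ⁻¹ * κ) • v → ∀ u : N, Phi H (r1 Q u z) := by
    intro κ hκ
    induction hκ using Submodule.span_induction with
    | mem κ hκ =>
      obtain ⟨y, hy1, hy2, rfl, hy3⟩ := hκ
      exact ⟨hy3, key y hy1 hy2 hy3⟩
    | zero =>
      refine ⟨map_zero τ, fun z hz u => ?_⟩
      have hz0 : z = 0 := by
        apply Subtype.ext
        rw [hz, mul_zero, zero_smul]
        rfl
      subst hz0
      have : r1 Q u (0 : Z) = 0 := by
        ext x
        rw [r1_apply, smul_zero]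
        rfl
      rw [this]
      exact Phi.zero
    | add κ κ' _ _ ih ih' =>
      obtain ⟨h1, h2⟩ := ih
      obtain ⟨h3, h4⟩ := ih'
      refine ⟨by rw [map_add, h1, h3, add_zero], fun z hz u => ?_⟩
      have m1 : (δ⁻¹ * κ) • v ∈ Z := (hZmem _).2 (by
        rw [mul_comm δ⁻¹, mul_assoc, inv_mul_cancel₀ hδ0, mul_one]; exact h1)
      have m2 : (δ⁻¹ * κ') • v ∈ Z := (hZmem _).2 (by
        rw [mul_comm δ⁻¹, mul_assoc, inv_mul_cancel₀ hδ0, mul_one]; exact h3)
      have ez : z = ⟨_, m1⟩ + ⟨_, m2⟩ := by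
        apply Subtype.ext
        rw [hz, Submodule.coe_add, mul_add, add_smul]
      have e : r1 Q u z = r1 Q u (⟨_, m1⟩ : Z) + r1 Q u (⟨_, m2⟩ : Z) := by
        rw [ez]
        ext x
        rw [LinearMap.add_apply, r1_apply, r1_apply, r1_apply, smul_add]
      rw [e]
      exact (h2 _ rfl u).add (h4 _ rfl u)
    | smul c κ _ ih =>
      obtain ⟨h1, h2⟩ := ih
      refine ⟨by rw [map_smul, h1, smul_zero], fun z hz u => ?_⟩
      have m1 : (δ⁻¹ * κ) • v ∈ Z := (hZmem _).2 (by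
        rw [mul_comm δ⁻¹, mul_assoc, inv_mul_cancel₀ hδ0, mul_one]; exact h1)
      have ez : z = c • (⟨_, m1⟩ : Z) := by
        apply Subtype.ext
        rw [hz, Submodule.coe_smul, mul_smul_comm, smul_assoc]
      have e : r1 Q u z = r1 Q (c • u) (⟨_, m1⟩ : Z) := by
        rw [ez]
        ext x
        rw [r1_apply, r1_apply, polar_smul_left, smul_smul, smul_eq_mul, mul_comm]
      rw [e]
      exact h2 _ rfl _
  obtain ⟨k, hk⟩ := mem_line.1 (hZX z.2)
  have hk' : τ (k * δ) = 0 := (hZmem k).1 (by rw [hk]; exact z.2)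
  exact (hspan (k * δ) (hS.vals v hv hv0 _ hk')).2 z
    (by rw [← hk, mul_comm k δ, ← mul_assoc, inv_mul_cancel₀ hδ0, one_mul]) u

/-- **Core theorem.** -/
theorem Setup.core (hS : Setup τ QK Q H) (h2 : (2 : F) ≠ 0) (hG : Good Q) {v : V}
    (hv : QK v = 0) (hv0 : v ≠ 0) {Y Z : Submodule F V} (hY : IsPt Q H Y)
    (hYs : ∀ x ∈ Y, Q x = 0) (hZX : Z ≤ line F K v) (hZY : Z ≤ Y) {a b : V}
    (ha : a ∈ line F K v) (hb : b ∈ Y) (hspa : ∀ x ∈ line F K v, ∃ c : F, x - c • a ∈ Z)
    (hspb : ∀ x ∈ Y, ∃ c : F, x - c • b ∈ Z) (hab : polar Q a b ≠ 0) : E Q ≤ H := by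
  have hT := hS.tr
  have hXs := line_sing hT hv
  have haZ : a ∉ Z := fun h => hab (polar_zero_of_ts hYs (hZY h) hb)
  have hZlt : Z < line F K v := lt_of_le_of_ne hZX (fun e => haZ (e ▸ ha))
  have hZfin : Module.finrank F Z < Module.finrank F K := by
    rw [← finrank_line (F := F) (K := K) hv0]
    exact Submodule.finrank_lt_finrank_of_lt hZlt
  have hdim := hS.dim
  obtain ⟨N, haN, hbN, hC⟩ := exists_conf (hT.nondeg hS.nondeg) hS.hHO
    (isPt_line hT hS.hE hv) hY hXs hYs hZX hZY ha hb hspa hspb hab (by omega)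
  have hphi := hS.phi_mem h2 hv hv0 hZX ha haZ haN hspa hC
  have hperp : ∀ z ∈ Z, ∀ x, (∀ z ∈ Z, polar Q z x = 0) → Has Q H z x :=
    fun z hz x hx => hC.has_perp hphi hz hx
  obtain ⟨δ, hδ0, hδ⟩ := exists_delta_line hT.ne ha haZ hspa
  have hZmem : ∀ k : K, τ (k * δ) = 0 → k • v ∈ Z := by
    intro k hk
    have := hδ k
    rwa [hk, zero_smul, sub_zero] at this
  have hZmem' : ∀ z ∈ Z, ∃ k : K, τ (k * δ) = 0 ∧ k • v = z := by
    intro z hz
    obtain ⟨k, hk⟩ := mem_line.1 (hZX hz)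
    refine ⟨k, ?_, hk⟩
    by_contra hne
    apply haZ
    have h1 := Z.sub_mem (hk ▸ hz) (hδ k)
    rw [sub_sub_cancel] at h1
    have := Z.smul_mem (τ (k * δ))⁻¹ h1
    rwa [smul_smul, inv_mul_cancel₀ hne, one_smul] at this
  -- `v` is full
  have hfull : Full Q H v := by
    refine ⟨hXs v (self_mem_line v), fun x hx => ?_⟩
    obtain ⟨μ, hμ0, hμ, hβ⟩ : ∃ μ : K, μ ≠ 0 ∧ τ μ = 0 ∧ ∃ c : F, polar QK v x = c • μ := by
      by_cases hβ : polar QK v x = 0
      · have hker : LinearMap.ker τ ≠ ⊥ := by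
          apply LinearMap.ker_ne_bot_of_finrank_lt
          rw [Module.finrank_self]
          exact lt_of_lt_of_le one_lt_two hS.deg
        obtain ⟨μ, hμ, hμ0⟩ := Submodule.exists_mem_ne_zero_of_ne_bot hker
        exact ⟨μ, hμ0, hμ, 0, by rw [hβ, zero_smul]⟩
      · refine ⟨polar QK v x, hβ, ?_, 1, by rw [one_smul]⟩
        rw [← hT.pol]
        exact hx
    obtain ⟨c', hc'⟩ := hβ
    have hlv : QK ((δ * μ⁻¹) • v) = 0 := by rw [QuadraticMap.map_smul, hv, smul_zero]
    have hl0 : (δ * μ⁻¹) • v ≠ 0 := smul_ne_zero (mul_ne_zero hδ0 (inv_ne_zero hμ0)) hv0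
    obtain ⟨g, hg, hgH, c, hc0, hgv⟩ := hS.trans v _ hv hlv hv0 hl0
    have hgO : rs g ∈ O Q := hS.hHO hgH
    have hg1 : ∀ x, g (g⁻¹ x) = x := fun x => LinearEquiv.apply_symm_apply g x
    have hg2 : g⁻¹ v = (c⁻¹ • (μ * δ⁻¹)) • v := by
      apply g.injective
      rw [hg1, map_smul, hgv, smul_comm c, smul_smul]
      have e1 : c⁻¹ • (μ * δ⁻¹) * (δ * μ⁻¹) = c⁻¹ • (1 : K) := by
        rw [smul_mul_assoc]
        congr 1
        field_simp
      rw [e1, smul_assoc, one_smul, smul_smul, inv_mul_cancel₀ hc0, one_smul]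
    have h1 : g⁻¹ v ∈ Z := by
      rw [hg2]
      apply hZmem
      rw [smul_mul_assoc, mul_assoc, inv_mul_cancel₀ hδ0, mul_one, map_smul, hμ, smul_zero]
    have h3 : ∀ z ∈ Z, polar Q z (g⁻¹ x) = 0 := by
      intro z hz
      obtain ⟨k, hk, rfl⟩ := hZmem' z hz
      rw [hT.pol, polar_smul_left]
      have e2 : polar QK v (g⁻¹ x) = polar QK (g v) x := by
        rw [← polar_map hg, hg1]
      rw [e2, hgv]
      have e3 : polar QK (c • (δ * μ⁻¹) • v) x = c • ((δ * μ⁻¹) * (c' • μ)) := by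
        rw [← algebraMap_smul K c ((δ * μ⁻¹) • v), polar_smul_left, polar_smul_left, hc',
          smul_eq_mul, smul_eq_mul, Algebra.smul_def c]
      rw [e3]
      have e4 : k • (c • ((δ * μ⁻¹) * (c' • μ))) = (c * c') • (k * δ) := by
        rw [smul_eq_mul, mul_smul_comm, mul_smul_comm, mul_smul_comm, smul_smul]
        congr 1
        field_simp
      rw [e4, map_smul, hk, smul_zero]
    have h4 := (hperp _ h1 _ h3).map hgO hgH
    refine h4.congr ?_ ?_
    · exact hg1 v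
    · exact hg1 x
  -- another full vector
  obtain ⟨v', hyp⟩ := Cfsg.Agent.LieClassical.OrthTrans.exists_hyp hS.nondeg hv hv0
  obtain ⟨κ, hκ⟩ := exists_tau_eq hT.ne 1
  have hκ0 : κ ≠ 0 := by
    rintro rfl
    rw [map_zero] at hκ
    exact zero_ne_one hκ
  have hv'0 : κ • v' ≠ 0 := smul_ne_zero hκ0 hyp.right_ne
  have hv' : QK (κ • v') = 0 := by rw [QuadraticMap.map_smul, hyp.right, smul_zero]
  obtain ⟨g, hg, hgH, c, hc0, hgv⟩ := hS.trans v _ hv hv' hv0 hv'0
  have hfull' := hfull.map (hS.hHO hgH) hgH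
  refine E_le_of_full_pair hG hfull hfull' ?_
  rw [rs_apply, hgv, polar_smul_right, hT.pol, polar_smul_right, hyp.pair, smul_eq_mul,
    smul_eq_mul, mul_one, hκ, mul_one]
  exact hc0

end Core

end Cfsg.Agent.H925.Ext
end

-- part: H925/ExtNorm
section
/-!
# Overgroups of `Ω(V, QK)` in `Ω(V, τ ∘ QK)`, V: normalising `K`

* `selfadj_scalar` : an `F`-linear self-adjoint map preserving all singular `K`-lines is the multiplication
  by an element of `K`;
* `exists_not_line` : an isometry which does not normalise `K` maps some singular `K`-line to an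
  `F`-subspace which is not a `K`-line.
-/

set_option autoImplicit false
set_option linter.unusedSectionVars false

namespace Cfsg.Agent.H925.Ext

open QuadraticMap Cfsg.Agent.LieClassical.OrthCore Cfsg.Agent.LieClassical.OrthTrans
  Cfsg.Agent.H883.Root Cfsg.Agent.H883.Sub

variable {F K V : Type*} [Field F] [Field K] [Algebra F K] [AddCommGroup V]
  [Module F V] [Module K V] [IsScalarTower F K V]

variable {τ : K →ₗ[F] F} {QK : QuadraticForm K V} {Q : QuadraticForm F V}

theorem exists_perp_nonsing (hQ : Nondeg QK) (hd : 3 ≤ Module.finrank K V) {u v : V}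
    (hyp : Hyp QK u v) : ∃ w, polar QK u w = 0 ∧ polar QK v w = 0 ∧ QK w ≠ 0 := by
  obtain ⟨a, c, h1, h2, h3, h4, h5⟩ := exists_perp2 hQ hd hyp
  rcases exists_nonsing h5 with h | h | h
  · exact ⟨a, h1, h2, h⟩
  · exact ⟨c, h3, h4, h⟩
  · exact ⟨a + c, by rw [polar_add_right, h1, h3, add_zero], by rw [polar_add_right, h2, h4, add_zero],
      h⟩

theorem selfadj_pair (h : Tr τ QK Q) (hQ : Nondeg QK) (hd : 3 ≤ Module.finrank K V)
    (h2 : (2 : K) ≠ 0) {T : V →ₗ[F] V} (hT : ∀ x y, polar Q (T x) y = polar Q x (T y))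
    (hs : ∀ v, QK v = 0 → ∃ k : K, T v = k • v) {u v : V} (hyp : Hyp QK u v) :
    ∃ c : K, ∀ t : K, T (t • u) = (c * t) • u ∧ T (t • v) = (c * t) • v := by
  have hsu : ∀ t : K, ∃ γ : K, T (t • u) = γ • u := by
    intro t
    obtain ⟨k, hk⟩ := hs (t • u) (by rw [QuadraticMap.map_smul, hyp.left, smul_zero])
    exact ⟨k * t, by rw [hk, mul_smul]⟩
  have hsv : ∀ t : K, ∃ γ : K, T (t • v) = γ • v := by
    intro t
    obtain ⟨k, hk⟩ := hs (t • v) (by rw [QuadraticMap.map_smul, hyp.right, smul_zero])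
    exact ⟨k * t, by rw [hk, mul_smul]⟩
  choose γ hγ using hsu
  choose δ hδ using hsv
  have hδadd : ∀ a b : K, δ (a + b) = δ a + δ b := by
    intro a b
    have h1 : (δ (a + b)) • v = (δ a + δ b) • v := by
      rw [← hδ, add_smul, map_add, hδ, hδ, add_smul]
    exact smul_left_injective K hyp.right_ne h1
  obtain ⟨w₀, hw1, hw2, hw0⟩ := exists_perp_nonsing hQ hd hyp
  set c₀ := QK w₀ with hc₀
  -- the identity for `q = c₀ θ²`
  have key : ∀ θ t : K, τ (δ (c₀ * (θ * θ) * t)) = τ (γ t * (c₀ * (θ * θ))) := by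
    intro θ t
    set q := c₀ * (θ * θ) with hq
    have hw1' : polar QK u (θ • w₀) = 0 := by rw [polar_smul_right, hw1, smul_zero]
    have hw2' : polar QK v (θ • w₀) = 0 := by rw [polar_smul_right, hw2, smul_zero]
    have hqw : QK (θ • w₀) = q := by rw [QuadraticMap.map_smul, smul_eq_mul, hq]; ring
    have hz : QK (u + θ • w₀ - q • v) = 0 := by
      rw [← hqw]
      exact sing_vec hyp hw1' hw2'
    set z := u + θ • w₀ - q • v with hzdef
    have huz : polar QK u z = -q := by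
      rw [hzdef, polar_sub_right, polar_add_right, hyp.polar_left, hw1', polar_smul_right, hyp.pair]
      simp
    have hvz : polar QK v z = 1 := by
      rw [hzdef, polar_sub_right, polar_add_right, hyp.pair', hw2', polar_smul_right,
        hyp.polar_right]
      simp
    obtain ⟨k, hk⟩ := hs z hz
    have h3 : polar Q (T (t • u + (q * t) • v)) z = 0 := by
      rw [hT, hk, h.pol, polar_smul_right, polar_add_left, polar_smul_left, polar_smul_left, huz,
        hvz]
      have : k • (t • -q + (q * t) • (1 : K)) = 0 := by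
        simp only [smul_eq_mul]; ring
      rw [this, map_zero]
    rw [map_add, hγ, hδ, h.pol, polar_add_left, polar_smul_left, polar_smul_left, huz, hvz,
      smul_eq_mul, smul_eq_mul, mul_one, mul_neg, map_add, map_neg] at h3
    linear_combination h3
  have key2 : ∀ q t : K, τ (δ (q * t)) = τ (γ t * q) := by
    intro q t
    have h2F : (2 : F) ≠ 0 := by
      intro h0
      apply h2
      have := congrArg (algebraMap F K) h0
      rwa [map_ofNat, map_zero] at this
    set θ := q * c₀⁻¹ with hθ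
    have k1 := key (θ + 1) t
    have k2 := key θ t
    have k3 := key 1 t
    have e1 : c₀ * ((θ + 1) * (θ + 1)) * t = (c₀ * (θ * θ) * t + c₀ * (1 * 1) * t) +
        (q * t + q * t) := by
      rw [hθ]; field_simp; ring
    have e2 : γ t * (c₀ * ((θ + 1) * (θ + 1))) = (γ t * (c₀ * (θ * θ)) + γ t * (c₀ * (1 * 1))) +
        (γ t * q + γ t * q) := by
      rw [hθ]; field_simp; ring
    rw [e1, e2, hδadd, hδadd, hδadd (q * t)] at k1
    simp only [map_add] at k1
    rw [k2, k3] at k1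
    have k4 : (2 : F) * τ (δ (q * t)) = 2 * τ (γ t * q) := by linear_combination k1
    exact mul_left_cancel₀ h2F k4
  refine ⟨γ 1, fun t => ?_⟩
  have hγt : ∀ t, γ t = γ 1 * t := by
    intro t
    apply tau_ext' h.ne
    intro k
    have k1 := key2 k t
    have k2 := key2 (k * t) 1
    rw [mul_one] at k2
    rw [mul_comm k (γ t), ← k1, k2]
    congr 1
    ring
  have hδt : δ t = γ 1 * t := by
    apply tau_ext' h.ne
    intro k
    have h3 := hT (k • u) (t • v)
    rw [hγ, hδ, h.pol, h.pol, polar_smul_left, polar_smul_right, polar_smul_left, polar_smul_right,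
      hyp.pair] at h3
    simp only [smul_eq_mul, mul_one] at h3
    rw [← h3, hγt]
    congr 1
    ring
  exact ⟨by rw [hγ, hγt], by rw [hδ, hδt]⟩

/-- **Self-adjoint maps preserving the singular `K`-lines.** -/
theorem selfadj_scalar (h : Tr τ QK Q) (hQ : Nondeg QK) (hd : 3 ≤ Module.finrank K V)
    (h2 : (2 : K) ≠ 0) {T : V →ₗ[F] V} (hT : ∀ x y, polar Q (T x) y = polar Q x (T y))
    (hs : ∀ v, QK v = 0 → ∃ k : K, T v = k • v) {u v : V} (hyp : Hyp QK u v) :
    ∃ c : K, ∀ x, T x = c • x := by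
  obtain ⟨c, hc⟩ := selfadj_pair h hQ hd h2 hT hs hyp
  have hcu : T u = c • u := by
    have := (hc 1).1
    rwa [one_smul, mul_one] at this
  have hcv : T v = c • v := by
    have := (hc 1).2
    rwa [one_smul, mul_one] at this
  -- a vector not orthogonal to a vector with the right eigenvalue
  have key : ∀ a z : V, QK a = 0 → T a = c • a → QK z = 0 → polar QK a z ≠ 0 → T z = c • z := by
    intro a z ha hTa hz haz
    have hyp' : Hyp QK a ((polar QK a z)⁻¹ • z) :=
      ⟨ha, by rw [QuadraticMap.map_smul, hz, smul_zero],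
        by rw [polar_smul_right, smul_eq_mul, inv_mul_cancel₀ haz]⟩
    obtain ⟨c', hc'⟩ := selfadj_pair h hQ hd h2 hT hs hyp'
    have e1 : c' = c := by
      have h3 := (hc' 1).1
      rw [one_smul, mul_one, hTa] at h3
      exact (smul_left_injective K hyp'.left_ne h3).symm
    have h4 := (hc' (polar QK a z)).2
    rwa [smul_smul, mul_inv_cancel₀ haz, one_smul, smul_smul, mul_assoc, mul_inv_cancel₀ haz,
      mul_one, e1] at h4
  have hsing : ∀ z, QK z = 0 → T z = c • z := by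
    intro z hz
    by_cases h3 : polar QK u z = 0
    · by_cases h4 : polar QK v z = 0
      · have h5 : QK (u + z) = 0 := by rw [Q_add, hyp.left, hz, h3]; simp
        have h6 : polar QK v (u + z) ≠ 0 := by
          rw [polar_add_right, hyp.pair', h4, add_zero]
          exact one_ne_zero
        have h7 := key v (u + z) hyp.right hcv h5 h6
        rw [map_add, hcu, smul_add] at h7
        exact add_left_cancel h7
      · exact key v z hyp.right hcv hz h4
    · exact key u z hyp.left hcu hz h3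
  exact ⟨c, fun x => sing_induction hyp (P := fun x => T x = c • x)
    (fun a b ha hb => by rw [map_add, ha, hb, smul_add]) hsing x⟩

/-- `g` normalises `K`. -/
def NormK (K : Type*) {F V : Type*} [Field F] [Field K] [Algebra F K] [AddCommGroup V]
    [Module F V] [Module K V] (g : V ≃ₗ[F] V) : Prop :=
  ∀ k : K, ∃ c : K, ∀ x, g⁻¹ (k • g x) = c • x

/-- An isometry which does not normalise `K` moves some singular `K`-line to a subspace which is not a
`K`-line. -/
theorem exists_not_line [Finite K] (h : Tr τ QK Q) (hQ : Nondeg QK) (hd : 3 ≤ Module.finrank K V)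
    (h2 : (2 : K) ≠ 0) {u v : V} (hyp : Hyp QK u v) {g : V ≃ₗ[F] V} (hg : g ∈ O Q)
    (hgK : ¬ NormK K g) : ∃ (v : V) (k : K), QK v = 0 ∧ v ≠ 0 ∧ g (k • v) ∉ line F K (g v) := by
  by_contra hcon
  push Not at hcon
  apply hgK
  intro k
  have hg1 : ∀ x, g (g⁻¹ x) = x := fun x => LinearEquiv.apply_symm_apply g x
  have hg2 : ∀ x, g⁻¹ (g x) = x := fun x => LinearEquiv.symm_apply_apply g x
  let T : V →ₗ[F] V :=
    { toFun := fun x => g⁻¹ (k • g x)
      map_add' := fun x y => by rw [map_add, smul_add, map_add]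
      map_smul' := fun c x => by
        show g⁻¹ (k • g (c • x)) = c • g⁻¹ (k • g x)
        rw [LinearEquiv.map_smul g, smul_comm k c (g x), LinearEquiv.map_smul] }
  have hTapp : ∀ x, T x = g⁻¹ (k • g x) := fun x => rfl
  have hTs : ∀ x y, polar Q (T x) y = polar Q x (T y) := by
    intro x y
    rw [hTapp, hTapp, ← polar_map hg, hg1, ← polar_map hg x, hg1, h.pol, h.pol, polar_smul_left,
      polar_smul_right]
  have hs : ∀ v, QK v = 0 → ∃ c : K, T v = c • v := by
    intro v hv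
    by_cases hv0 : v = 0
    · exact ⟨0, by rw [hv0, map_zero, smul_zero]⟩
    have hgv0 : g v ≠ 0 := fun h0 => hv0 (by rw [← hg2 v, h0, map_zero])
    have h3 : ∀ k : K, ∃ k' : K, k' • g v = g (k • v) := fun k => mem_line.1 (hcon v k hv hv0)
    choose f hf using h3
    have hinj : Function.Injective f := by
      intro a b hab
      have : g (a • v) = g (b • v) := by rw [← hf, ← hf, hab]
      exact smul_left_injective K hv0 (g.injective this)
    obtain ⟨c, hc⟩ := (Finite.injective_iff_surjective.1 hinj) k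
    refine ⟨c, ?_⟩
    rw [hTapp]
    apply g.injective
    rw [hg1, ← hf, hc]
  obtain ⟨c, hc⟩ := selfadj_scalar h hQ hd h2 hTs hs hyp
  exact ⟨c, hc⟩

end Cfsg.Agent.H925.Ext
end

-- part: H925/ExtAdj
section
/-!
# Overgroups of `Ω(V, QK)` in `Ω(V, τ ∘ QK)`, VI: points and adjacency

The points are the images under `H` of the singular `K`-lines.
-/

set_option autoImplicit false
set_option linter.unusedSectionVars false

namespace Cfsg.Agent.H925.Ext

open QuadraticMap Cfsg.Agent.LieClassical.OrthCore Cfsg.Agent.LieClassical.OrthTrans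
  Cfsg.Agent.LieClassical.OrthFinite Cfsg.Agent.H883.Root Cfsg.Agent.H883.Sub

variable {F K V : Type*} [Field F] [Field K] [Algebra F K] [AddCommGroup V]
  [Module F V] [Module K V] [IsScalarTower F K V]

variable {τ : K →ₗ[F] F} {QK : QuadraticForm K V} {Q : QuadraticForm F V}
  {H : Subgroup (V ≃ₗ[F] V)}

/-- The basic hypotheses. -/
structure Pre (τ : K →ₗ[F] F) (QK : QuadraticForm K V) (Q : QuadraticForm F V)
    (H : Subgroup (V ≃ₗ[F] V)) : Prop where
  tr : Tr τ QK Q
  nondeg : Nondeg QK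
  hHO : H ≤ O Q
  hE : ∀ g ∈ E QK, (rs g : V ≃ₗ[F] V) ∈ H

/-- The points: the images under `H` of the singular `K`-lines. -/
def IsPoint (QK : QuadraticForm K V) (H : Subgroup (V ≃ₗ[F] V)) (X : Submodule F V) : Prop :=
  ∃ g ∈ H, ∃ v, QK v = 0 ∧ v ≠ 0 ∧ X = (line F K v).map (g : V →ₗ[F] V)

theorem map_mul' (X : Submodule F V) (g h : V ≃ₗ[F] V) :
    X.map ((g * h : V ≃ₗ[F] V) : V →ₗ[F] V) = (X.map (h : V →ₗ[F] V)).map (g : V →ₗ[F] V) := by
  rw [← Submodule.map_comp]; rfl

theorem map_inv_map (X : Submodule F V) (g : V ≃ₗ[F] V) :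
    (X.map (g : V →ₗ[F] V)).map ((g⁻¹ : V ≃ₗ[F] V) : V →ₗ[F] V) = X := by
  rw [← map_mul', inv_mul_cancel]
  exact Submodule.map_id X

theorem IsPoint.map {X : Submodule F V} (hX : IsPoint QK H X) {g : V ≃ₗ[F] V} (hg : g ∈ H) :
    IsPoint QK H (X.map (g : V →ₗ[F] V)) := by
  obtain ⟨g', hg', v, hv, hv0, rfl⟩ := hX
  exact ⟨g * g', H.mul_mem hg hg', v, hv, hv0, by rw [map_mul']⟩

theorem isPoint_line {v : V} (hv : QK v = 0) (hv0 : v ≠ 0) : IsPoint QK H (line F K v) :=
  ⟨1, H.one_mem, v, hv, hv0, (Submodule.map_id _).symm⟩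

theorem IsPoint.exists_line {X : Submodule F V} (hX : IsPoint QK H X) :
    ∃ g ∈ H, ∃ v, QK v = 0 ∧ v ≠ 0 ∧ X.map (g : V →ₗ[F] V) = line F K v := by
  obtain ⟨g', hg', v, hv, hv0, rfl⟩ := hX
  exact ⟨g'⁻¹, H.inv_mem hg', v, hv, hv0, map_inv_map _ _⟩

theorem IsPoint.finrank [FiniteDimensional F K] {X : Submodule F V} (hX : IsPoint QK H X) :
    Module.finrank F X = Module.finrank F K := by
  obtain ⟨g', hg', v, hv, hv0, rfl⟩ := hX
  rw [← finrank_line (F := F) (K := K) hv0]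
  exact LinearEquiv.finrank_map_eq g' _

theorem IsPoint.sing (hP : Pre τ QK Q H) {X : Submodule F V} (hX : IsPoint QK H X) :
    ∀ x ∈ X, Q x = 0 := by
  obtain ⟨g', hg', v, hv, hv0, rfl⟩ := hX
  rintro _ ⟨x, hx, rfl⟩
  show Q (g' x) = 0
  rw [hP.hHO hg']
  exact line_sing hP.tr hv x hx

theorem IsPoint.isPt [FiniteDimensional F K] (hP : Pre τ QK Q H) {X : Submodule F V}
    (hX : IsPoint QK H X) : IsPt Q H X := by
  obtain ⟨g', hg', v, hv, hv0, rfl⟩ := hX
  exact (isPt_line hP.tr hP.hE hv).map (hP.hHO hg') hg'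

theorem line_eq_of_mem {v x : V} (hx : x ∈ line F K v) (hx0 : x ≠ 0) :
    line F K x = line F K v := by
  obtain ⟨k, rfl⟩ := mem_line.1 hx
  have hk : k ≠ 0 := by
    rintro rfl
    exact hx0 (zero_smul K v)
  ext y
  rw [mem_line, mem_line]
  constructor
  · rintro ⟨c, rfl⟩
    exact ⟨c * k, mul_smul _ _ _⟩
  · rintro ⟨c, rfl⟩
    exact ⟨c * k⁻¹, by rw [smul_smul, mul_assoc, inv_mul_cancel₀ hk, mul_one]⟩

section Fin

variable [FiniteDimensional F V] [FiniteDimensional F K]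

theorem IsPoint.eq_of_le {X Y : Submodule F V} (hX : IsPoint QK H X) (hY : IsPoint QK H Y)
    (h : X ≤ Y) : X = Y :=
  Submodule.eq_of_le_of_finrank_eq h (by rw [hX.finrank, hY.finrank])

/-- A point containing `x` but not the line of `x` contains no `K`-line. -/
theorem IsPoint.not_line {Y : Submodule F V} (hY : IsPoint QK H Y) {x : V} (hx : x ∈ Y)
    (hx0 : x ≠ 0) (hne : line F K x ≠ Y) : ∀ x', x' ≠ 0 → ¬ line F K x' ≤ Y := by
  intro x' hx' hle
  apply hne
  have h1 : line F K x' = Y :=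
    Submodule.eq_of_le_of_finrank_eq hle (by rw [finrank_line hx', hY.finrank])
  rw [← h1] at hx
  rw [← h1]
  exact line_eq_of_mem hx hx0

/-- A Siegel transformation over `K` moving a given subspace. -/
theorem exists_move (h2 : (2 : K) ≠ 0) {u w y : V} {Y : Submodule F V}
    (hY : ∀ x, x ≠ 0 → ¬ line F K x ≤ Y) (hu : QK u = 0) (huw : polar QK u w = 0) (hyY : y ∈ Y)
    (hne : polar QK u y • w - polar QK w y • u ≠ 0) :
    ∃ (ω : K) (h : polar QK u (ω • w) = 0), siegel QK u (ω • w) hu h y ∉ Y := by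
  by_contra hcon
  push Not at hcon
  have hp : ∀ ω : K, polar QK u (ω • w) = 0 := fun ω => by
    rw [polar_smul_right, huw, smul_zero]
  have h1 : ∀ ω : K, (ω * polar QK u y) • w - (ω * polar QK w y) • u -
      (ω * ω * (QK w * polar QK u y)) • u ∈ Y := by
    intro ω
    have h3 := Y.sub_mem (hcon ω (hp ω)) hyY
    rw [siegel_apply, QuadraticMap.map_smul, polar_smul_left] at h3
    convert h3 using 1
    simp only [smul_eq_mul]
    module
  set κ := QK w * polar QK u y with hκ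
  have h3 : ∀ ω : K, ω • κ • u ∈ Y := by
    intro ω
    have a1 := h1 (ω / 2 + 1)
    have a2 := h1 (ω / 2)
    have a3 := h1 1
    have a4 := Y.sub_mem (Y.sub_mem a1 a2) a3
    have a5 := Y.neg_mem a4
    convert a5 using 1
    have e : ω = 2 * (ω / 2) := by field_simp
    conv_lhs => rw [e]
    module
  have h4 : κ • u = 0 := by
    by_contra h0
    apply hY _ h0
    intro x hx
    obtain ⟨k, rfl⟩ := mem_line.1 hx
    exact h3 k
  have h5 : ∀ ω : K, ω • (polar QK u y • w - polar QK w y • u) ∈ Y := by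
    intro ω
    have a1 := h1 ω
    have e : (ω * ω * κ) • u = 0 := by rw [mul_smul, h4, smul_zero]
    rw [e, sub_zero] at a1
    convert a1 using 1
    module
  apply hY _ hne
  intro x hx
  obtain ⟨k, rfl⟩ := mem_line.1 hx
  exact h5 k

/-- There are two distinct points meeting in a subspace of dimension at least `s`. -/
def Adj (QK : QuadraticForm K V) (H : Subgroup (V ≃ₗ[F] V)) (s : ℕ) : Prop :=
  ∃ X Y, IsPoint QK H X ∧ IsPoint QK H Y ∧ X ≠ Y ∧ s ≤ Module.finrank F (X ⊓ Y : Submodule F V)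

theorem finrank_map_inf (X Y : Submodule F V) (g : V ≃ₗ[F] V) :
    Module.finrank F (X.map (g : V →ₗ[F] V) ⊓ Y.map (g : V →ₗ[F] V) : Submodule F V) =
      Module.finrank F (X ⊓ Y : Submodule F V) := by
  rw [← Submodule.map_inf _ g.injective]
  exact LinearEquiv.finrank_map_eq g _

/-- Normal form of a pair of points meeting nontrivially. -/
theorem exists_line_pair {X Y : Submodule F V} (hX : IsPoint QK H X) (hne : X ≠ Y)
    (h1 : 1 ≤ Module.finrank F (X ⊓ Y : Submodule F V)) :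
    ∃ g ∈ H, ∃ v, QK v = 0 ∧ v ≠ 0 ∧ X.map (g : V →ₗ[F] V) = line F K v ∧
      v ∈ Y.map (g : V →ₗ[F] V) ∧ line F K v ≠ Y.map (g : V →ₗ[F] V) := by
  obtain ⟨g, hg, v, hv, hv0, e⟩ := hX.exists_line
  obtain ⟨x, hx, hx0⟩ := Submodule.exists_mem_ne_zero_of_ne_bot
    (p := X.map (g : V →ₗ[F] V) ⊓ Y.map (g : V →ₗ[F] V)) (by
      intro h0
      rw [← finrank_map_inf X Y g, h0, finrank_bot] at h1
      omega)
  have hxv : x ∈ line F K v := e ▸ hx.1
  have hl := line_eq_of_mem hxv hx0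
  obtain ⟨k, hk⟩ := mem_line.1 hxv
  refine ⟨g, hg, x, ?_, hx0, by rw [hl, e], hx.2, ?_⟩
  · rw [← hk, QuadraticMap.map_smul, hv, smul_zero]
  · rw [hl, ← e]
    intro h0
    apply hne
    have := congrArg (fun X => Submodule.map ((g⁻¹ : V ≃ₗ[F] V) : V →ₗ[F] V) X) h0
    simp only [map_inv_map] at this
    exact this

theorem adj_of_move (hP : Pre τ QK Q H) {Y : Submodule F V} (hY : IsPoint QK H Y)
    {a : V ≃ₗ[K] V} (ha : a ∈ E QK) {S : Submodule F V} {s : ℕ} (hs : s ≤ Module.finrank F S)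
    (hSY : S ≤ Y) (hSa : ∀ x ∈ S, ∃ y ∈ Y, a y = x) {y : V} (hy : y ∈ Y) (hay : a y ∉ Y) :
    Adj QK H s := by
  refine ⟨Y, Y.map ((rs a : V ≃ₗ[F] V) : V →ₗ[F] V), hY, hY.map (hP.hE a ha), ?_, ?_⟩
  · intro h
    apply hay
    rw [h]
    exact ⟨y, hy, rfl⟩
  · refine le_trans hs (Submodule.finrank_mono (le_inf hSY fun x hx => ?_))
    obtain ⟨y, hy, e⟩ := hSa x hx
    exact ⟨y, hy, e⟩

theorem finrank_sup_line {S : Submodule F V} {s : ℕ} (hs : s ≤ Module.finrank F S) {y : V}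
    (hy : y ∉ S) : s + 1 ≤ Module.finrank F (S ⊔ Submodule.span F {y} : Submodule F V) := by
  have h1 : S < S ⊔ Submodule.span F {y} := by
    refine lt_of_le_of_ne le_sup_left fun h => hy ?_
    rw [h]
    exact Submodule.mem_sup_right (Submodule.mem_span_singleton_self y)
  have := Submodule.finrank_lt_finrank_of_lt h1
  omega

end Fin

end Cfsg.Agent.H925.Ext
end

-- part: H925/ExtStep
section
/-!
# Overgroups of `Ω(V, QK)` in `Ω(V, τ ∘ QK)`, VII: increasing the intersection of two points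
-/

set_option autoImplicit false
set_option linter.unusedSectionVars false

namespace Cfsg.Agent.H925.Ext

open QuadraticMap Cfsg.Agent.LieClassical.OrthCore Cfsg.Agent.LieClassical.OrthTrans
  Cfsg.Agent.LieClassical.OrthFinite Cfsg.Agent.H883.Root Cfsg.Agent.H883.Sub

variable {F K V : Type*} [Field F] [Field K] [Algebra F K] [AddCommGroup V]
  [Module F V] [Module K V] [IsScalarTower F K V]

variable {τ : K →ₗ[F] F} {QK : QuadraticForm K V} {Q : QuadraticForm F V}
  {H : Subgroup (V ≃ₗ[F] V)}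

section Fin

variable [FiniteDimensional F V] [FiniteDimensional F K]

omit [FiniteDimensional F V] [FiniteDimensional F K] in
theorem siegel_fix_smul {u w x : V} (hu : QK u = 0) (hw : polar QK u w = 0)
    (h1 : polar QK u x = 0) (h2 : polar QK w x = 0) (k : K) :
    siegel QK u w hu hw (k • x) = k • x := by
  rw [map_smul, siegel_fix hu hw h1 h2]

/-- Auxiliary: vectors moving `y` and fixing the nonzero vector `x`, `y ∉ K x`. -/
theorem exists_uw [Finite K] (hQ : Nondeg QK) (hd : 4 ≤ Module.finrank K V) {x y : V} (hx0 : x ≠ 0)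
    (hy : ∀ c : K, y ≠ c • x) : ∃ u w, QK u = 0 ∧ polar QK u w = 0 ∧ polar QK x u = 0 ∧
      polar QK x w = 0 ∧ polar QK u y • w - polar QK w y • u ≠ 0 := by
  by_cases hx : QK x = 0
  · by_cases hxy : polar QK x y = 0
    · obtain ⟨w, hw1, hw2⟩ := exists_sep hQ hy
      refine ⟨x, w, hx, hw1, polar_self_of_sing hx, hw1, ?_⟩
      rw [hxy, zero_smul, zero_sub, neg_ne_zero, polar_comm, hw2, one_smul]
      exact hx0
    · obtain ⟨x', hyp⟩ := Cfsg.Agent.LieClassical.OrthTrans.exists_hyp hQ hx hx0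
      obtain ⟨w, hw0, hw⟩ := exists_perp_ne (Q := QK) ![x, x'] (by omega)
      have hxw : polar QK x w = 0 := hw 0
      have hx'w : polar QK x' w = 0 := hw 1
      refine ⟨x, w, hx, hxw, polar_self_of_sing hx, hxw, fun h0 => ?_⟩
      have h1 : polar QK x' (polar QK x y • w - polar QK w y • x) = 0 := by
        rw [h0, polar_zero_right]
      rw [polar_sub_right, polar_smul_right, polar_smul_right, hx'w, hyp.pair', smul_zero, zero_sub,
        neg_eq_zero, smul_eq_mul, mul_one] at h1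
      rw [h1, zero_smul, sub_zero] at h0
      exact (smul_ne_zero hxy hw0) h0
  · obtain ⟨e, he0, he, hxe'⟩ := exists_sing_perp (Q := QK) ![x] (by omega)
    have hxe : polar QK x e = 0 := hxe' 0
    have hex : ∀ c : K, e ≠ c • x := by
      rintro c rfl
      rw [QuadraticMap.map_smul, smul_eq_mul] at he
      have hc : c ≠ 0 := by rintro rfl; exact he0 (zero_smul K x)
      exact (mul_ne_zero (mul_ne_zero hc hc) hx) he
    obtain ⟨f', hf1, hf2⟩ := exists_sep hQ hex
    have hyp : Hyp QK e (f' + (-QK f') • e) := by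
      refine ⟨he, ?_, ?_⟩
      · rw [Q_add, QuadraticMap.map_smul, he, polar_smul_right, polar_comm QK f' e, hf2]
        simp
      · rw [polar_add_right, polar_smul_right, polar_self_of_sing he, hf2]
        simp
    have hxf : polar QK x (f' + (-QK f') • e) = 0 := by
      rw [polar_add_right, polar_smul_right, hf1, hxe]; simp
    obtain ⟨u, hu, hxu, huy⟩ : ∃ u, QK u = 0 ∧ polar QK x u = 0 ∧ polar QK u y ≠ 0 := by
      by_contra hcon
      push Not at hcon
      obtain ⟨w, hw1, hw2⟩ := exists_sep hQ hy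
      have := sing_induction_perp (Q := QK) (x := e) (y := f' + (-QK f') • e) (z := x) (w := x) hyp
        hxe hxf hxe hxf (P := fun v => polar QK v y = 0)
        (fun a c _ _ _ _ ha hc => by rw [polar_add_left, ha, hc, add_zero])
        (fun a ha hxa _ => hcon a ha hxa) w hw1 hw1
      rw [polar_comm, hw2] at this
      exact one_ne_zero this
    have hu0 : u ≠ 0 := by rintro rfl; exact huy (polar_zero_left QK y)
    obtain ⟨u', hu'⟩ := hQ.exists_polar_eq hu0 1
    obtain ⟨w, hw0, hw⟩ := exists_perp_ne (Q := QK) ![x, u, u'] (by omega)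
    have hxw : polar QK x w = 0 := hw 0
    have huw : polar QK u w = 0 := hw 1
    have hu'w : polar QK u' w = 0 := hw 2
    refine ⟨u, w, hu, huw, hxu, hxw, fun h0 => ?_⟩
    have h1 : polar QK u' (polar QK u y • w - polar QK w y • u) = 0 := by
      rw [h0, polar_zero_right]
    rw [polar_sub_right, polar_smul_right, polar_smul_right, hu'w, polar_comm QK u' u, hu',
      smul_zero, zero_sub, neg_eq_zero, smul_eq_mul, mul_one] at h1
    rw [h1, zero_smul, sub_zero] at h0
    exact (smul_ne_zero huy hw0) h0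

/-- **Stage 1.** -/
theorem adj_one [Finite K] (hP : Pre τ QK Q H) (hd : 4 ≤ Module.finrank K V) (h2 : (2 : K) ≠ 0)
    {Y : Submodule F V} (hY : IsPoint QK H Y) {x y : V} (hx : x ∈ Y) (hy : y ∈ Y) (hx0 : x ≠ 0)
    (hyx : y ∉ line F K x) : Adj QK H 1 := by
  have hnl := hY.not_line hx hx0 (fun h => hyx (h ▸ hy))
  have hyx' : ∀ c : K, y ≠ c • x := fun c h => hyx (mem_line.2 ⟨c, h.symm⟩)
  obtain ⟨u, w, hu, huw, hxu, hxw, hne⟩ := exists_uw hP.nondeg hd hx0 hyx'
  obtain ⟨ω, hω, hmove⟩ := exists_move h2 hnl hu huw hy hne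
  refine adj_of_move hP hY (siegel_mem_E hu hω) (S := Submodule.span F {x}) ?_ ?_ ?_ hy hmove
  · rw [finrank_span_singleton hx0]
  · rw [Submodule.span_singleton_le_iff_mem]
    exact hx
  · intro z hz
    obtain ⟨c, rfl⟩ := Submodule.mem_span_singleton.1 hz
    refine ⟨c • x, Y.smul_mem c hx, ?_⟩
    have h1 : siegel QK u (ω • w) hu hω x = x := by
      apply siegel_fix
      · rw [polar_comm, hxu]
      · rw [polar_smul_left, polar_comm, hxw, smul_zero]
    rw [← algebraMap_smul K c x, map_smul, h1]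

/-- Every `κ ∉ F` generates `K` when the degree is prime: an `F`-subspace of `K` closed under `κ` and
containing `1` is everything. -/
theorem eq_top_of_closed (hr : (Module.finrank F K).Prime) {κ : K} (hκ : ∀ c : F, κ ≠ c • (1 : K))
    {S : Submodule F K} (h1 : (1 : K) ∈ S) (hS : ∀ s ∈ S, κ * s ∈ S) : S = ⊤ := by
  have := Subalgebra.isSimpleOrder_of_finrank_prime F K hr
  have h3 : Algebra.adjoin F {κ} = ⊤ := by
    rcases eq_bot_or_eq_top (Algebra.adjoin F {κ}) with h | h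
    · exfalso
      have h4 : κ ∈ Algebra.adjoin F {κ} := Algebra.self_mem_adjoin_singleton F κ
      rw [h, Algebra.mem_bot] at h4
      obtain ⟨c, hc⟩ := h4
      exact hκ c (by rw [← hc, Algebra.smul_def, mul_one])
    · exact h
  rw [eq_top_iff]
  intro k hk'
  clear hk'
  have hk : k ∈ Algebra.adjoin F {κ} := by rw [h3]; exact Algebra.mem_top
  have h5 : ∀ s ∈ S, k * s ∈ S := by
    induction hk using Algebra.adjoin_induction with
    | mem x hx =>
      rw [Set.mem_singleton_iff] at hx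
      subst hx
      exact hS
    | algebraMap c =>
      intro s hs
      rw [← Algebra.smul_def]
      exact S.smul_mem c hs
    | add x y _ _ hx hy =>
      intro s hs
      rw [add_mul]
      exact S.add_mem (hx s hs) (hy s hs)
    | mul x y _ _ hx hy =>
      intro s hs
      rw [mul_assoc]
      exact hx _ (hy s hs)
  have := h5 1 h1
  rwa [mul_one] at this

/-- **Stage 2, orthogonal pairs.** -/
theorem adj_step_orth (hP : Pre τ QK Q H) (hr : (Module.finrank F K).Prime) (h2 : (2 : K) ≠ 0)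
    {s : ℕ} (hs : s + 2 ≤ Module.finrank F K) {v : V} (hv : QK v = 0) (hv0 : v ≠ 0)
    {Y : Submodule F V} (hY : IsPoint QK H Y) (hne : line F K v ≠ Y) (hvY : v ∈ Y)
    (hint : s ≤ Module.finrank F (line F K v ⊓ Y : Submodule F V))
    (horth : ∀ y ∈ Y, polar QK v y = 0) : Adj QK H (s + 1) := by
  have hX : IsPoint QK H (line F K v) := isPoint_line hv hv0
  have hnl := hY.not_line hvY hv0 hne
  by_cases hint' : s + 1 ≤ Module.finrank F (line F K v ⊓ Y : Submodule F V)
  · exact ⟨_, _, hX, hY, hne, hint'⟩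
  have hYX : ¬ Y ≤ line F K v := fun h => hne (hY.eq_of_le hX h).symm
  obtain ⟨y, hyY, hyX⟩ := Set.not_subset.1 hYX
  change y ∈ Y at hyY
  change y ∉ line F K v at hyX
  have hyc : ∀ c : K, y ≠ c • v := fun c h => hyX (mem_line.2 ⟨c, h.symm⟩)
  -- a Siegel transformation attached to `v` moving `Y` and with a large fixed space
  have key : ∀ (w : V) (y₀ : V), y₀ ∈ Y → y₀ ∉ line F K v → ∀ hvw : polar QK v w = 0,
      (∃ y₁ ∈ Y, siegel QK v w hv hvw y₁ = y₀) → ∀ y₂ ∈ Y, siegel QK v w hv hvw y₂ ∉ Y →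
      Adj QK H (s + 1) := by
    intro w y₀ hy₀ hy₀X hvw hy₁ y₂ hy₂ hmove
    refine adj_of_move hP hY (siegel_mem_E hv hvw)
      (S := (line F K v ⊓ Y) ⊔ Submodule.span F {y₀})
      (finrank_sup_line hint fun h => hy₀X h.1) ?_ ?_ hy₂ hmove
    · refine sup_le inf_le_right ?_
      rw [Submodule.span_singleton_le_iff_mem]
      exact hy₀
    · intro x hx
      obtain ⟨x₁, hx₁, x₂, hx₂, rfl⟩ := Submodule.mem_sup.1 hx
      obtain ⟨c, rfl⟩ := Submodule.mem_span_singleton.1 hx₂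
      obtain ⟨y₁, hy₁Y, hy₁e⟩ := hy₁
      refine ⟨x₁ + c • y₁, Y.add_mem hx₁.2 (Y.smul_mem c hy₁Y), ?_⟩
      rw [map_add, siegel_fix_line hv hvw hx₁.1, ← algebraMap_smul K c y₁, map_smul, hy₁e,
        algebraMap_smul]
  by_cases hA : ∃ y₂ ∈ Y, y₂ ∉ Submodule.span K {v, y}
  · -- case A
    obtain ⟨y₂, hy₂, hy₂s⟩ := hA
    have : FiniteDimensional K V := FiniteDimensional.right F K V
    obtain ⟨w, hw, hwy⟩ : ∃ w ∈ perp QK (Submodule.span K {v, y}), polar QK w y₂ ≠ 0 := by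
      by_contra hcon
      push Not at hcon
      apply hy₂s
      rw [← perp_perp hP.nondeg (Submodule.span K {v, y})]
      exact mem_perp.2 hcon
    have hvw : polar QK v w = 0 := mem_perp.1 hw v (Submodule.subset_span (by simp))
    have hyw : polar QK y w = 0 := mem_perp.1 hw y (Submodule.subset_span (by simp))
    obtain ⟨ω, hω, hmove⟩ := exists_move h2 hnl hv hvw hy₂ (by
      rw [horth y₂ hy₂, zero_smul, zero_sub, neg_ne_zero]
      exact smul_ne_zero hwy hv0)
    refine key (ω • w) y hyY hyX hω ⟨y, hyY, ?_⟩ y₂ hy₂ hmove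
    apply siegel_fix
    · exact horth y hyY
    · rw [polar_smul_left, polar_comm, hyw, smul_zero]
  · -- case B
    push Not at hA
    obtain ⟨w, hvw, hyw⟩ := exists_sep hP.nondeg hyc
    have hwy : polar QK w y = 1 := by rw [polar_comm]; exact hyw
    have hwv : polar QK w v = 0 := by rw [polar_comm]; exact hvw
    have hω : ∀ ω : K, polar QK v (ω • w) = 0 := fun ω => by
      rw [polar_smul_right, hvw, smul_zero]
    have hact : ∀ ω : K, ∀ z ∈ Y, siegel QK v (ω • w) hv (hω ω) z =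
        z - (ω * polar QK w z) • v := by
      intro ω z hz
      rw [siegel_apply, horth z hz, polar_smul_left]
      simp
    -- an element with a coordinate outside `F`
    obtain ⟨z, hz, hzF⟩ : ∃ z ∈ Y, ∀ c : F, polar QK w z ≠ c • (1 : K) := by
      by_contra hcon
      push Not at hcon
      choose! f hf using hcon
      -- then `Y = (X ∩ Y) + F y`
      have hle : Y ≤ (line F K v ⊓ Y) ⊔ Submodule.span F {y} := by
        intro z hz
        have h3 : z - f z • y ∈ line F K v := by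
          obtain ⟨α, γ, e⟩ := Submodule.mem_span_pair.1 (hA z hz)
          have h4 : polar QK w z = γ := by
            rw [← e, polar_add_right, polar_smul_right, polar_smul_right, hwv, hwy, smul_zero,
              zero_add, smul_eq_mul, mul_one]
          rw [hf z hz] at h4
          have e'' : α • v + (f z • (1 : K)) • y = z := by rw [h4]; exact e
          rw [smul_assoc, one_smul] at e''
          exact mem_line.2 ⟨α, eq_sub_of_add_eq e''⟩
        have e : z = (z - f z • y) + f z • y := by abel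
        rw [e]
        exact Submodule.add_mem_sup ⟨h3, Y.sub_mem hz (Y.smul_mem _ hyY)⟩
          (Submodule.smul_mem _ _ (Submodule.mem_span_singleton_self y))
      have h3 := Submodule.finrank_mono hle
      have h4 := Submodule.finrank_add_le_finrank_add_finrank (line F K v ⊓ Y)
        (Submodule.span F {y})
      have hy0 : y ≠ 0 := by
        rintro rfl
        exact hyX (line F K v).zero_mem
      rw [finrank_span_singleton hy0] at h4
      rw [hY.finrank] at h3
      omega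
    -- either some Siegel transformation works or `X ∩ Y` is everything
    by_cases hstab : ∀ s₀ : K, s₀ • v ∈ Y → (polar QK w z * s₀) • v ∈ Y
    · exfalso
      let S : Submodule F K := Y.comap ((LinearMap.toSpanSingleton K V v).restrictScalars F)
      have hSmem : ∀ k : K, k ∈ S ↔ k • v ∈ Y := fun k => Iff.rfl
      have hS : S = ⊤ := by
        refine eq_top_of_closed hr hzF ?_ ?_
        · rw [hSmem, one_smul]; exact hvY
        · intro s hs
          exact hstab s hs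
      apply hnl v hv0
      intro x hx
      obtain ⟨k, rfl⟩ := mem_line.1 hx
      have : k ∈ S := by rw [hS]; trivial
      exact this
    · push Not at hstab
      obtain ⟨s₀, hs₀, hs₀'⟩ := hstab
      have h3 : siegel QK v (s₀ • w) hv (hω s₀) y = y - s₀ • v := by
        rw [hact s₀ y hyY, hwy, mul_one]
      refine key (s₀ • w) y hyY hyX (hω s₀) ⟨y + s₀ • v, Y.add_mem hyY hs₀, ?_⟩ z hz ?_
      · rw [map_add, h3, siegel_fix_line hv (hω s₀) (smul_mem_line (F := F) s₀ v)]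
        abel
      · rw [hact s₀ z hz]
        intro h4
        apply hs₀'
        have := Y.sub_mem hz h4
        rwa [sub_sub_cancel, mul_comm] at this

/-- The plane spanned by `v` and a vector not orthogonal to it. -/
theorem exists_plane {v y : V} (hv : QK v = 0) (hvy : polar QK v y ≠ 0) :
    ∃ v', Hyp QK v v' ∧ v' ∈ Submodule.span K {v, y} ∧ y ∈ Submodule.span K {v, v'} := by
  set β := polar QK v y with hβ
  refine ⟨β⁻¹ • y - QK (β⁻¹ • y) • v, ⟨hv, ?_, ?_⟩, ?_, ?_⟩
  · rw [sub_eq_add_neg, ← neg_smul, Q_add, QuadraticMap.map_smul _ (-_) v, hv, polar_smul_right,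
      polar_smul_left, polar_comm QK y v, ← hβ]
    simp only [smul_eq_mul, inv_mul_cancel₀ hvy]
    ring
  · rw [polar_sub_right, polar_smul_right, polar_smul_right, polar_self_of_sing hv, ← hβ,
      smul_eq_mul, inv_mul_cancel₀ hvy]
    simp
  · exact Submodule.sub_mem _ (Submodule.smul_mem _ _ (Submodule.subset_span (by simp)))
      (Submodule.smul_mem _ _ (Submodule.subset_span (by simp)))
  · rw [Submodule.mem_span_pair]
    refine ⟨β * QK (β⁻¹ • y), β, ?_⟩
    rw [smul_sub, smul_smul, smul_smul, mul_inv_cancel₀ hvy, one_smul, add_comm, sub_add_cancel]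

/-- **Stage 2, non-orthogonal pairs.** -/
theorem adj_step_nonorth [Finite K] (hP : Pre τ QK Q H) (hr : (Module.finrank F K).Prime)
    (h2 : (2 : K) ≠ 0) (hd : 5 ≤ Module.finrank K V) {s : ℕ} (hs1 : 1 ≤ s)
    (hs : s + 2 ≤ Module.finrank F K) {v : V} (hv : QK v = 0) (hv0 : v ≠ 0)
    {Y : Submodule F V} (hY : IsPoint QK H Y) (hne : line F K v ≠ Y) (hvY : v ∈ Y)
    (hint : s ≤ Module.finrank F (line F K v ⊓ Y : Submodule F V)) {y : V} (hyY : y ∈ Y)
    (hvy : polar QK v y ≠ 0) : Adj QK H (s + 1) := by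
  have hG : Good QK := good_of_finite hP.nondeg hd
  have hX : IsPoint QK H (line F K v) := isPoint_line hv hv0
  have hnl := hY.not_line hvY hv0 hne
  have hyX : y ∉ line F K v := by
    intro h
    obtain ⟨k, rfl⟩ := mem_line.1 h
    apply hvy
    rw [polar_smul_right, polar_self_of_sing hv, smul_zero]
  obtain ⟨v', hyp, -, hyv'⟩ := exists_plane hv hvy
  obtain ⟨e, f, hef, hve, hvf, hv'e, hv'f⟩ := hG.exists_hyp2 hyp
  by_cases hA : ∃ y₂ ∈ Y, y₂ ∉ Submodule.span K {v, v'}
  · -- case A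
    obtain ⟨y₂, hy₂, hy₂s⟩ := hA
    obtain ⟨u, hu, hvu, hv'u, huy⟩ : ∃ u, QK u = 0 ∧ polar QK v u = 0 ∧ polar QK v' u = 0 ∧
        polar QK u y₂ ≠ 0 := by
      by_contra hcon
      push Not at hcon
      have h3 := sing_induction_perp (Q := QK) (x := e) (y := f) (z := v) (w := v') hef
        hve hvf hv'e hv'f (P := fun u => polar QK u y₂ = 0)
        (fun a c _ _ _ _ ha hc => by rw [polar_add_left, ha, hc, add_zero])
        (fun a ha hva hv'a => hcon a ha hva hv'a)
      apply hy₂s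
      have h4 : Cfsg.Agent.LieClassical.OrthTrans.proj QK v v' y₂ = 0 := by
        apply hP.nondeg
        intro z
        have h5 := polar_proj_of_perp (Q := QK) (w := Cfsg.Agent.LieClassical.OrthTrans.proj QK v v' y₂) (polar_proj_left hyp _)
          (polar_proj_right hyp _) z
        rw [← h5, polar_comm,
          polar_proj_of_perp (polar_proj_left hyp _) (polar_proj_right hyp _)]
        exact h3 _ (polar_proj_left hyp _) (polar_proj_right hyp _)
      rw [Cfsg.Agent.LieClassical.OrthTrans.proj, sub_sub, sub_eq_zero] at h4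
      rw [h4]
      exact Submodule.add_mem _ (Submodule.smul_mem _ _ (Submodule.subset_span (by simp)))
        (Submodule.smul_mem _ _ (Submodule.subset_span (by simp)))
    have hu0 : u ≠ 0 := by rintro rfl; exact huy (polar_zero_left QK y₂)
    obtain ⟨u', hu'⟩ := hP.nondeg.exists_polar_eq hu0 1
    obtain ⟨w, hw0, hw⟩ := exists_perp_ne (Q := QK) ![v, v', u, u'] (by omega)
    have hvw : polar QK v w = 0 := hw 0
    have hv'w : polar QK v' w = 0 := hw 1
    have huw : polar QK u w = 0 := hw 2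
    have hu'w : polar QK u' w = 0 := hw 3
    obtain ⟨ω, hω, hmove⟩ := exists_move h2 hnl hu huw hy₂ (by
      intro h0
      have h1 : polar QK u' (polar QK u y₂ • w - polar QK w y₂ • u) = 0 := by
        rw [h0, polar_zero_right]
      rw [polar_sub_right, polar_smul_right, polar_smul_right, hu'w, polar_comm QK u' u, hu',
        smul_zero, zero_sub, neg_eq_zero, smul_eq_mul, mul_one] at h1
      rw [h1, zero_smul, sub_zero] at h0
      exact (smul_ne_zero huy hw0) h0)
    have fixv : siegel QK u (ω • w) hu hω v = v := by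
      apply siegel_fix
      · rw [polar_comm, hvu]
      · rw [polar_smul_left, polar_comm, hvw, smul_zero]
    have fixv' : siegel QK u (ω • w) hu hω v' = v' := by
      apply siegel_fix
      · rw [polar_comm, hv'u]
      · rw [polar_smul_left, polar_comm, hv'w, smul_zero]
    have fixy : siegel QK u (ω • w) hu hω y = y := by
      obtain ⟨α, γ, e⟩ := Submodule.mem_span_pair.1 hyv'
      rw [← e, map_add, map_smul, map_smul, fixv, fixv']
    refine adj_of_move hP hY (siegel_mem_E hu hω)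
      (S := (line F K v ⊓ Y) ⊔ Submodule.span F {y})
      (finrank_sup_line hint fun h => hyX h.1) ?_ ?_ hy₂ hmove
    · refine sup_le inf_le_right ?_
      rw [Submodule.span_singleton_le_iff_mem]
      exact hyY
    · intro x hx
      have hxY : x ∈ Y := by
        refine (sup_le inf_le_right ?_ : (line F K v ⊓ Y) ⊔ Submodule.span F {y} ≤ Y) hx
        rw [Submodule.span_singleton_le_iff_mem]
        exact hyY
      refine ⟨x, hxY, ?_⟩
      obtain ⟨x₁, hx₁, x₂, hx₂, rfl⟩ := Submodule.mem_sup.1 hx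
      obtain ⟨c, rfl⟩ := Submodule.mem_span_singleton.1 hx₂
      obtain ⟨k, rfl⟩ := mem_line.1 hx₁.1
      rw [map_add, map_smul, fixv, ← algebraMap_smul K c y, map_smul, fixy]
  · -- case B
    push Not at hA
    have hperp : ∀ x, polar QK v x = 0 → polar QK v' x = 0 → ∀ z ∈ Y, polar QK x z = 0 := by
      intro x h1 h3 z hz
      obtain ⟨α, γ, e⟩ := Submodule.mem_span_pair.1 (hA z hz)
      rw [← e, polar_add_right, polar_smul_right, polar_smul_right, polar_comm QK x v, h1,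
        polar_comm QK x v', h3]
      simp
    set a := siegel QK v e hv hve with ha
    have haE : a ∈ E QK := siegel_mem_E hv hve
    have hact : ∀ z ∈ Y, a z = z + polar QK v z • e := by
      intro z hz
      rw [ha, siegel_apply, hperp e hve hv'e z hz, hef.left]
      simp
    set Y₂ := Y.map ((rs a : V ≃ₗ[F] V) : V →ₗ[F] V) with hY₂
    have hY₂P : IsPoint QK H Y₂ := hY.map (hP.hE a haE)
    have hne2 : Y ≠ Y₂ := by
      intro h
      have h1 : a y ∈ Y := by rw [h]; exact ⟨y, hyY, rfl⟩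
      rw [hact y hyY] at h1
      have h3 : polar QK f (y + polar QK v y • e) = 0 := hperp f hvf hv'f _ h1
      rw [polar_add_right, hperp f hvf hv'f y hyY, polar_smul_right, hef.pair', zero_add,
        smul_eq_mul, mul_one] at h3
      exact hvy h3
    have hint2 : s ≤ Module.finrank F (Y ⊓ Y₂ : Submodule F V) := by
      refine le_trans hint (Submodule.finrank_mono (le_inf inf_le_right fun x hx => ?_))
      exact ⟨x, hx.2, siegel_fix_line hv hve hx.1⟩
    have horth : ∀ z ∈ Y, ∀ z' ∈ Y₂, polar Q z z' = 0 := by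
      rintro z hz _ ⟨z', hz', rfl⟩
      show polar Q z (a z') = 0
      rw [hact z' hz', polar_add_right, hP.tr.pol z (polar QK v z' • e), polar_smul_right,
        polar_comm QK z e, hperp e hve hv'e z hz, smul_zero, map_zero, add_zero]
      exact polar_zero_of_ts (hY.sing hP) hz hz'
    obtain ⟨g, hg, v₁, hv₁, hv₁0, e₁, hv₁Y, hne₁⟩ := exists_line_pair hY hne2 (le_trans hs1 hint2)
    refine adj_step_orth hP hr h2 hs hv₁ hv₁0 (hY₂P.map hg) hne₁ hv₁Y ?_ ?_
    · rw [← e₁, finrank_map_inf]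
      exact hint2
    · rintro _ ⟨z', hz', rfl⟩
      apply hP.tr.perp_line
      intro k
      have : k • v₁ ∈ Y.map (g : V →ₗ[F] V) := by rw [e₁]; exact smul_mem_line k v₁
      obtain ⟨z, hz, e⟩ := this
      rw [← e]
      show polar Q (g z) (g z') = 0
      rw [polar_map (hP.hHO hg)]
      exact horth z hz z' hz'

/-- **Stage 2.** -/
theorem adj_all [Finite K] (hP : Pre τ QK Q H) (hr : (Module.finrank F K).Prime)
    (h2 : (2 : K) ≠ 0) (hd : 5 ≤ Module.finrank K V) (h1 : Adj QK H 1) (s : ℕ)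
    (hs : s + 1 ≤ Module.finrank F K) : Adj QK H s := by
  induction s with
  | zero =>
    obtain ⟨X, Y, hX, hY, hne, -⟩ := h1
    exact ⟨X, Y, hX, hY, hne, Nat.zero_le _⟩
  | succ s ih =>
    rcases Nat.eq_zero_or_pos s with rfl | hs0
    · exact h1
    obtain ⟨X, Y, hX, hY, hne, hint⟩ := ih (by omega)
    obtain ⟨g, hg, v, hv, hv0, e, hvY, hne'⟩ := exists_line_pair hX hne (le_trans hs0 hint)
    have hint' : s ≤ Module.finrank F (line F K v ⊓ Y.map (g : V →ₗ[F] V) : Submodule F V) := by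
      rw [← e, finrank_map_inf]
      exact hint
    by_cases horth : ∀ y ∈ Y.map (g : V →ₗ[F] V), polar QK v y = 0
    · exact adj_step_orth hP hr h2 (by omega) hv hv0 (hY.map hg) hne' hvY hint' horth
    · push Not at horth
      obtain ⟨y, hy, hvy⟩ := horth
      exact adj_step_nonorth hP hr h2 hd hs0 (by omega) hv hv0 (hY.map hg) hne' hvY hint' hy hvy

omit [FiniteDimensional F V] [FiniteDimensional F K] [Module F V] [IsScalarTower F K V] in
theorem finrank_span_pair_le (v u : V) : Module.finrank K (Submodule.span K {v, u}) ≤ 2 := by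
  classical
  have h := finrank_span_finset_le_card (R := K) ({v, u} : Finset V)
  rw [Finset.coe_insert, Finset.coe_singleton] at h
  exact le_trans h Finset.card_le_two

omit [FiniteDimensional F V] [FiniteDimensional F K] in
theorem exists_sq_ne (hτ : τ ≠ 0) (h2 : (2 : K) ≠ 0) {c : K} (hc : c ≠ 0) :
    ∃ ω : K, τ (ω * ω * c) ≠ 0 := by
  by_contra hcon
  push Not at hcon
  apply hc
  apply tau_ext hτ
  intro k
  have e : k * c = (k / 2 + 1) * (k / 2 + 1) * c - k / 2 * (k / 2) * c - 1 * 1 * c := by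
    field_simp
    ring
  rw [e, map_sub, map_sub, hcon, hcon, hcon, sub_zero, sub_zero]

/-- A non-orthogonal pair of points meeting in a hyperplane. -/
def NonOrthAdj (QK : QuadraticForm K V) (Q : QuadraticForm F V) (H : Subgroup (V ≃ₗ[F] V)) :
    Prop :=
  ∃ X Y, IsPoint QK H X ∧ IsPoint QK H Y ∧
    Module.finrank F K ≤ Module.finrank F (X ⊓ Y : Submodule F V) + 1 ∧
    ∃ a ∈ X, ∃ b ∈ Y, polar Q a b ≠ 0

/-- **Stage 3.** -/
theorem nonOrthAdj_of_adj [Finite K] (hP : Pre τ QK Q H) (h2 : (2 : K) ≠ 0)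
    (hd : 5 ≤ Module.finrank K V) (hr : 2 ≤ Module.finrank F K)
    (hA : Adj QK H (Module.finrank F K - 1)) : NonOrthAdj QK Q H := by
  have : FiniteDimensional K V := FiniteDimensional.right F K V
  have hG : Good QK := good_of_finite hP.nondeg hd
  obtain ⟨X, Y, hX, hY, hne, hint⟩ := hA
  obtain ⟨g, hg, v, hv, hv0, e, hvY, hne'⟩ := exists_line_pair hX hne (le_trans (by omega) hint)
  set Y' := Y.map (g : V →ₗ[F] V) with hY'def
  have hY' : IsPoint QK H Y' := hY.map hg
  have hint' : Module.finrank F K - 1 ≤ Module.finrank F (line F K v ⊓ Y' : Submodule F V) := by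
    rw [← e, finrank_map_inf]
    exact hint
  by_cases horth : ∀ y ∈ Y', polar QK v y = 0
  · have hXl : IsPoint QK H (line F K v) := isPoint_line hv hv0
    have hYX : ¬ Y' ≤ line F K v := fun h => hne' (hY'.eq_of_le hXl h).symm
    obtain ⟨y, hyY, hyX⟩ := Set.not_subset.1 hYX
    change y ∈ Y' at hyY
    change y ∉ line F K v at hyX
    have hyc : ∀ c : K, y ≠ c • v := fun c h => hyX (mem_line.2 ⟨c, h.symm⟩)
    obtain ⟨v', hyp⟩ := Cfsg.Agent.LieClassical.OrthTrans.exists_hyp hP.nondeg hv hv0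
    obtain ⟨c, f, hcf, hvc, hvf, -, -⟩ := hG.exists_hyp2 hyp
    obtain ⟨u, hu, hvu, huy⟩ : ∃ u, QK u = 0 ∧ polar QK v u = 0 ∧ polar QK u y ≠ 0 := by
      by_contra hcon
      push Not at hcon
      obtain ⟨w, hw1, hw2⟩ := exists_sep hP.nondeg hyc
      have := sing_induction_perp (Q := QK) (x := c) (y := f) (z := v) (w := v) hcf
        hvc hvf hvc hvf (P := fun x => polar QK x y = 0)
        (fun a c _ _ _ _ ha hc => by rw [polar_add_left, ha, hc, add_zero])
        (fun a ha hxa _ => hcon a ha hxa) w hw1 hw1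
      rw [polar_comm, hw2] at this
      exact one_ne_zero this
    obtain ⟨w, hvw, huw, hw⟩ : ∃ w, polar QK v w = 0 ∧ polar QK u w = 0 ∧ QK w ≠ 0 := by
      by_contra hcon
      push Not at hcon
      set W := Submodule.span K {v, u} with hW
      have hmem : ∀ w ∈ perp QK W, QK w = 0 := fun w hw =>
        hcon w (mem_perp.1 hw v (Submodule.subset_span (by simp)))
          (mem_perp.1 hw u (Submodule.subset_span (by simp)))
      have hle : perp QK W ≤ W := by
        intro w hw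
        rw [← perp_perp hP.nondeg W]
        exact mem_perp.2 fun w' hw' => polar_zero_of_ts hmem hw' hw
      have h3 := Submodule.finrank_mono hle
      have h4 := finrank_perp hP.nondeg W
      have h5 : Module.finrank K W ≤ 2 := finrank_span_pair_le v u
      omega
    obtain ⟨ω, hω⟩ := exists_sq_ne hP.tr.ne h2 (c := QK w * (polar QK u y * polar QK u y))
      (mul_ne_zero hw (mul_ne_zero huy huy))
    have huw' : polar QK u (ω • w) = 0 := by rw [polar_smul_right, huw, smul_zero]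
    set a := siegel QK u (ω • w) hu huw' with ha
    have haE : a ∈ E QK := siegel_mem_E hu huw'
    have hav : a v = v := by
      apply siegel_fix
      · rw [polar_comm, hvu]
      · rw [polar_smul_left, polar_comm, hvw, smul_zero]
    refine ⟨Y', Y'.map ((rs a : V ≃ₗ[F] V) : V →ₗ[F] V), hY', hY'.map (hP.hE a haE), ?_,
      y, hyY, a y, ⟨y, hyY, rfl⟩, ?_⟩
    · have h3 : Module.finrank F (line F K v ⊓ Y' : Submodule F V) ≤
          Module.finrank F (Y' ⊓ Y'.map ((rs a : V ≃ₗ[F] V) : V →ₗ[F] V) : Submodule F V) := by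
        refine Submodule.finrank_mono (le_inf inf_le_right fun x hx => ⟨x, hx.2, ?_⟩)
        obtain ⟨k, rfl⟩ := mem_line.1 hx.1
        show a (k • v) = k • v
        rw [map_smul, hav]
      omega
    · have h3 : polar QK y (a y) = 2 * QK y - ω * ω * (QK w * (polar QK u y * polar QK u y)) := by
        rw [ha, siegel_apply, polar_sub_right, polar_sub_right, polar_add_right, polar_smul_right,
          polar_smul_right, polar_smul_right, polar_smul_right, polar_smul_left, polar_self',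
          QuadraticMap.map_smul, polar_comm QK y u, polar_comm QK y w]
        simp only [smul_eq_mul]
        ring
      rw [hP.tr.pol, h3, map_sub]
      have h4 : τ (2 * QK y) = 0 := by
        have h5 : τ (QK y) = 0 := by rw [← hP.tr.eq]; exact hY'.sing hP y hyY
        rw [two_mul, map_add, h5, add_zero]
      rw [h4, zero_sub, neg_ne_zero]
      exact hω
  · push Not at horth
    obtain ⟨y, hy, hvy⟩ := horth
    refine ⟨line F K v, Y', isPoint_line hv hv0, hY', by omega, ?_⟩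
    obtain ⟨k, hk⟩ : ∃ k : K, polar Q (k • v) y ≠ 0 := by
      by_contra hcon
      push Not at hcon
      exact hvy (hP.tr.perp_line hcon)
    exact ⟨k • v, smul_mem_line k v, y, hy, hk⟩

end Fin

end Cfsg.Agent.H925.Ext
end
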